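import Mathlib
import Cfsg.Prelude.Def_OddOrderChar
import Cfsg.Prelude.Def_OddOrderLocal
import Cfsg.Agent.Lib.Coprime.SZ

/-!
# Elementary consequences of the Dade hypothesis, and coprime cosets.
-/

set_option autoImplicit false

namespace Cfsg.Agent.Lib.OddChar

open Cfsg (DadeHypothesis)

universe u

section Coset

variable {Γ : Type u} [Group Γ] [Finite Γ]

/-- An element of order dividing that of `g` in the coset `N g`, is conjugate to `g` under `N`. -/
theorem exists_conj_of_coset (N : Subgroup Γ) [hN : N.Normal] (g v : Γ)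
    (htop : N ⊔ Subgroup.zpowers g = ⊤) (hcop : Nat.Coprime (orderOf g) (Nat.card N))
    (hv : v * g⁻¹ ∈ N) (hvm : v ^ orderOf g = 1) : ∃ x ∈ N, x * v * x⁻¹ = g := by
  have hvo : orderOf v ∣ orderOf g := orderOf_dvd_of_pow_eq_one hvm
  have hcopQ : Nat.Coprime (Nat.card N) (Nat.card (Subgroup.zpowers v)) := by
    rw [Nat.card_zpowers]
    exact (Nat.Coprime.coprime_dvd_left hvo hcop).symm
  have hcopP : Nat.Coprime (Nat.card N) (Nat.card (Subgroup.zpowers g)) := by
    rw [Nat.card_zpowers]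
    exact hcop.symm
  have hdisjQ : Disjoint N (Subgroup.zpowers v) := Subgroup.disjoint_of_coprime_natCard hcopQ
  have hdisjP : Disjoint N (Subgroup.zpowers g) := Subgroup.disjoint_of_coprime_natCard hcopP
  have htopQ : N ⊔ Subgroup.zpowers v = ⊤ := by
    rw [eq_top_iff, ← htop]
    refine sup_le le_sup_left ?_
    rw [Subgroup.zpowers_le]
    have h1 : g = (v * g⁻¹)⁻¹ * v := by group
    rw [h1]
    exact Subgroup.mul_mem _ (Subgroup.mem_sup_left (N.inv_mem hv))
      (Subgroup.mem_sup_right (Subgroup.mem_zpowers v))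
  have hP : Subgroup.IsComplement' N (Subgroup.zpowers g) := by
    refine Subgroup.isComplement'_of_disjoint_and_mul_eq_univ hdisjP ?_
    rw [← Subgroup.normal_mul, htop]
    rfl
  have hQ : Subgroup.IsComplement' N (Subgroup.zpowers v) := by
    refine Subgroup.isComplement'_of_disjoint_and_mul_eq_univ hdisjQ ?_
    rw [← Subgroup.normal_mul, htopQ]
    rfl
  obtain ⟨x, hx, hxP⟩ := Cfsg.Agent.Lib.Coprime.complement_conj hcopQ hQ hP
    (Or.inr (by infer_instance))
  have hg : g ∈ (Subgroup.zpowers v).map (MulAut.conj x).toMonoidHom := by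
    rw [← hxP]
    exact Subgroup.mem_zpowers g
  obtain ⟨w, hw, hwg⟩ := hg
  obtain ⟨i, rfl⟩ := Subgroup.mem_zpowers_iff.mp hw
  have hwg' : x * v ^ i * x⁻¹ = g := hwg
  refine ⟨x, hx, ?_⟩
  -- modulo `N`
  have hφ : ∀ {a b : Γ}, a * b⁻¹ ∈ N → (QuotientGroup.mk' N) a = (QuotientGroup.mk' N) b := by
    intro a b hab
    rw [QuotientGroup.mk'_apply, QuotientGroup.mk'_apply, QuotientGroup.eq]
    have := hN.conj_mem _ hab a⁻¹
    convert N.inv_mem this using 1
    group
  have h1 : (QuotientGroup.mk' N) v = (QuotientGroup.mk' N) g := hφ hv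
  have hx1 : (QuotientGroup.mk' N) x = 1 := by
    rw [QuotientGroup.mk'_apply]
    exact (QuotientGroup.eq_one_iff x).mpr hx
  have h2 : (QuotientGroup.mk' N) g = (QuotientGroup.mk' N) g ^ i := by
    conv_lhs => rw [← hwg']
    simp only [map_mul, map_inv, map_zpow, hx1, one_mul, inv_one, mul_one, h1]
  have h3 : g ^ (i - 1) ∈ N := by
    have h4 : (QuotientGroup.mk' N) (g ^ (i - 1)) = 1 := by
      rw [map_zpow, zpow_sub_one, ← h2]
      simp
    have h5 : g ^ (i - 1) ∈ (QuotientGroup.mk' N).ker := h4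
    rwa [QuotientGroup.ker_mk'] at h5
  have h6 : g ^ (i - 1) = 1 := by
    have h7 := Subgroup.zpow_mem_zpowers g (i - 1)
    exact Subgroup.disjoint_def.mp hdisjP h3 h7
  have h8 : (orderOf g : ℤ) ∣ (i - 1) := orderOf_dvd_iff_zpow_eq_one.mpr h6
  have h9 : (orderOf v : ℤ) ∣ (i - 1) := (Int.natCast_dvd_natCast.mpr hvo).trans h8
  have h10 : v ^ (i - 1) = 1 := orderOf_dvd_iff_zpow_eq_one.mp h9
  have h11 : v ^ i = v := by
    have : i = (i - 1) + 1 := by ring
    rw [this, zpow_add, h10, one_mul, zpow_one]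
  rwa [h11] at hwg'

/-- Normal form for elements of a coset. -/
theorem exists_conj_mul_of_coset (N : Subgroup Γ) [hN : N.Normal] (g y : Γ)
    (htop : N ⊔ Subgroup.zpowers g = ⊤) (hcop : Nat.Coprime (orderOf g) (Nat.card N))
    (hy : y * g⁻¹ ∈ N) : ∃ x ∈ N, ∃ c ∈ N, c * g = g * c ∧ x * y * x⁻¹ = c * g := by
  set m := orderOf g with hm
  set n := Nat.card N with hn
  have hφ : (QuotientGroup.mk' N) y = (QuotientGroup.mk' N) g := by
    rw [QuotientGroup.mk'_apply, QuotientGroup.mk'_apply, QuotientGroup.eq]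
    have := hN.conj_mem _ hy y⁻¹
    convert N.inv_mem this using 1
    group
  have hmem : ∀ z : Γ, (QuotientGroup.mk' N) z = 1 → z ∈ N := by
    intro z hz
    have h5 : z ∈ (QuotientGroup.mk' N).ker := hz
    rwa [QuotientGroup.ker_mk'] at h5
  have hym : y ^ m ∈ N := hmem _ (by rw [map_pow, hφ, ← map_pow, hm, pow_orderOf_eq_one, map_one])
  have hymn : y ^ (m * n) = 1 := by
    rw [pow_mul]
    have := pow_card_eq_one' (G := N) (x := ⟨y ^ m, hym⟩)
    exact congrArg Subtype.val this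
  obtain ⟨a, ha1, ha2⟩ := Nat.chineseRemainder hcop 0 1
  obtain ⟨b, hb1, hb2⟩ := Nat.chineseRemainder hcop 1 0
  have hab : y ^ (a + b) = y := by
    have h1 : a + b ≡ 1 [MOD m * n] := by
      rw [← Nat.modEq_and_modEq_iff_modEq_mul hcop]
      exact ⟨by simpa using ha1.add hb1, by simpa using ha2.add hb2⟩
    have h2 : orderOf y ∣ m * n := orderOf_dvd_of_pow_eq_one hymn
    have h3 : y ^ (a + b) = y ^ 1 := (pow_eq_pow_iff_modEq).mpr (h1.of_dvd h2)
    rwa [pow_one] at h3
  have hma : m ∣ a := (Nat.modEq_zero_iff_dvd).mp ha1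
  have hnb : n ∣ b := (Nat.modEq_zero_iff_dvd).mp hb2
  have hu : y ^ a ∈ N := by
    obtain ⟨a', rfl⟩ := hma
    rw [pow_mul]
    exact N.pow_mem hym a'
  have hvm : (y ^ b) ^ m = 1 := by
    obtain ⟨b', rfl⟩ := hnb
    rw [← pow_mul]
    have : n * b' * m = (m * n) * b' := by ring
    rw [this, pow_mul, hymn, one_pow]
  have hgb : g ^ b = g := by
    have h3 : g ^ b = g ^ 1 := (pow_eq_pow_iff_modEq).mpr hb1
    rwa [pow_one] at h3
  have hv : y ^ b * g⁻¹ ∈ N := by
    refine hmem _ ?_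
    rw [map_mul, map_inv, map_pow, hφ, ← map_pow, hgb]
    simp
  obtain ⟨x, hx, hxv⟩ := exists_conj_of_coset N g (y ^ b) htop hcop hv hvm
  refine ⟨x, hx, x * y ^ a * x⁻¹, hN.conj_mem _ hu x, ?_, ?_⟩
  · rw [← hxv]
    have : y ^ a * y ^ b = y ^ b * y ^ a := (Commute.refl y).pow_pow a b
    calc x * y ^ a * x⁻¹ * (x * y ^ b * x⁻¹) = x * (y ^ a * y ^ b) * x⁻¹ := by group
      _ = x * (y ^ b * y ^ a) * x⁻¹ := by rw [this]
      _ = x * y ^ b * x⁻¹ * (x * y ^ a * x⁻¹) := by group
  · rw [← hxv]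
    calc x * y * x⁻¹ = x * y ^ (a + b) * x⁻¹ := by rw [hab]
      _ = x * y ^ a * x⁻¹ * (x * y ^ b * x⁻¹) := by rw [pow_add]; group

end Coset

section Dade

variable {G : Type u} [Group G] {A : Set G} {L : Subgroup G} {H : G → Subgroup G}

/-- Every element of the centralizer of `a ∈ A` is a product. -/
theorem dade_decomp (hD : DadeHypothesis A L H) {a : G} (ha : a ∈ A) {c : G}
    (hc : c ∈ Subgroup.centralizer ({a} : Set G)) :
    ∃ u ∈ H a, ∃ l ∈ L ⊓ Subgroup.centralizer ({a} : Set G), c = u * l := by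
  let K : Subgroup G :=
    { carrier := {c | ∃ u ∈ H a, ∃ l ∈ L ⊓ Subgroup.centralizer ({a} : Set G), c = u * l}
      mul_mem' := by
        rintro _ _ ⟨u, hu, l, hl, rfl⟩ ⟨u', hu', l', hl', rfl⟩
        refine ⟨u * (l * u' * l⁻¹), (H a).mul_mem hu (hD.conj_mem_H a ha l hl.2 u' hu'),
          l * l', (L ⊓ _).mul_mem hl hl', by group⟩
      one_mem' := ⟨1, (H a).one_mem, 1, Subgroup.one_mem _, by simp⟩
      inv_mem' := by
        rintro _ ⟨u, hu, l, hl, rfl⟩
        refine ⟨l⁻¹ * u⁻¹ * l⁻¹⁻¹, hD.conj_mem_H a ha l⁻¹ (Subgroup.inv_mem _ hl.2) u⁻¹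
          ((H a).inv_mem hu), l⁻¹, (L ⊓ _).inv_mem hl, by group⟩ }
  have hle : H a ⊔ (L ⊓ Subgroup.centralizer ({a} : Set G)) ≤ K := by
    refine sup_le (fun u hu => ⟨u, hu, 1, Subgroup.one_mem _, by simp⟩)
      (fun l hl => ⟨1, (H a).one_mem, l, hl, by simp⟩)
  rw [hD.sup_eq a ha] at hle
  exact hle hc

/-- Elements of `A` commute with their attached subgroup. -/
theorem dade_commute (hD : DadeHypothesis A L H) {a u : G} (ha : a ∈ A) (hu : u ∈ H a) :
    a * u = u * a :=
  (Subgroup.mem_centralizer_singleton_iff.mp (hD.le_centralizer a ha hu)).symm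

/-- The order of an element of `A` divides the order of its centraliser in `L`. -/
theorem dade_orderOf_dvd (hD : DadeHypothesis A L H) {a : G} (ha : a ∈ A) :
    orderOf a ∣ Nat.card ↥(L ⊓ Subgroup.centralizer ({a} : Set G)) :=
  Subgroup.orderOf_dvd_natCard _ ⟨hD.subset ha, Subgroup.mem_centralizer_singleton_iff.mpr rfl⟩

/-- The parts of an element of `a H(a)` are well defined under conjugation. -/
theorem dade_parts_conj (hD : DadeHypothesis A L H) {a b u v g : G} (ha : a ∈ A) (hb : b ∈ A)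
    (hu : u ∈ H a) (hv : v ∈ H b) (hg : g * (a * u) * g⁻¹ = b * v) :
    g * a * g⁻¹ = b ∧ g * u * g⁻¹ = v := by
  have hoa := dade_orderOf_dvd hD ha
  have hob := dade_orderOf_dvd hD hb
  have hou : orderOf u ∣ Nat.card (H a) := Subgroup.orderOf_dvd_natCard _ hu
  have hov : orderOf v ∣ Nat.card (H b) := Subgroup.orderOf_dvd_natCard _ hv
  have c1 : Nat.Coprime (orderOf u) (orderOf a) :=
    Nat.Coprime.coprime_dvd_left hou (Nat.Coprime.coprime_dvd_right hoa (hD.coprime a ha a ha))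
  have c2 : Nat.Coprime (orderOf u) (orderOf b) :=
    Nat.Coprime.coprime_dvd_left hou (Nat.Coprime.coprime_dvd_right hob (hD.coprime a ha b hb))
  have c3 : Nat.Coprime (orderOf v) (orderOf a) :=
    Nat.Coprime.coprime_dvd_left hov (Nat.Coprime.coprime_dvd_right hoa (hD.coprime b hb a ha))
  have c4 : Nat.Coprime (orderOf v) (orderOf b) :=
    Nat.Coprime.coprime_dvd_left hov (Nat.Coprime.coprime_dvd_right hob (hD.coprime b hb b hb))
  have hcop : Nat.Coprime (orderOf a * orderOf b) (orderOf u * orderOf v) :=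
    Nat.Coprime.mul_left (Nat.Coprime.mul_right c1.symm c3.symm)
      (Nat.Coprime.mul_right c2.symm c4.symm)
  obtain ⟨k, hk1, hk2⟩ := Nat.chineseRemainder hcop 1 0
  have hdvd : orderOf u * orderOf v ∣ k := (Nat.modEq_zero_iff_dvd).mp hk2
  have hpa : a ^ k = a := by
    have h3 : a ^ k = a ^ 1 := (pow_eq_pow_iff_modEq).mpr (hk1.of_dvd (dvd_mul_right _ _))
    rwa [pow_one] at h3
  have hpb : b ^ k = b := by
    have h3 : b ^ k = b ^ 1 := (pow_eq_pow_iff_modEq).mpr (hk1.of_dvd (dvd_mul_left _ _))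
    rwa [pow_one] at h3
  have hpu : u ^ k = 1 := orderOf_dvd_iff_pow_eq_one.mp ((dvd_mul_right _ _).trans hdvd)
  have hpv : v ^ k = 1 := orderOf_dvd_iff_pow_eq_one.mp ((dvd_mul_left _ _).trans hdvd)
  have h1 : (a * u) ^ k = a := by
    rw [(show Commute a u from dade_commute hD ha hu).mul_pow, hpa, hpu, mul_one]
  have h2 : (b * v) ^ k = b := by
    rw [(show Commute b v from dade_commute hD hb hv).mul_pow, hpb, hpv, mul_one]
  have h3 : g * a * g⁻¹ = b := by
    rw [← h2, ← hg, conj_pow, h1]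
  refine ⟨h3, ?_⟩
  have h4 : g * (a * u) * g⁻¹ = (g * a * g⁻¹) * (g * u * g⁻¹) := by group
  rw [h4, h3] at hg
  exact mul_left_cancel hg

/-- Cosets attached to `a` and `b` meet under conjugation only if `a` and `b` are `L`-conjugate. -/
theorem dade_coset_fusion (hD : DadeHypothesis A L H) {a b u v g : G} (ha : a ∈ A) (hb : b ∈ A)
    (hu : u ∈ H a) (hv : v ∈ H b) (hg : g * (a * u) * g⁻¹ = b * v) :
    ∃ x ∈ L, x * a * x⁻¹ = b := by
  have h1 := (dade_parts_conj hD ha hb hu hv hg).1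
  obtain ⟨x, hx, hxa⟩ := hD.fusion a ha g (by rw [h1]; exact hb)
  exact ⟨x, hx, by rw [hxa, h1]⟩

/-- The normaliser of a coset. -/
theorem dade_normalizer_coset (hD : DadeHypothesis A L H) {a : G} (ha : a ∈ A) :
    Subgroup.normalizer ((fun u : G => a * u) '' (H a : Set G)) =
      Subgroup.centralizer ({a} : Set G) := by
  apply le_antisymm
  · intro g hg
    have h1 : a * 1 ∈ (fun u : G => a * u) '' (H a : Set G) := ⟨1, (H a).one_mem, rfl⟩
    obtain ⟨u, hu, hu2⟩ := (Subgroup.mem_set_normalizer_iff.mp hg _).mp h1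
    have h2 := (dade_parts_conj hD ha ha (H a).one_mem hu hu2.symm).1
    exact Subgroup.mem_centralizer_singleton_iff.mpr (by
      have : g * a = a * g := by
        calc g * a = g * a * g⁻¹ * g := by group
          _ = a * g := by rw [h2]
      exact this)
  · intro c hc
    have hca : c * a * c⁻¹ = a := by
      rw [Subgroup.mem_centralizer_singleton_iff.mp hc]; group
    have hc' : ∀ c ∈ Subgroup.centralizer ({a} : Set G), ∀ u, c * (a * u) * c⁻¹ = a * (c * u * c⁻¹) := by
      intro c hc u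
      have hca : c * a * c⁻¹ = a := by
        rw [Subgroup.mem_centralizer_singleton_iff.mp hc]; group
      calc c * (a * u) * c⁻¹ = (c * a * c⁻¹) * (c * u * c⁻¹) := by group
        _ = a * (c * u * c⁻¹) := by rw [hca]
    rw [Subgroup.mem_set_normalizer_iff]
    intro n
    constructor
    · rintro ⟨u, hu, rfl⟩
      refine ⟨c * u * c⁻¹, hD.conj_mem_H a ha c hc u hu, ?_⟩
      exact (hc' c hc u).symm
    · rintro ⟨u, hu, hu2⟩
      refine ⟨c⁻¹ * u * c⁻¹⁻¹, hD.conj_mem_H a ha c⁻¹ (Subgroup.inv_mem _ hc) u hu, ?_⟩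
      have h3 := hc' c⁻¹ (Subgroup.inv_mem _ hc) u
      have h4 : c⁻¹ * (c * n * c⁻¹) * c⁻¹⁻¹ = n := by group
      rw [← hu2, ] at h4
      rw [← h4, h3]

/-- The subgroup attached to a conjugate is contained in the conjugate. -/
theorem dade_map_le (hD : DadeHypothesis A L H) {a x : G} (ha : a ∈ A) (hx : x ∈ L) :
    (H a).map (MulAut.conj x).toMonoidHom ≤ H (x * a * x⁻¹) := by
  rintro _ ⟨u, hu, rfl⟩
  change x * u * x⁻¹ ∈ _
  have hb := hD.conj_mem x hx a ha
  set b := x * a * x⁻¹ with hbdef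
  have hw : x * u * x⁻¹ ∈ Subgroup.centralizer ({b} : Set G) := by
    rw [Subgroup.mem_centralizer_singleton_iff]
    have : a * u = u * a := dade_commute hD ha hu
    rw [hbdef]
    calc x * u * x⁻¹ * (x * a * x⁻¹) = x * (u * a) * x⁻¹ := by group
      _ = x * (a * u) * x⁻¹ := by rw [this]
      _ = x * a * x⁻¹ * (x * u * x⁻¹) := by group
  obtain ⟨v, hv, l, hl, hw2⟩ := dade_decomp hD hb hw
  have hpow : ∀ k : ℕ, ∃ v' ∈ H b, (v * l) ^ k = v' * l ^ k := by
    intro k
    induction k with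
    | zero => exact ⟨1, (H b).one_mem, by simp⟩
    | succ k ih =>
      obtain ⟨v', hv', h⟩ := ih
      refine ⟨v' * (l ^ k * v * (l ^ k)⁻¹), (H b).mul_mem hv'
        (hD.conj_mem_H b hb (l ^ k) (Subgroup.pow_mem _ hl.2 k) v hv), ?_⟩
      rw [pow_succ, h, pow_succ]
      group
  set o := orderOf u with ho
  have hwo : (x * u * x⁻¹) ^ o = 1 := by
    rw [conj_pow, ho, pow_orderOf_eq_one]
    group
  obtain ⟨v', hv', h⟩ := hpow o
  rw [← hw2, hwo] at h
  have hlo : l ^ o ∈ H b := by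
    have : l ^ o = v'⁻¹ := (eq_inv_of_mul_eq_one_right h.symm)
    rw [this]
    exact (H b).inv_mem hv'
  have hl1 : l ^ o = 1 := by
    have h1 : l ^ o ∈ H b ⊓ (L ⊓ Subgroup.centralizer ({b} : Set G)) :=
      ⟨hlo, Subgroup.pow_mem _ hl o⟩
    rw [hD.inf_eq_bot b hb] at h1
    exact h1
  have h2 : orderOf l ∣ orderOf u := orderOf_dvd_of_pow_eq_one hl1
  have h3 : Nat.Coprime (orderOf u) (orderOf l) :=
    Nat.Coprime.coprime_dvd_left (Subgroup.orderOf_dvd_natCard _ hu)
      (Nat.Coprime.coprime_dvd_right (Subgroup.orderOf_dvd_natCard _ hl) (hD.coprime a ha b hb))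
  have h4 : orderOf l = 1 := Nat.eq_one_of_dvd_coprimes h3 h2 dvd_rfl
  have h5 : l = 1 := orderOf_eq_one_iff.mp h4
  rw [hw2, h5, mul_one]
  exact hv

/-- The subgroup attached to a conjugate is the conjugate. -/
theorem dade_conj_eq (hD : DadeHypothesis A L H) {a x : G} (ha : a ∈ A) (hx : x ∈ L) :
    H (x * a * x⁻¹) = (H a).map (MulAut.conj x).toMonoidHom := by
  refine le_antisymm ?_ (dade_map_le hD ha hx)
  intro v hv
  have hb := hD.conj_mem x hx a ha
  have h1 := dade_map_le hD hb (L.inv_mem hx)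
  have h2 : x⁻¹ * (x * a * x⁻¹) * x⁻¹⁻¹ = a := by group
  rw [h2] at h1
  have h3 : x⁻¹ * v * x⁻¹⁻¹ ∈ H a := h1 ⟨v, hv, rfl⟩
  exact ⟨_, h3, by simp [MulAut.conj_apply, mul_assoc]⟩

/-- TI subsets in terms of the Dade hypothesis. -/
theorem isTI_iff_dade [Finite G] (hA : A.Nonempty) (h1 : (1 : G) ∉ A) :
    (Cfsg.IsTISubset A ∧ Subgroup.normalizer A = L) ↔ DadeHypothesis A L (fun _ => ⊥) := by
  constructor
  · rintro ⟨hTI, rfl⟩
    have hfix : ∀ a ∈ A, ∀ g : G, g * a * g⁻¹ ∈ A → g ∈ Subgroup.normalizer A := by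
      intro a ha g hg
      by_contra hn
      exact h1 (hTI g hn a ha hg ▸ ha)
    refine ⟨h1, ?_, ?_, ?_, ?_, ?_, ?_, ?_, ?_⟩
    · intro a ha
      exact hfix a ha a (by simpa using ha)
    · intro x hx a ha
      exact (Subgroup.mem_set_normalizer_iff.mp hx a).mp ha
    · intro a ha g hg
      exact ⟨g, hfix a ha g hg, rfl⟩
    · intro a _
      exact bot_le
    · intro a _ c _ u hu
      have : u = 1 := hu
      simp [this]
    · intro a _
      exact bot_inf_eq _
    · intro a ha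
      rw [bot_sup_eq]
      refine inf_eq_right.mpr fun g hg => hfix a ha g ?_
      have : g * a * g⁻¹ = a := by
        rw [Subgroup.mem_centralizer_singleton_iff.mp hg]
        group
      rwa [this]
    · intro a _ b _
      simp
  · intro hD
    have hLN : L ≤ Subgroup.normalizer A := by
      intro x hx
      rw [Subgroup.mem_set_normalizer_iff]
      intro n
      refine ⟨hD.conj_mem x hx n, fun h => ?_⟩
      have := hD.conj_mem x⁻¹ (L.inv_mem hx) _ h
      convert this using 1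
      group
    have hfix : ∀ a ∈ A, ∀ g : G, g * a * g⁻¹ ∈ A → g ∈ L := by
      intro a ha g hg
      obtain ⟨x, hx, hxa⟩ := hD.fusion a ha g hg
      have h2 : x⁻¹ * g ∈ Subgroup.centralizer ({a} : Set G) := by
        rw [Subgroup.mem_centralizer_singleton_iff]
        have h3 : g * a = x * a * x⁻¹ * g := by
          rw [hxa]
          group
        calc x⁻¹ * g * a = x⁻¹ * (g * a) := by group
          _ = x⁻¹ * (x * a * x⁻¹ * g) := by rw [h3]
          _ = a * (x⁻¹ * g) := by group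
      have h4 := hD.sup_eq a ha
      rw [bot_sup_eq] at h4
      rw [← h4] at h2
      have h5 := L.mul_mem hx h2.1
      simpa using h5
    refine ⟨?_, le_antisymm ?_ hLN⟩
    · intro g hg x hx hgx
      exact absurd (hLN (hfix x hx g hgx)) hg
    · intro g hg
      obtain ⟨a, ha⟩ := hA
      exact hfix a ha g ((Subgroup.mem_set_normalizer_iff.mp hg a).mp ha)

end Dade

end Cfsg.Agent.Lib.OddChar
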