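import Mathlib
import Cfsg.Agent.Lib.OddChar.DadeBasic
import Cfsg.Agent.Lib.PGroup.ProductSet
import Cfsg.Agent.Lib.Char.Decomp

/-!
# The Dade isometry: the summation formula and its consequences.
-/

set_option autoImplicit false

open scoped ComplexConjugate Pointwise

namespace Cfsg.Agent.Lib.OddChar

open Cfsg (DadeHypothesis IsClassFunction classInner dadeIsometry)

universe u

section Basic

variable {G : Type u} [Group G] {A : Set G} {L : Subgroup G} {H : G → Subgroup G}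

/-- Subgroups attached to `L`-conjugates have the same order. -/
theorem dade_card_conj (hD : DadeHypothesis A L H) {a x : G} (ha : a ∈ A) (hx : x ∈ L) :
    Nat.card (H (x * a * x⁻¹)) = Nat.card (H a) := by
  rw [dade_conj_eq hD ha hx]
  exact Nat.card_congr ((H a).equivMapOfInjective _ (MulAut.conj x).injective).toEquiv.symm

/-- Conjugation moves the attached subgroups whenever it stays in `A`. -/
theorem dade_conj_mem (hD : DadeHypothesis A L H) {a z u : G} (ha : a ∈ A)
    (hz : z⁻¹ * a * z ∈ A) (hu : u ∈ H a) : z⁻¹ * u * z ∈ H (z⁻¹ * a * z) := by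
  obtain ⟨l, hl, hla⟩ := hD.fusion a ha z⁻¹ (by simpa using hz)
  have hla' : l * a * l⁻¹ = z⁻¹ * a * z := by simpa using hla
  have hc : l⁻¹ * z⁻¹ ∈ Subgroup.centralizer ({a} : Set G) := by
    rw [Subgroup.mem_centralizer_singleton_iff]
    have h1 : z⁻¹ * a = l * a * l⁻¹ * z⁻¹ := by
      rw [hla']
      group
    calc l⁻¹ * z⁻¹ * a = l⁻¹ * (z⁻¹ * a) := by group
      _ = l⁻¹ * (l * a * l⁻¹ * z⁻¹) := by rw [h1]
      _ = a * (l⁻¹ * z⁻¹) := by group
  have h2 := hD.conj_mem_H a ha _ hc u hu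
  have h3 := dade_map_le hD ha hl ⟨_, h2, rfl⟩
  rw [hla'] at h3
  convert h3 using 1
  simp only [MulEquiv.coe_toMonoidHom, MulAut.conj_apply]
  group

/-- Two factorisations of an element of a coset agree. -/
theorem dade_parts_unique (hD : DadeHypothesis A L H) {a b u v : G} (ha : a ∈ A) (hb : b ∈ A)
    (hu : u ∈ H a) (hv : v ∈ H b) (h : a * u = b * v) : a = b ∧ u = v := by
  have := dade_parts_conj hD (g := 1) ha hb hu hv (by simpa using h)
  simpa using this

/-- Value of the Dade map on a conjugate of a coset. -/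
theorem dade_val (hD : DadeHypothesis A L H) {α : L → ℂ} (hα : IsClassFunction L α) {g x u : G}
    {a : L} (ha : (a : G) ∈ A) (hu : u ∈ H a) (hx : x * g * x⁻¹ = a * u) :
    dadeIsometry A L H α g = α a := by
  have hex : ∃ a : L, (a : G) ∈ A ∧ ∃ x : G, ∃ u ∈ H (a : G), x * g * x⁻¹ = (a : G) * u :=
    ⟨a, ha, x, u, hu, hx⟩
  unfold dadeIsometry
  rw [dif_pos hex]
  obtain ⟨ha', x', u', hu', hx'⟩ := Classical.choose_spec hex
  set b : L := Classical.choose hex with hb
  have h1 : (x' * x⁻¹) * ((a : G) * u) * (x' * x⁻¹)⁻¹ = (b : G) * u' := by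
    rw [← hx, ← hx']
    group
  obtain ⟨l, hl, hla⟩ := dade_coset_fusion hD ha ha' hu hu' h1
  have h2 : b = ⟨l, hl⟩ * a * (⟨l, hl⟩ : L)⁻¹ := Subtype.ext (by simpa using hla.symm)
  rw [h2, hα]

/-- The Dade map vanishes off the support. -/
theorem dade_val_zero {α : L → ℂ} {g : G}
    (h : ¬ ∃ a : L, (a : G) ∈ A ∧ ∃ x : G, ∃ u ∈ H (a : G), x * g * x⁻¹ = (a : G) * u) :
    dadeIsometry A L H α g = 0 := by
  unfold dadeIsometry
  rw [dif_neg h]

/-- The Dade image of a class function is a class function. -/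
theorem dade_isClass (hD : DadeHypothesis A L H) {α : L → ℂ} (hα : IsClassFunction L α) :
    IsClassFunction G (dadeIsometry A L H α) := by
  intro g y
  by_cases h : ∃ a : L, (a : G) ∈ A ∧ ∃ x : G, ∃ u ∈ H (a : G), x * g * x⁻¹ = (a : G) * u
  · obtain ⟨a, ha, x, u, hu, hx⟩ := h
    rw [dade_val hD hα ha hu hx, dade_val hD hα ha hu (x := x * y⁻¹) (by rw [← hx]; group)]
  · rw [dade_val_zero h, dade_val_zero]
    rintro ⟨a, ha, x, u, hu, hx⟩
    exact h ⟨a, ha, x * y, u, hu, by rw [← hx]; group⟩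

end Basic

section Sum

variable {G : Type u} [Group G] [Fintype G] {A : Set G} {L : Subgroup G} {H : G → Subgroup G}

/-- The number of conjugates landing in `A`. -/
theorem dade_card_E (hD : DadeHypothesis A L H) {a₀ : G} (ha₀ : a₀ ∈ A) :
    Nat.card {z : G // z⁻¹ * a₀ * z ∈ A} = Nat.card (H a₀) * Nat.card L := by
  classical
  set C : Subgroup G := Subgroup.centralizer ({a₀} : Set G) with hC
  have hE : ((C : Set G) * (L : Set G)) = {z : G | z⁻¹ * a₀ * z ∈ A} := by
    ext z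
    simp only [Set.mem_mul, Set.mem_ofPred_eq, SetLike.mem_coe]
    constructor
    · rintro ⟨c, hc, l, hl, rfl⟩
      have h1 : c⁻¹ * a₀ * c = a₀ := by
        have : c * a₀ = a₀ * c := Subgroup.mem_centralizer_singleton_iff.mp hc
        rw [mul_assoc, ← this]
        group
      have h2 : (c * l)⁻¹ * a₀ * (c * l) = l⁻¹ * (c⁻¹ * a₀ * c) * l⁻¹⁻¹ := by group
      rw [h2, h1]
      exact hD.conj_mem l⁻¹ (L.inv_mem hl) a₀ ha₀
    · intro hz
      obtain ⟨l, hl, hla⟩ := hD.fusion a₀ ha₀ z⁻¹ (by simpa using hz)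
      have hla' : l * a₀ * l⁻¹ = z⁻¹ * a₀ * z := by simpa using hla
      refine ⟨z * l, ?_, l⁻¹, L.inv_mem hl, by group⟩
      rw [hC, Subgroup.mem_centralizer_singleton_iff]
      have h1 : a₀ * z = z * (l * a₀ * l⁻¹) := by
        rw [hla']
        group
      calc z * l * a₀ = z * (l * a₀ * l⁻¹) * l := by group
        _ = a₀ * z * l := by rw [h1]
        _ = a₀ * (z * l) := by group
  have hCset : ((H a₀ : Set G) * ((L ⊓ C : Subgroup G) : Set G)) = (C : Set G) := by
    ext c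
    simp only [Set.mem_mul, SetLike.mem_coe]
    constructor
    · rintro ⟨u, hu, l, hl, rfl⟩
      exact C.mul_mem (hD.le_centralizer a₀ ha₀ hu) hl.2
    · intro hc
      obtain ⟨u, hu, l, hl, rfl⟩ := dade_decomp hD ha₀ hc
      exact ⟨u, hu, l, hl, rfl⟩
  have h1 := Cfsg.Agent.Lib.PGroup.card_coe_mul_coe_mul_card_inf C L
  have h2 := Cfsg.Agent.Lib.PGroup.card_coe_mul_coe_mul_card_inf (H a₀) (L ⊓ C)
  rw [hE] at h1
  rw [hCset, hD.inf_eq_bot a₀ ha₀] at h2
  simp only [Subgroup.card_bot, mul_one] at h2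
  have h3 : Nat.card ↥(C : Set G) = Nat.card C := rfl
  rw [h3] at h2
  rw [inf_comm C L] at h1
  have hpos : 0 < Nat.card ↥(L ⊓ C) := Nat.card_pos
  apply Nat.eq_of_mul_eq_mul_right hpos
  have h4 : Nat.card {z : G // z⁻¹ * a₀ * z ∈ A} = Nat.card ↥{z : G | z⁻¹ * a₀ * z ∈ A} := rfl
  rw [h4, h1, h2]
  ring

open Classical in
/-- The total weight of the pairs in a conjugate of a coset. -/
theorem dade_weight (hD : DadeHypothesis A L H) {a₀ u₀ : G} (y : G) (ha₀ : a₀ ∈ A) (hu₀ : u₀ ∈ H a₀) :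
    ∑ x : G, ∑ p ∈ (Finset.univ.filter fun p : G × G => p.1 ∈ A ∧ p.2 ∈ H p.1).filter
        (fun p => x * (p.1 * p.2) * x⁻¹ = y * (a₀ * u₀) * y⁻¹), (Nat.card (H p.1) : ℂ)⁻¹ =
      (Nat.card L : ℂ) := by
  set κ : ℂ := (Nat.card (H a₀) : ℂ)⁻¹ with hκ
  have hκ0 : (Nat.card (H a₀) : ℂ) ≠ 0 := by exact_mod_cast Nat.card_pos.ne'
  rw [← Equiv.sum_comp (Equiv.mulLeft y)]
  have hterm : ∀ z : G, ∑ p ∈ (Finset.univ.filter fun p : G × G => p.1 ∈ A ∧ p.2 ∈ H p.1).filter
        (fun p => (Equiv.mulLeft y) z * (p.1 * p.2) * ((Equiv.mulLeft y) z)⁻¹ = y * (a₀ * u₀) * y⁻¹),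
      (Nat.card (H p.1) : ℂ)⁻¹ = if z⁻¹ * a₀ * z ∈ A then κ else 0 := by
    intro z
    have hiff : ∀ p : G × G, (Equiv.mulLeft y) z * (p.1 * p.2) * ((Equiv.mulLeft y) z)⁻¹ =
        y * (a₀ * u₀) * y⁻¹ ↔ z * (p.1 * p.2) * z⁻¹ = a₀ * u₀ := by
      intro p
      simp only [Equiv.coe_mulLeft, mul_inv_rev]
      constructor
      · intro h
        have := congrArg (fun w => y⁻¹ * w * y) h
        convert this using 1 <;> group
      · intro h
        rw [← h]
        group
    simp only [hiff]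
    split_ifs with hz
    · have hp₀ : (z⁻¹ * a₀ * z, z⁻¹ * u₀ * z) ∈ (Finset.univ.filter fun p : G × G => p.1 ∈ A ∧ p.2 ∈ H p.1).filter
          (fun p => z * (p.1 * p.2) * z⁻¹ = a₀ * u₀) := by
        simp only [Finset.mem_filter, Finset.mem_univ, true_and]
        refine ⟨⟨hz, dade_conj_mem hD ha₀ hz hu₀⟩, by group⟩
      rw [Finset.sum_eq_single_of_mem _ hp₀]
      · obtain ⟨l, hl, hla⟩ := hD.fusion a₀ ha₀ z⁻¹ (by simpa using hz)
        have hla' : z⁻¹ * a₀ * z = l * a₀ * l⁻¹ := by simpa using hla.symm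
        simp only
        rw [hla', dade_card_conj hD ha₀ hl]
      · intro p hp hne
        exfalso
        simp only [Finset.mem_filter, Finset.mem_univ, true_and] at hp
        obtain ⟨⟨hp1, hp2⟩, hp3⟩ := hp
        have h1 := dade_parts_conj hD hp1 ha₀ hp2 hu₀ hp3
        apply hne
        refine Prod.ext ?_ ?_
        · simp only
          rw [← h1.1]
          group
        · simp only
          rw [← h1.2]
          group
    · refine Finset.sum_eq_zero fun p hp => ?_
      exfalso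
      simp only [Finset.mem_filter, Finset.mem_univ, true_and] at hp
      obtain ⟨⟨hp1, hp2⟩, hp3⟩ := hp
      have h1 := dade_parts_conj hD hp1 ha₀ hp2 hu₀ hp3
      apply hz
      rw [← h1.1]
      convert hp1 using 1
      group
  simp only [hterm]
  rw [Finset.sum_ite, Finset.sum_const_zero, add_zero, Finset.sum_const, nsmul_eq_mul]
  have hcard : ((Finset.univ.filter fun z : G => z⁻¹ * a₀ * z ∈ A).card : ℂ) =
      (Nat.card (H a₀) : ℂ) * Nat.card L := by
    have h1 := dade_card_E hD ha₀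
    rw [Nat.subtype_card (Finset.univ.filter fun z : G => z⁻¹ * a₀ * z ∈ A) (by simp)] at h1
    exact_mod_cast h1
  rw [hcard, hκ]
  field_simp

open Classical in
/-- The summation formula for class functions supported on the conjugates of the cosets. -/
theorem dade_sum (hD : DadeHypothesis A L H) (f : G → ℂ) (hf : IsClassFunction G f)
    (hsupp : ∀ g, (¬ ∃ a ∈ A, ∃ x : G, ∃ u ∈ H a, x * g * x⁻¹ = a * u) → f g = 0) :
    (Nat.card L : ℂ) * ∑ g, f g = (Nat.card G : ℂ) *
      ∑ a ∈ Finset.univ.filter (· ∈ A), (Nat.card (H a) : ℂ)⁻¹ *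
        ∑ u ∈ Finset.univ.filter (· ∈ H a), f (a * u) := by
  set P : Finset (G × G) := Finset.univ.filter fun p : G × G => p.1 ∈ A ∧ p.2 ∈ H p.1 with hP
  have h1 : ∑ a ∈ Finset.univ.filter (· ∈ A), (Nat.card (H a) : ℂ)⁻¹ *
        ∑ u ∈ Finset.univ.filter (· ∈ H a), f (a * u) =
      ∑ p ∈ P, (Nat.card (H p.1) : ℂ)⁻¹ * f (p.1 * p.2) := by
    rw [hP, Finset.sum_filter, Finset.sum_filter, Fintype.sum_prod_type]
    refine Finset.sum_congr rfl fun a _ => ?_
    by_cases ha : a ∈ A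
    · simp only [ha, if_true, true_and, Finset.sum_filter, Finset.mul_sum]
      refine Finset.sum_congr rfl fun u _ => ?_
      split_ifs <;> simp
    · simp [ha]
  have h2 : (Nat.card G : ℂ) * ∑ p ∈ P, (Nat.card (H p.1) : ℂ)⁻¹ * f (p.1 * p.2) =
      ∑ x : G, ∑ p ∈ P, (Nat.card (H p.1) : ℂ)⁻¹ * f (x * (p.1 * p.2) * x⁻¹) := by
    have hf' : ∀ g h : G, f (h * g * h⁻¹) = f g := hf
    simp only [hf']
    rw [Finset.sum_const, Finset.card_univ, Nat.card_eq_fintype_card, nsmul_eq_mul]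
  have h3 : ∀ x : G, ∑ p ∈ P, (Nat.card (H p.1) : ℂ)⁻¹ * f (x * (p.1 * p.2) * x⁻¹) =
      ∑ g : G, f g * ∑ p ∈ P.filter (fun p => x * (p.1 * p.2) * x⁻¹ = g), (Nat.card (H p.1) : ℂ)⁻¹ := by
    intro x
    rw [← Finset.sum_fiberwise P (fun p => x * (p.1 * p.2) * x⁻¹)]
    refine Finset.sum_congr rfl fun g _ => ?_
    rw [Finset.mul_sum]
    refine Finset.sum_congr rfl fun p hp => ?_
    rw [(Finset.mem_filter.mp hp).2, mul_comm]
  rw [h1, h2]
  simp only [h3]
  rw [Finset.sum_comm, Finset.mul_sum]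
  refine Finset.sum_congr rfl fun g _ => ?_
  rw [← Finset.mul_sum]
  by_cases hg : ∃ a ∈ A, ∃ x : G, ∃ u ∈ H a, x * g * x⁻¹ = a * u
  · obtain ⟨a, ha, x, u, hu, hx⟩ := hg
    have hgy : g = x⁻¹ * (a * u) * x⁻¹⁻¹ := by
      rw [← hx]
      group
    have := dade_weight hD x⁻¹ ha hu
    rw [← hgy] at this
    rw [hP, this, mul_comm]
  · rw [hsupp g hg]
    simp

open Classical in
/-- Sums over a subgroup coincide with sums over the filter. -/
theorem finsum_coe_subgroup (K : Subgroup G) (f : G → ℂ) :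
    ∑ᶠ u ∈ (K : Set G), f u = ∑ u ∈ Finset.univ.filter (· ∈ K), f u := by
  have : (K : Set G) = ↑(Finset.univ.filter (· ∈ K)) := by
    ext u
    simp
  rw [this, finsum_mem_coe_finset]

/-- The adjoint formula for the Dade map. -/
theorem dade_inner (hD : DadeHypothesis A L H) [Fintype L] {α : L → ℂ} (hα : IsClassFunction L α)
    (hαA : ∀ x : L, (x : G) ∉ A → α x = 0) (χ : G → ℂ) (ψ : L → ℂ) (hχ : IsClassFunction G χ)
    (hψ : ∀ a : L, (a : G) ∈ A → ψ a = (Nat.card (H a) : ℂ)⁻¹ * ∑ᶠ u ∈ (H a : Set G), χ (a * u)) :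
    classInner (dadeIsometry A L H α) χ = classInner α ψ := by
  classical
  set f : G → ℂ := fun g => dadeIsometry A L H α g * conj (χ g) with hf
  have hfc : IsClassFunction G f := by
    intro g y
    simp only [hf]
    rw [dade_isClass hD hα g y, hχ g y]
  have hsupp : ∀ g, (¬ ∃ a ∈ A, ∃ x : G, ∃ u ∈ H a, x * g * x⁻¹ = a * u) → f g = 0 := by
    intro g hg
    simp only [hf]
    rw [dade_val_zero, zero_mul]
    rintro ⟨a, ha, h⟩
    exact hg ⟨a, ha, h⟩
  have hsum := dade_sum hD f hfc hsupp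
  have hG : (Nat.card G : ℂ) ≠ 0 := by exact_mod_cast Nat.card_pos.ne'
  have hL : (Nat.card L : ℂ) ≠ 0 := by exact_mod_cast Nat.card_pos.ne'
  have hterm : ∀ l : L, (l : G) ∈ A → (Nat.card (H l) : ℂ)⁻¹ *
      ∑ u ∈ Finset.univ.filter (· ∈ H l), f (l * u) = α l * conj (ψ l) := by
    intro l hl
    have h : ∑ u ∈ Finset.univ.filter (· ∈ H l), f (l * u) =
        α l * ∑ u ∈ Finset.univ.filter (· ∈ H l), conj (χ (l * u)) := by
      rw [Finset.mul_sum]
      refine Finset.sum_congr rfl fun u hu => ?_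
      have hu' : u ∈ H l := (Finset.mem_filter.mp hu).2
      simp only [hf]
      rw [dade_val hD hα hl hu' (x := 1) (by simp)]
    rw [hψ l hl, finsum_coe_subgroup, map_mul, map_sum, map_inv₀, Complex.conj_natCast, h]
    ring
  have hconv : ∑ a ∈ Finset.univ.filter (· ∈ A), (Nat.card (H a) : ℂ)⁻¹ *
        ∑ u ∈ Finset.univ.filter (· ∈ H a), f (a * u) = ∑ l : L, α l * conj (ψ l) := by
    have h1 : ∑ l : L, α l * conj (ψ l) =
        ∑ l ∈ Finset.univ.filter (fun l : L => (l : G) ∈ A), α l * conj (ψ l) := by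
      rw [Finset.sum_filter]
      refine Finset.sum_congr rfl fun l _ => ?_
      split_ifs with h
      · rfl
      · rw [hαA l h, zero_mul]
    rw [h1]
    symm
    refine Finset.sum_bij (fun (l : L) _ => (l : G)) ?_ ?_ ?_ ?_
    · intro l hl
      simpa using hl
    · intro l _ l' _ h
      exact Subtype.ext h
    · intro a ha
      have ha' : a ∈ A := by simpa using ha
      exact ⟨⟨a, hD.subset ha'⟩, by simpa using ha', rfl⟩
    · intro l hl
      exact (hterm l (by simpa using hl)).symm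
  rw [hconv] at hsum
  rw [Cfsg.Agent.Lib.Char.classInner_def, Cfsg.Agent.Lib.Char.classInner_def]
  field_simp
  linear_combination hsum

/-- The isometry formula for the Dade map. -/
theorem dade_isometry (hD : DadeHypothesis A L H) [Fintype L] {α β : L → ℂ} (hα : IsClassFunction L α)
    (hαA : ∀ x : L, (x : G) ∉ A → α x = 0) (hβ : IsClassFunction L β) :
    classInner (dadeIsometry A L H α) (dadeIsometry A L H β) = classInner α β := by
  classical
  refine dade_inner hD hα hαA _ β (dade_isClass hD hβ) ?_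
  intro a ha
  rw [finsum_coe_subgroup]
  have h1 : ∀ u ∈ Finset.univ.filter (· ∈ H a), dadeIsometry A L H β (a * u) = β a := by
    intro u hu
    exact dade_val hD hβ ha (Finset.mem_filter.mp hu).2 (x := 1) (by simp)
  rw [Finset.sum_congr rfl h1, Finset.sum_const, nsmul_eq_mul]
  have h2 : (Finset.univ.filter (· ∈ H a)).card = Nat.card (H a) :=
    (Nat.subtype_card _ (by simp)).symm
  rw [h2]
  have h3 : (Nat.card (H a) : ℂ) ≠ 0 := by exact_mod_cast Nat.card_pos.ne'
  field_simp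

end Sum

end Cfsg.Agent.Lib.OddChar
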