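import Mathlib
import Cfsg.Agent.Lib.OddChar.DadeIso
import Cfsg.Agent.S1496
import Cfsg.Agent.Lib.OddChar.Coh

/-!
# Integrality of the Dade map: an inclusion-exclusion formula on the adjoint.
-/

set_option autoImplicit false

open scoped ComplexConjugate Pointwise

namespace Cfsg.Agent.Lib.OddChar

open Cfsg (DadeHypothesis IsClassFunction classInner dadeIsometry IsCharacter IsIrrCharacter
  IrrCharacter IsGeneralizedCharacter)
open Cfsg.Agent.Lib.Char

universe u v

section Avg

/-- The trace of `γ` on the fixed points of a subgroup normalised by `γ` is a character. -/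
theorem avg_isCharacter {G : Type u} [Group G] [Finite G] {Γ : Type v} [Group Γ] (f : Γ →* G)
    (T : Subgroup G) [Fintype T] (hT : ∀ γ, ∀ u ∈ T, f γ * u * (f γ)⁻¹ ∈ T) {χ : G → ℂ}
    (hχ : IsCharacter G χ) :
    IsCharacter Γ (fun γ => (Nat.card T : ℂ)⁻¹ * ∑ u : T, χ (f γ * u)) := by
  classical
  obtain ⟨n, ρ, rfl⟩ := hχ
  have hTne : (Nat.card T : ℂ) ≠ 0 := by exact_mod_cast Nat.card_pos.ne'
  let V := Fin n → ℂ
  let e : Module.End ℂ V := (Nat.card T : ℂ)⁻¹ • ∑ u : T, ρ u
  have hρe : ∀ v : T, ρ v * e = e := by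
    intro v
    simp only [e]
    rw [mul_smul_comm, Finset.mul_sum]
    congr 1
    refine Fintype.sum_equiv (Equiv.mulLeft v) _ _ fun u => ?_
    simp only [Equiv.coe_mulLeft, Subgroup.coe_mul, map_mul]
  have he2 : e * e = e := by
    conv_lhs => enter [1]; simp only [e]
    rw [smul_mul_assoc, Finset.sum_mul]
    have h1 : ∑ u : T, (ρ (u : G) * e) = ∑ _u : T, e := Finset.sum_congr rfl fun u _ => hρe u
    rw [h1, Finset.sum_const, Finset.card_univ, ← Nat.card_eq_fintype_card, ← Nat.cast_smul_eq_nsmul ℂ,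
      smul_smul, inv_mul_cancel₀ hTne, one_smul]
  have hcomm : ∀ γ : Γ, ρ (f γ) * e = e * ρ (f γ) := by
    intro γ
    simp only [e]
    rw [mul_smul_comm, smul_mul_assoc, Finset.mul_sum, Finset.sum_mul]
    congr 1
    let c : T ≃ T :=
      { toFun := fun u => ⟨f γ * u * (f γ)⁻¹, hT γ u u.2⟩
        invFun := fun u => ⟨(f γ)⁻¹ * u * f γ, by
          have h1 := hT γ⁻¹ u u.2
          simpa using h1⟩
        left_inv := fun u => by
          apply Subtype.ext
          simp only
          group
        right_inv := fun u => by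
          apply Subtype.ext
          simp only
          group }
    refine Fintype.sum_equiv c _ _ fun u => ?_
    have h1 : f γ * (u : G) = (c u : G) * f γ := by
      simp only [c]
      change f γ * (u : G) = f γ * u * (f γ)⁻¹ * f γ
      group
    rw [← map_mul, ← map_mul, h1]
  let W : Submodule ℂ V := LinearMap.range e
  have hW : ∀ w ∈ W, e w = w := by
    rintro _ ⟨v, rfl⟩
    exact congrFun (congrArg DFunLike.coe he2) v
  have hstable : ∀ (γ : Γ), ∀ w ∈ W, ρ (f γ) w ∈ W := by
    rintro γ _ ⟨v, rfl⟩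
    refine ⟨ρ (f γ) v, ?_⟩
    exact (congrFun (congrArg DFunLike.coe (hcomm γ)) v).symm
  let ρ' : Representation ℂ Γ W :=
    { toFun := fun γ => (ρ (f γ)).restrict (hstable γ)
      map_one' := by
        ext w
        simp
      map_mul' := fun a b => by
        ext w
        simp [LinearMap.restrict_apply] }
  have hchar : ρ'.character = fun γ => (Nat.card T : ℂ)⁻¹ * ∑ u : T, ρ.character (f γ * u) := by
    funext γ
    let i : W →ₗ[ℂ] V := W.subtype
    let r : V →ₗ[ℂ] W := e.rangeRestrict
    have h1 : ρ' γ = r ∘ₗ (ρ (f γ) ∘ₗ i) := by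
      ext1 w
      apply Subtype.ext
      change ρ (f γ) (w : V) = e (ρ (f γ) w)
      rw [hW _ (hstable γ w w.2)]
    have h2 : (ρ (f γ) ∘ₗ i) ∘ₗ r = ρ (f γ) ∘ₗ e := by
      ext1 v
      rfl
    change LinearMap.trace ℂ W (ρ' γ) = _
    rw [h1, LinearMap.trace_comp_comm', h2]
    change LinearMap.trace ℂ V (ρ (f γ) * e) = _
    simp only [e]
    rw [mul_smul_comm, map_smul, Finset.mul_sum, map_sum, smul_eq_mul]
    congr 1
    refine Finset.sum_congr rfl fun u _ => ?_
    rw [← map_mul]
    rfl
  rw [← hchar]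
  exact isCharacter_character ρ'

/-- The coset sum of a class function under a coprime action. -/
theorem sum_coprime_coset {G : Type u} [Group G] [Fintype G] (T : Subgroup G) [Fintype T] (y : G)
    (hn : ∀ u ∈ T, y * u * y⁻¹ ∈ T) (hn' : ∀ u ∈ T, y⁻¹ * u * y ∈ T)
    (hcop : Nat.Coprime (orderOf y) (Nat.card T)) (F : G → ℂ) (hF : IsClassFunction G F)
    (C : Subgroup G) [Fintype C] (hC : ∀ c, c ∈ C ↔ c ∈ T ∧ y * c = c * y) :
    (Nat.card C : ℂ) * ∑ u : T, F (y * u) = (Nat.card T : ℂ) * ∑ c : C, F (y * c) := by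
  classical
  -- the map
  let φ : T × C → T := fun p => ⟨y⁻¹ * p.1 * y * p.2 * (p.1 : G)⁻¹, by
    refine T.mul_mem (T.mul_mem (hn' _ p.1.2) ((hC _).mp p.2.2).1) (T.inv_mem p.1.2)⟩
  have hφ : ∀ p : T × C, (p.1 : G) * (y * p.2) * (p.1 : G)⁻¹ = y * φ p := by
    intro p
    simp only [φ]
    group
  have hLHS : ∑ p : T × C, F (y * φ p) = (Nat.card T : ℂ) * ∑ c : C, F (y * c) := by
    rw [Fintype.sum_prod_type]
    have h1 : ∀ x : T, ∑ c : C, F (y * φ (x, c)) = ∑ c : C, F (y * c) := by
      intro x
      refine Finset.sum_congr rfl fun c _ => ?_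
      rw [← hφ (x, c)]
      exact hF _ _
    rw [Finset.sum_congr rfl fun x _ => h1 x, Finset.sum_const, Finset.card_univ,
      ← Nat.card_eq_fintype_card, nsmul_eq_mul]
  -- fibres
  obtain ⟨m, hm1, hm2⟩ : ∃ m : ℕ, y ^ m = y ∧ ∀ c ∈ T, c ^ m = 1 := by
    obtain ⟨k, hk1, hk2⟩ := Nat.chineseRemainder hcop 1 0
    refine ⟨k, ?_, fun c hc => ?_⟩
    · rw [← pow_one y, ← pow_mul, one_mul]
      exact (pow_eq_pow_iff_modEq).mpr hk1
    · obtain ⟨q, rfl⟩ := (Nat.modEq_zero_iff_dvd).mp hk2
      have h1 : (⟨c, hc⟩ : T) ^ Nat.card T = 1 := pow_card_eq_one'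
      have h2 : c ^ Nat.card T = 1 := congrArg Subtype.val h1
      rw [pow_mul, h2, one_pow]
  have hpow : ∀ c ∈ C, (y * c) ^ m = y := by
    intro c hc
    obtain ⟨h1, h2⟩ := (hC c).mp hc
    rw [(show Commute y c from h2).mul_pow, hm1, hm2 c h1, mul_one]
  have hnorm : y ∈ Subgroup.normalizer (T : Set G) := by
    rw [Subgroup.mem_set_normalizer_iff]
    intro g
    constructor
    · exact hn g
    · intro h
      have h1 := hn' _ h
      have h2 : y⁻¹ * (y * g * y⁻¹) * y = g := by group
      rwa [h2] at h1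
  have hfiber : ∀ u : T, (Finset.univ.filter (fun p : T × C => φ p = u)).card = Nat.card C := by
    intro u
    obtain ⟨x, hx, c, hc, hcy, hxc⟩ := Cfsg.Agent.S1496.result T y hnorm hcop (y * u * y⁻¹) (hn u u.2)
    have hc₀ : c ∈ C := (hC c).mpr ⟨hc, hcy.symm⟩
    have hp₀ : (x⁻¹ : G) * (y * c) * (x⁻¹ : G)⁻¹ = y * u := by
      have h1 : x * (y * u) * x⁻¹ = y * c := by
        rw [← hcy, ← hxc]
        group
      rw [← h1]
      group
    let x₀ : T := ⟨x⁻¹, T.inv_mem hx⟩
    let c₀ : C := ⟨c, hc₀⟩
    let Ψ : C → T × C := fun z => (x₀ * ⟨z, ((hC z).mp z.2).1⟩, z⁻¹ * c₀ * z)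
    have hΨinj : Function.Injective Ψ := by
      intro a b hab
      have h1 := congrArg (fun p : T × C => ((p.1 : T) : G)) hab
      simp only [Ψ, Subgroup.coe_mul] at h1
      exact Subtype.ext (mul_left_cancel h1)
    have hset : Finset.univ.filter (fun p : T × C => φ p = u) = Finset.univ.image Ψ := by
      ext p
      simp only [Finset.mem_filter, Finset.mem_univ, true_and, Finset.mem_image]
      constructor
      · intro hp
        have h1 := hφ p
        rw [hp] at h1
        set z : G := (x₀ : G)⁻¹ * (p.1 : G) with hz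
        have hzT : z ∈ T := T.mul_mem (T.inv_mem x₀.2) p.1.2
        have h2 : z * (y * p.2) * z⁻¹ = y * c := by
          have h3 : (x₀ : G) * (y * c) * (x₀ : G)⁻¹ = (p.1 : G) * (y * p.2) * (p.1 : G)⁻¹ := by
            rw [h1]
            exact hp₀
          calc z * (y * p.2) * z⁻¹ = (x₀ : G)⁻¹ * ((p.1 : G) * (y * p.2) * (p.1 : G)⁻¹) * (x₀ : G) := by
                simp only [hz]
                group
            _ = (x₀ : G)⁻¹ * ((x₀ : G) * (y * c) * (x₀ : G)⁻¹) * (x₀ : G) := by rw [h3]
            _ = y * c := by group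
        have h4 : z * y * z⁻¹ = y := by
          have h5 := congrArg (· ^ m) h2
          simp only [conj_pow] at h5
          rw [hpow _ p.2.2, hpow _ hc₀] at h5
          exact h5
        have hzC : z ∈ C := (hC z).mpr ⟨hzT, by
          have : z * y = y * z := by
            calc z * y = z * y * z⁻¹ * z := by group
              _ = y * z := by rw [h4]
          exact this.symm⟩
        refine ⟨⟨z, hzC⟩, ?_⟩
        apply Prod.ext
        · apply Subtype.ext
          simp only [Ψ, Subgroup.coe_mul, hz]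
          group
        · apply Subtype.ext
          simp only [Ψ, Subgroup.coe_mul, Subgroup.coe_inv]
          have h6 : z * (p.2 : G) * z⁻¹ = c := by
            have h7 : (z * y * z⁻¹) * (z * (p.2 : G) * z⁻¹) = y * c := by
              rw [← h2]
              group
            rw [h4] at h7
            exact mul_left_cancel h7
          change z⁻¹ * c * z = p.2
          rw [← h6]
          group
      · rintro ⟨z, rfl⟩
        apply Subtype.ext
        apply mul_left_cancel (a := y)
        have h1 := hφ (Ψ z)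
        change y * (φ (Ψ z) : G) = y * u
        rw [← h1, ← hp₀]
        simp only [Ψ, Subgroup.coe_mul, Subgroup.coe_inv]
        have hzy : (z : G) * y = y * z := ((hC z).mp z.2).2.symm
        change (x⁻¹ * (z : G)) * (y * ((z : G)⁻¹ * c * z)) * (x⁻¹ * (z : G))⁻¹ = _
        have h2 : (z : G) * (y * ((z : G)⁻¹ * c * z)) * (z : G)⁻¹ = y * c := by
          calc (z : G) * (y * ((z : G)⁻¹ * c * z)) * (z : G)⁻¹ = ((z : G) * y) * (z : G)⁻¹ * c := by group
            _ = (y * z) * (z : G)⁻¹ * c := by rw [hzy]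
            _ = y * c := by group
        calc (x⁻¹ * (z : G)) * (y * ((z : G)⁻¹ * c * z)) * (x⁻¹ * (z : G))⁻¹
            = x⁻¹ * ((z : G) * (y * ((z : G)⁻¹ * c * z)) * (z : G)⁻¹) * x⁻¹⁻¹ := by group
          _ = _ := by rw [h2]
    rw [hset, Finset.card_image_of_injective _ hΨinj, Finset.card_univ, Nat.card_eq_fintype_card]
  have hRHS : ∑ p : T × C, F (y * φ p) = (Nat.card C : ℂ) * ∑ u : T, F (y * u) := by
    rw [← Finset.sum_fiberwise Finset.univ φ (fun p => F (y * φ p)), Finset.mul_sum]
    refine Finset.sum_congr rfl fun u _ => ?_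
    have h1 : ∀ p ∈ Finset.univ.filter (fun p : T × C => φ p = u), F (y * φ p) = F (y * u) := by
      intro p hp
      rw [(Finset.mem_filter.mp hp).2]
    rw [Finset.sum_congr rfl h1, Finset.sum_const, hfiber u, nsmul_eq_mul]
  rw [← hRHS, hLHS]

end Avg

section Orbits

/-- Summing an invariant integer function weighted by stabiliser orders. -/
theorem sum_stabilizer_mul_int {Γ Y : Type*} [Group Γ] [Finite Γ] [Fintype Y] [MulAction Γ Y]
    (n : Y → ℤ) (hn : ∀ (g : Γ) (y : Y), n (g • y) = n y) :
    ∃ m : ℤ, ∑ y : Y, (Nat.card (MulAction.stabilizer Γ y) : ℂ) * (n y : ℂ) = (Nat.card Γ : ℂ) * m := by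
  classical
  let Q := MulAction.orbitRel.Quotient Γ Y
  letI : Fintype Q := Fintype.ofFinite _
  let q : Y → Q := fun y => Quotient.mk'' y
  refine ⟨∑ ω : Q, n ω.out, ?_⟩
  rw [← Finset.sum_fiberwise Finset.univ q, Int.cast_sum, Finset.mul_sum]
  refine Finset.sum_congr rfl fun ω _ => ?_
  set y₀ : Y := ω.out with hy₀
  have hq₀ : q y₀ = ω := Quotient.out_eq' ω
  have hmem : ∀ y, q y = ω ↔ y ∈ MulAction.orbit Γ y₀ := by
    intro y
    rw [← hq₀]
    change Quotient.mk'' y = Quotient.mk'' y₀ ↔ _
    rw [Quotient.eq'']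
    exact MulAction.orbitRel_apply
  have hfib : ∀ y ∈ Finset.univ.filter (fun y => q y = ω),
      (Nat.card (MulAction.stabilizer Γ y) : ℂ) * (n y : ℂ) =
        (Nat.card (MulAction.stabilizer Γ y₀) : ℂ) * (n y₀ : ℂ) := by
    intro y hy
    obtain ⟨g, rfl⟩ := (hmem y).mp (Finset.mem_filter.mp hy).2
    have h1 : Nat.card (MulAction.stabilizer Γ (g • y₀)) = Nat.card (MulAction.stabilizer Γ y₀) := by
      have h2 := Subgroup.card_mul_index (MulAction.stabilizer Γ (g • y₀))
      have h3 := Subgroup.card_mul_index (MulAction.stabilizer Γ y₀)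
      rw [MulAction.index_stabilizer, MulAction.orbit_smul] at h2
      rw [MulAction.index_stabilizer] at h3
      have h4 : 0 < (MulAction.orbit Γ y₀).ncard := by
        rw [← MulAction.index_stabilizer]
        exact Nat.pos_of_ne_zero Subgroup.index_ne_zero_of_finite
      exact Nat.eq_of_mul_eq_mul_right h4 (h2.trans h3.symm)
    rw [h1, hn]
  rw [Finset.sum_congr rfl hfib, Finset.sum_const, nsmul_eq_mul]
  have hcard : (Finset.univ.filter (fun y => q y = ω)).card = (MulAction.orbit Γ y₀).ncard := by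
    rw [← Set.ncard_coe_finset]
    congr 1
    ext y
    simp [hmem]
  have h3 := Subgroup.card_mul_index (MulAction.stabilizer Γ y₀)
  rw [MulAction.index_stabilizer] at h3
  rw [hcard, ← mul_assoc, ← Nat.cast_mul, mul_comm (MulAction.orbit Γ y₀).ncard, h3]

end Orbits

section Adjoint

variable {G : Type u} [Group G] [Fintype G] {A : Set G} {L : Subgroup G} {H : G → Subgroup G}

/-- The intersection of the subgroups attached to a set. -/
def dadeT (H : G → Subgroup G) (B : Finset G) : Subgroup G := ⨅ b ∈ B, H b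

theorem mem_dadeT {B : Finset G} {u : G} : u ∈ dadeT H B ↔ ∀ b ∈ B, u ∈ H b := by
  simp [dadeT, Subgroup.mem_iInf]

open Classical in
/-- Conjugate of a finite set. -/
noncomputable def conjFin (l : G) (B : Finset G) : Finset G := B.image (fun b => l * b * l⁻¹)

theorem mem_conjFin {l x : G} {B : Finset G} : x ∈ conjFin l B ↔ l⁻¹ * x * l ∈ B := by
  classical
  simp only [conjFin, Finset.mem_image]
  constructor
  · rintro ⟨b, hb, rfl⟩
    simpa [mul_assoc] using hb
  · intro h
    exact ⟨_, h, by group⟩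

theorem conjFin_one (B : Finset G) : conjFin 1 B = B := by
  ext x
  rw [mem_conjFin]
  simp

theorem conjFin_mul (a b : G) (B : Finset G) : conjFin (a * b) B = conjFin a (conjFin b B) := by
  ext x
  rw [mem_conjFin, mem_conjFin, mem_conjFin]
  have : (a * b)⁻¹ * x * (a * b) = b⁻¹ * (a⁻¹ * x * a) * b := by group
  rw [this]

theorem card_conjFin (l : G) (B : Finset G) : (conjFin l B).card = B.card := by
  classical
  refine Finset.card_image_of_injective _ fun a b h => ?_
  simpa using h

/-- The set stabiliser in `L`. -/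
def stabSub (L : Subgroup G) (B : Finset G) : Subgroup L where
  carrier := {l | conjFin (l : G) B = B}
  mul_mem' := by
    intro a b ha hb
    change conjFin ((a * b : L) : G) B = B
    rw [Subgroup.coe_mul, conjFin_mul, show conjFin (b : G) B = B from hb]
    exact ha
  one_mem' := conjFin_one B
  inv_mem' := by
    intro a ha
    change conjFin ((a⁻¹ : L) : G) B = B
    have h1 : conjFin ((a⁻¹ : L) : G) (conjFin (a : G) B) = B := by
      rw [← conjFin_mul]
      simp [conjFin_one]
    rw [show conjFin (a : G) B = B from ha] at h1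
    exact h1

theorem mem_stabSub {B : Finset G} {l : L} : l ∈ stabSub L B ↔ conjFin (l : G) B = B := Iff.rfl

theorem conj_mem_of_stab {B : Finset G} {l : L} (h : l ∈ stabSub L B) {b : G} (hb : b ∈ B) :
    (l : G) * b * (l : G)⁻¹ ∈ B := by
  have h1 : conjFin (l : G) B = B := h
  have h2 : (l : G) * b * (l : G)⁻¹ ∈ conjFin (l : G) B := mem_conjFin.mpr (by
    have : (l : G)⁻¹ * ((l : G) * b * (l : G)⁻¹) * (l : G) = b := by group
    rwa [this])
  rwa [h1] at h2

/-- The permutation induced on the set by its stabiliser. -/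
def stabPerm (B : Finset G) : stabSub L B →* Equiv.Perm B where
  toFun l :=
    { toFun := fun b => ⟨(l : G) * b * (l : G)⁻¹, conj_mem_of_stab l.2 b.2⟩
      invFun := fun b => ⟨((l⁻¹ : stabSub L B) : G) * b * (((l⁻¹ : stabSub L B) : G))⁻¹,
        conj_mem_of_stab (l⁻¹ : stabSub L B).2 b.2⟩
      left_inv := fun b => by
        apply Subtype.ext
        simp only [Subgroup.coe_inv]
        group
      right_inv := fun b => by
        apply Subtype.ext
        simp only [Subgroup.coe_inv]
        group }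
  map_one' := by
    ext b
    simp
  map_mul' := fun a b => by
    ext c
    simp only [Subgroup.coe_mul, Equiv.coe_fn_mk, Equiv.Perm.coe_mul, Function.comp_apply]
    group

open Classical in
/-- The sign of the permutation induced on the set. -/
noncomputable def dadeSign (L : Subgroup G) (B : Finset G) (y : L) : ℂ :=
  if h : y ∈ stabSub L B then ((Equiv.Perm.sign (stabPerm B ⟨y, h⟩) : ℤˣ) : ℤ) else 0

open Classical in
/-- The average of `χ` over the coset. -/
noncomputable def dadeAvg (H : G → Subgroup G) (χ : G → ℂ) (B : Finset G) (y : G) : ℂ :=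
  (Nat.card (dadeT H B) : ℂ)⁻¹ * ∑ u : dadeT H B, χ (y * u)

/-- The weight. -/
noncomputable def dadeW (L : Subgroup G) (H : G → Subgroup G) (χ : G → ℂ) (B : Finset G) (y : L) : ℂ :=
  (-1) ^ (B.card + 1) * dadeSign L B y * dadeAvg H χ B y

open Classical in
/-- Adding a fixed point does not change the sign. -/
theorem dadeSign_insert {B : Finset G} {y : L} (hy : (y : G) ∉ B) :
    dadeSign L (insert (y : G) B) y = dadeSign L B y := by
  classical
  have h3 : ∀ x : G, (y : G)⁻¹ * x * (y : G) = y ↔ x = y := by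
    intro x
    constructor
    · intro h4
      have h5 : (y : G) * ((y : G)⁻¹ * x * (y : G)) * (y : G)⁻¹ = (y : G) * y * (y : G)⁻¹ := by rw [h4]
      simpa [mul_assoc] using h5
    · rintro rfl
      group
  have hiff : y ∈ stabSub L (insert (y : G) B) ↔ y ∈ stabSub L B := by
    rw [mem_stabSub, mem_stabSub]
    constructor
    · intro h
      have h4 : ∀ x, x ∈ insert (y : G) B ↔ (y : G)⁻¹ * x * (y : G) ∈ insert (y : G) B := by
        intro x
        rw [← mem_conjFin, h]
      ext x
      rw [mem_conjFin]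
      constructor
      · intro hx
        have h5 := (h4 x).mpr (Finset.mem_insert_of_mem hx)
        rcases Finset.mem_insert.mp h5 with h6 | h6
        · exact absurd (show (y : G) ∈ B from by rw [(h3 x).mpr h6] at hx; exact hx) hy
        · exact h6
      · intro hx
        have h5 := (h4 x).mp (Finset.mem_insert_of_mem hx)
        rcases Finset.mem_insert.mp h5 with h6 | h6
        · exact absurd (show (y : G) ∈ B from by rw [(h3 x).mp h6] at hx; exact hx) hy
        · exact h6
    · intro h
      ext x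
      rw [mem_conjFin, Finset.mem_insert, Finset.mem_insert]
      have h2 : (y : G)⁻¹ * x * (y : G) ∈ B ↔ x ∈ B := by
        rw [← mem_conjFin, h]
      rw [h2, h3]
  unfold dadeSign
  by_cases h : y ∈ stabSub L B
  · rw [dif_pos h, dif_pos (hiff.mpr h)]
    congr 2
    rw [← Equiv.Perm.sign_ofSubtype, ← Equiv.Perm.sign_ofSubtype (stabPerm B ⟨y, h⟩)]
    congr 1
    ext x
    by_cases hx : x ∈ B
    · have hx' : x ∈ insert (y : G) B := Finset.mem_insert_of_mem hx
      rw [Equiv.Perm.ofSubtype_apply_of_mem _ hx', Equiv.Perm.ofSubtype_apply_of_mem _ hx]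
      rfl
    · rw [Equiv.Perm.ofSubtype_apply_of_not_mem _ hx]
      by_cases hxy : x = y
      · have hx' : x ∈ insert (y : G) B := by simp [hxy]
        rw [Equiv.Perm.ofSubtype_apply_of_mem _ hx']
        change (y : G) * x * (y : G)⁻¹ = x
        rw [hxy]
        group
      · have hx' : x ∉ insert (y : G) B := by simp [hxy, hx]
        rw [Equiv.Perm.ofSubtype_apply_of_not_mem _ hx']
  · rw [dif_neg h, dif_neg (fun h' => h (hiff.mp h'))]

/-- An element of some `H b` commuting with `y ∈ A` lies in `H y`. -/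
theorem mem_H_of_comm (hD : DadeHypothesis A L H) {b y u : G} (hb : b ∈ A) (hy : y ∈ A) (hu : u ∈ H b)
    (hc : y * u = u * y) : u ∈ H y := by
  classical
  have huC : u ∈ Subgroup.centralizer ({y} : Set G) := by
    rw [Subgroup.mem_centralizer_singleton_iff]
    exact hc.symm
  obtain ⟨v, hv, l, hl, rfl⟩ := dade_decomp hD hy huC
  have hpow : ∀ k : ℕ, ∃ v' ∈ H y, (v * l) ^ k = v' * l ^ k := by
    intro k
    induction k with
    | zero => exact ⟨1, (H y).one_mem, by simp⟩
    | succ k ih =>
      obtain ⟨v', hv', h⟩ := ih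
      refine ⟨v' * (l ^ k * v * (l ^ k)⁻¹), (H y).mul_mem hv'
        (hD.conj_mem_H y hy _ (Subgroup.pow_mem _ hl.2 k) v hv), ?_⟩
      rw [pow_succ, h]
      group
  have hN : (v * l) ^ Nat.card (H b) = 1 := by
    have h1 : (⟨v * l, hu⟩ : H b) ^ Nat.card (H b) = 1 := pow_card_eq_one'
    exact congrArg Subtype.val h1
  obtain ⟨v', hv', h1⟩ := hpow (Nat.card (H b))
  rw [hN] at h1
  have hlH : l ^ Nat.card (H b) ∈ H y := by
    have h2 : l ^ Nat.card (H b) = v'⁻¹ := by
      have := eq_inv_of_mul_eq_one_right h1.symm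
      exact this
    rw [h2]
    exact (H y).inv_mem hv'
  have hlL : l ^ Nat.card (H b) ∈ L ⊓ Subgroup.centralizer ({y} : Set G) := Subgroup.pow_mem _ hl _
  have hbot : l ^ Nat.card (H b) ∈ H y ⊓ (L ⊓ Subgroup.centralizer ({y} : Set G)) := ⟨hlH, hlL⟩
  rw [hD.inf_eq_bot y hy, Subgroup.mem_bot] at hbot
  have hl2 : l ^ Nat.card ↥(L ⊓ Subgroup.centralizer ({y} : Set G)) = 1 := by
    have h3 : (⟨l, hl⟩ : ↥(L ⊓ Subgroup.centralizer ({y} : Set G))) ^
        Nat.card ↥(L ⊓ Subgroup.centralizer ({y} : Set G)) = 1 := pow_card_eq_one'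
    exact congrArg Subtype.val h3
  have hd1 := orderOf_dvd_of_pow_eq_one hbot
  have hd2 := orderOf_dvd_of_pow_eq_one hl2
  have hcop := Nat.Coprime.coprime_dvd_left hd1 (hD.coprime b hb y hy)
  have h4 : orderOf l = 1 := by
    have := Nat.Coprime.eq_one_of_dvd hcop hd2
    exact this
  rw [orderOf_eq_one_iff] at h4
  rw [h4, mul_one]
  exact hv

/-- The subgroup attached to a nonempty set is normalised by its stabiliser. -/
theorem conj_mem_dadeT (hD : DadeHypothesis A L H) {B : Finset G} (hBA : (↑B : Set G) ⊆ A) {l : L}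
    (hl : l ∈ stabSub L B) {u : G} (hu : u ∈ dadeT H B) : (l : G) * u * (l : G)⁻¹ ∈ dadeT H B := by
  rw [mem_dadeT] at hu ⊢
  intro b hb
  have h1 : ((l⁻¹ : L) : G) * b * ((l⁻¹ : L) : G)⁻¹ ∈ B :=
    conj_mem_of_stab ((stabSub L B).inv_mem hl) hb
  have hb' : ((l⁻¹ : L) : G) * b * ((l⁻¹ : L) : G)⁻¹ ∈ A := hBA h1
  have h2 := hu _ h1
  have h3 := dade_conj_eq hD hb' l.2
  have h4 : (l : G) * (((l⁻¹ : L) : G) * b * ((l⁻¹ : L) : G)⁻¹) * (l : G)⁻¹ = b := by
    simp only [Subgroup.coe_inv]
    group
  rw [h4] at h3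
  rw [h3]
  exact ⟨u, h2, rfl⟩

open Classical in
/-- The average does not change when `y` is added to the set. -/
theorem dadeAvg_insert (hD : DadeHypothesis A L H) {χ : G → ℂ} (hχ : IsClassFunction G χ) {B : Finset G}
    (hBA : (↑B : Set G) ⊆ A) (hB : B.Nonempty) {y : L} (hyA : (y : G) ∈ A) (hy : y ∈ stabSub L B) :
    dadeAvg H χ (insert (y : G) B) y = dadeAvg H χ B y := by
  obtain ⟨b₀, hb₀⟩ := hB
  have hcardT : Nat.card (dadeT H B) ∣ Nat.card (H b₀) :=
    Subgroup.card_dvd_of_le (fun _ hx => mem_dadeT.mp hx b₀ hb₀)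
  have hcop : Nat.Coprime (orderOf (y : G)) (Nat.card (dadeT H B)) := by
    have h1 := hD.coprime b₀ (hBA hb₀) y hyA
    have h2 := dade_orderOf_dvd hD hyA
    exact Nat.Coprime.coprime_dvd_left h2 (Nat.Coprime.coprime_dvd_right hcardT h1.symm)
  have hC : ∀ c, c ∈ dadeT H (insert (y : G) B) ↔ c ∈ dadeT H B ∧ (y : G) * c = c * y := by
    intro c
    rw [mem_dadeT, mem_dadeT]
    constructor
    · intro h
      refine ⟨fun b hb => h b (Finset.mem_insert_of_mem hb), dade_commute hD hyA ?_⟩
      exact h _ (Finset.mem_insert_self _ _)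
    · rintro ⟨h1, h2⟩ b hb
      rcases Finset.mem_insert.mp hb with rfl | hb
      · exact mem_H_of_comm hD (hBA hb₀) hyA (h1 b₀ hb₀) h2
      · exact h1 b hb
  have h := sum_coprime_coset (dadeT H B) (y : G) (fun u hu => conj_mem_dadeT hD hBA hy hu)
    (fun u hu => by
      have := conj_mem_dadeT hD hBA ((stabSub L B).inv_mem hy) hu
      simpa using this) hcop χ hχ (dadeT H (insert (y : G) B)) hC
  unfold dadeAvg
  have h1 : (Nat.card (dadeT H B) : ℂ) ≠ 0 := by exact_mod_cast Nat.card_pos.ne'
  have h2 : (Nat.card (dadeT H (insert (y : G) B)) : ℂ) ≠ 0 := by exact_mod_cast Nat.card_pos.ne'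
  field_simp
  linear_combination -h

open Classical in
/-- The alternating sum over the nonempty subsets. -/
theorem sum_dadeW (hD : DadeHypothesis A L H) {χ : G → ℂ} (hχ : IsClassFunction G χ)
    (Y : Finset (Finset G)) (hY : ∀ B, B ∈ Y ↔ (↑B : Set G) ⊆ A ∧ B.Nonempty) {y : L} (hyA : (y : G) ∈ A) :
    ∑ B ∈ Y, dadeW L H χ B y = dadeAvg H χ {(y : G)} y := by
  have hsingle : ({(y : G)} : Finset G) ∈ Y := (hY _).mpr ⟨by simpa using hyA, Finset.singleton_nonempty _⟩
  rw [← Finset.add_sum_erase Y _ hsingle]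
  have h1 : dadeW L H χ {(y : G)} y = dadeAvg H χ {(y : G)} y := by
    unfold dadeW
    have h2 : y ∈ stabSub L ({(y : G)} : Finset G) := by
      rw [mem_stabSub]
      ext x
      rw [mem_conjFin, Finset.mem_singleton, Finset.mem_singleton]
      constructor
      · intro h
        have h5 : (y : G) * ((y : G)⁻¹ * x * (y : G)) * (y : G)⁻¹ = (y : G) * y * (y : G)⁻¹ := by rw [h]
        simpa [mul_assoc] using h5
      · rintro rfl
        group
    have h3 : dadeSign L ({(y : G)} : Finset G) y = 1 := by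
      unfold dadeSign
      rw [dif_pos h2]
      have h4 : stabPerm ({(y : G)} : Finset G) ⟨y, h2⟩ = 1 := by
        ext x
        have hx : (x : G) = y := Finset.mem_singleton.mp x.2
        change (y : G) * x * (y : G)⁻¹ = x
        rw [hx]
        group
      rw [h4]
      simp
    rw [h3]
    simp
  rw [h1]
  have h0 : ∑ B ∈ Y.erase {(y : G)}, dadeW L H χ B y = 0 := by
    refine Finset.sum_involution
      (fun B _ => if (y : G) ∈ B then B.erase (y : G) else insert (y : G) B) ?_ ?_ ?_ ?_
    · intro B hB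
      obtain ⟨hB1, hB2⟩ := Finset.mem_erase.mp hB
      obtain ⟨hBA, hBne⟩ := (hY B).mp hB2
      have key : ∀ C : Finset G, (y : G) ∉ C → (↑C : Set G) ⊆ A → C.Nonempty →
          dadeW L H χ C y + dadeW L H χ (insert (y : G) C) y = 0 := by
        intro C hyC hCA hCne
        unfold dadeW
        rw [dadeSign_insert hyC, Finset.card_insert_of_notMem hyC]
        by_cases hst : y ∈ stabSub L C
        · rw [dadeAvg_insert hD hχ hCA hCne hyA hst, pow_succ ((-1 : ℂ)) (C.card + 1)]
          ring
        · have : dadeSign L C y = 0 := by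
            unfold dadeSign
            rw [dif_neg hst]
          rw [this]
          ring
      by_cases hyB : (y : G) ∈ B
      · simp only [if_pos hyB]
        have hne : (B.erase (y : G)).Nonempty := by
          by_contra hcon
          rw [Finset.not_nonempty_iff_eq_empty, Finset.erase_eq_empty_iff] at hcon
          rcases hcon with h | h
          · exact hBne.ne_empty h
          · exact hB1 h
        have := key (B.erase (y : G)) (Finset.notMem_erase _ _)
          (fun x hx => hBA (Finset.mem_of_mem_erase hx)) hne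
        rw [Finset.insert_erase hyB] at this
        rw [add_comm]
        exact this
      · simp only [if_neg hyB]
        exact key B hyB hBA hBne
    · intro B _ _ h
      by_cases hyB : (y : G) ∈ B
      · simp only [if_pos hyB] at h
        rw [← h] at hyB
        exact Finset.notMem_erase _ _ hyB
      · simp only [if_neg hyB] at h
        apply hyB
        rw [← h]
        exact Finset.mem_insert_self _ _
    · intro B hB
      obtain ⟨hB1, hB2⟩ := Finset.mem_erase.mp hB
      obtain ⟨hBA, hBne⟩ := (hY B).mp hB2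
      by_cases hyB : (y : G) ∈ B
      · simp only [if_pos hyB]
        refine Finset.mem_erase.mpr ⟨?_, (hY _).mpr ⟨fun x hx => hBA (Finset.mem_of_mem_erase (Finset.mem_coe.mp hx)), ?_⟩⟩
        · intro h
          have := Finset.mem_singleton_self (y : G)
          rw [← h] at this
          exact Finset.notMem_erase _ _ this
        · by_contra hcon
          rw [Finset.not_nonempty_iff_eq_empty, Finset.erase_eq_empty_iff] at hcon
          rcases hcon with h | h
          · exact hBne.ne_empty h
          · exact hB1 h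
      · simp only [if_neg hyB]
        refine Finset.mem_erase.mpr ⟨?_, (hY _).mpr ⟨?_, Finset.insert_nonempty _ _⟩⟩
        · intro h
          obtain ⟨x, hx⟩ := hBne
          have h2 : x ∈ insert (y : G) B := Finset.mem_insert_of_mem hx
          rw [h, Finset.mem_singleton] at h2
          exact hyB (h2 ▸ hx)
        · intro x hx
          have hx' : x ∈ insert (y : G) B := by simpa using hx
          rcases Finset.mem_insert.mp hx' with rfl | hx'
          · exact hyA
          · exact hBA hx'
    · intro B hB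
      by_cases hyB : (y : G) ∈ B
      · simp only [if_pos hyB, Finset.notMem_erase, if_false, Finset.insert_erase hyB]
      · simp only [if_neg hyB, Finset.mem_insert_self, if_true, Finset.erase_insert hyB]
  rw [h0, add_zero]

/-- The weight is a generalized character on the stabiliser. -/
theorem dadeW_isGeneralized (hD : DadeHypothesis A L H) {χ : G → ℂ} (hχ : IsCharacter G χ) {B : Finset G}
    (hBA : (↑B : Set G) ⊆ A) :
    IsGeneralizedCharacter (stabSub L B) (fun l : stabSub L B => dadeW L H χ B l) := by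
  classical
  let f : stabSub L B →* G := L.subtype.comp (stabSub L B).subtype
  have h1 : IsCharacter (stabSub L B) (fun γ => (Nat.card (dadeT H B) : ℂ)⁻¹ * ∑ u : dadeT H B, χ (f γ * u)) :=
    avg_isCharacter f (dadeT H B) (fun γ u hu => conj_mem_dadeT hD hBA γ.2 hu) hχ
  let lam : stabSub L B →* ℂˣ :=
    (Units.map (Int.castRingHom ℂ).toMonoidHom).comp ((Equiv.Perm.sign).comp (stabPerm B))
  have h2 : IsCharacter (stabSub L B) (fun l => ((lam l : ℂˣ) : ℂ)) :=
    IsIrrCharacter.isCharacter (isIrrCharacter_of_hom lam)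
  have h3 := IsCharacter.mul h2 h1
  have h4 := IsGeneralizedCharacter.intCast_smul (IsGeneralizedCharacter.of_isCharacter h3)
    ((-1 : ℤ) ^ (B.card + 1))
  convert h4 using 1
  funext l
  simp only [Pi.smul_apply, Pi.mul_apply, smul_eq_mul, dadeW]
  unfold dadeSign dadeAvg
  rw [dif_pos l.2]
  push_cast
  simp only [lam, f]
  simp
  ring_nf

open Classical in
/-- Equivariance of the sign. -/
theorem dadeSign_conj {B : Finset G} (l y : L) :
    dadeSign L (conjFin (l : G) B) (l * y * l⁻¹) = dadeSign L B y := by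
  have hiff : (l * y * l⁻¹) ∈ stabSub L (conjFin (l : G) B) ↔ y ∈ stabSub L B := by
    rw [mem_stabSub, mem_stabSub, ← conjFin_mul]
    have h1 : ((l * y * l⁻¹ : L) : G) * (l : G) = (l : G) * y := by
      simp only [Subgroup.coe_mul, Subgroup.coe_inv]
      group
    rw [h1, conjFin_mul]
    constructor
    · intro h
      have h2 := congrArg (conjFin ((l : G))⁻¹) h
      simpa only [← conjFin_mul, inv_mul_cancel_left, inv_mul_cancel, conjFin_one] using h2
    · intro h
      rw [h]
  unfold dadeSign
  by_cases h : y ∈ stabSub L B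
  · rw [dif_pos h, dif_pos (hiff.mpr h)]
    congr 2
    let e : B ≃ conjFin (l : G) B :=
      { toFun := fun b => ⟨(l : G) * b * (l : G)⁻¹, mem_conjFin.mpr (by
          have : (l : G)⁻¹ * ((l : G) * b * (l : G)⁻¹) * (l : G) = b := by group
          rw [this]
          exact b.2)⟩
        invFun := fun b => ⟨(l : G)⁻¹ * b * (l : G), mem_conjFin.mp b.2⟩
        left_inv := fun b => by
          apply Subtype.ext
          simp only
          group
        right_inv := fun b => by
          apply Subtype.ext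
          simp only
          group }
    rw [← Equiv.Perm.sign_permCongr e (stabPerm B ⟨y, h⟩)]
    congr 1
    ext b
    change ((l * y * l⁻¹ : L) : G) * b * ((l * y * l⁻¹ : L) : G)⁻¹ =
      (l : G) * ((y : G) * ((l : G)⁻¹ * b * (l : G)) * (y : G)⁻¹) * (l : G)⁻¹
    simp only [Subgroup.coe_mul, Subgroup.coe_inv]
    group
  · rw [dif_neg h, dif_neg (fun h' => h (hiff.mp h'))]

open Classical in
/-- Equivariance of the average. -/
theorem dadeAvg_conj (hD : DadeHypothesis A L H) {χ : G → ℂ} (hχ : IsClassFunction G χ) {B : Finset G}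
    (hBA : (↑B : Set G) ⊆ A) (l y : L) :
    dadeAvg H χ (conjFin (l : G) B) (l * y * l⁻¹ : L) = dadeAvg H χ B y := by
  have hmem : ∀ u, u ∈ dadeT H (conjFin (l : G) B) ↔ (l : G)⁻¹ * u * (l : G) ∈ dadeT H B := by
    intro u
    rw [mem_dadeT, mem_dadeT]
    constructor
    · intro h b hb
      have h1 : (l : G) * b * (l : G)⁻¹ ∈ conjFin (l : G) B := mem_conjFin.mpr (by
        have : (l : G)⁻¹ * ((l : G) * b * (l : G)⁻¹) * (l : G) = b := by group
        rwa [this])
      have h2 := h _ h1
      rw [dade_conj_eq hD (hBA hb) l.2] at h2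
      obtain ⟨v, hv, rfl⟩ := h2
      simp only [MulEquiv.coe_toMonoidHom, MulAut.conj_apply]
      rw [show (l : G)⁻¹ * ((l : G) * v * (l : G)⁻¹) * (l : G) = v by group]
      exact hv
    · intro h b hb
      have h1 := mem_conjFin.mp hb
      have h2 := h _ h1
      have hb2 : b = (l : G) * ((l : G)⁻¹ * b * (l : G)) * (l : G)⁻¹ := by group
      rw [hb2, dade_conj_eq hD (hBA h1) l.2]
      exact ⟨_, h2, by simp [mul_assoc]⟩
  let e : dadeT H B ≃ dadeT H (conjFin (l : G) B) :=
    { toFun := fun u => ⟨(l : G) * u * (l : G)⁻¹, (hmem _).mpr (by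
        have : (l : G)⁻¹ * ((l : G) * u * (l : G)⁻¹) * (l : G) = u := by group
        rw [this]
        exact u.2)⟩
      invFun := fun u => ⟨(l : G)⁻¹ * u * (l : G), (hmem _).mp u.2⟩
      left_inv := fun u => by
        apply Subtype.ext
        simp only
        group
      right_inv := fun u => by
        apply Subtype.ext
        simp only
        group }
  unfold dadeAvg
  rw [Nat.card_congr e.symm]
  congr 1
  refine (Fintype.sum_equiv e _ _ fun u => ?_).symm
  have h1 : ((l * y * l⁻¹ : L) : G) * (e u : G) = (l : G) * ((y : G) * u) * (l : G)⁻¹ := by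
    change ((l * y * l⁻¹ : L) : G) * ((l : G) * u * (l : G)⁻¹) = _
    simp only [Subgroup.coe_mul, Subgroup.coe_inv]
    group
  rw [h1]
  exact (hχ _ _).symm

/-- Equivariance of the weight. -/
theorem dadeW_conj (hD : DadeHypothesis A L H) {χ : G → ℂ} (hχ : IsClassFunction G χ) {B : Finset G}
    (hBA : (↑B : Set G) ⊆ A) (l y : L) :
    dadeW L H χ (conjFin (l : G) B) (l * y * l⁻¹) = dadeW L H χ B y := by
  unfold dadeW
  rw [dadeSign_conj, dadeAvg_conj hD hχ hBA, card_conjFin]

/-- Integrality of the pairing of `α` with the adjoint. -/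
theorem dade_adjoint_int (hD : DadeHypothesis A L H) [Fintype L] {α : L → ℂ}
    (hα : IsGeneralizedCharacter L α) (hαA : ∀ x : L, (x : G) ∉ A → α x = 0) {χ : G → ℂ}
    (hχ : IsCharacter G χ) (ψ : L → ℂ)
    (hψ : ∀ a : L, (a : G) ∈ A → ψ a = (Nat.card (H a) : ℂ)⁻¹ * ∑ᶠ u ∈ (H a : Set G), χ (a * u)) :
    ∃ m : ℤ, classInner α ψ = m := by
  classical
  have hχc := IsCharacter.isClassFunction hχ
  have hαc := IsGeneralizedCharacter.isClassFunction hα
  -- the index set
  let Y := {B : Finset G // (↑B : Set G) ⊆ A ∧ B.Nonempty}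
  letI act : MulAction L Y :=
    { smul := fun l B => ⟨conjFin (l : G) B.1, fun x hx => by
        have h1 := B.2.1 (mem_conjFin.mp hx)
        have h2 := hD.conj_mem l l.2 _ h1
        have h3 : (l : G) * ((l : G)⁻¹ * x * (l : G)) * (l : G)⁻¹ = x := by group
        rwa [h3] at h2, by
        obtain ⟨b, hb⟩ := B.2.2
        exact ⟨(l : G) * b * (l : G)⁻¹, mem_conjFin.mpr (by
          have : (l : G)⁻¹ * ((l : G) * b * (l : G)⁻¹) * (l : G) = b := by group
          rwa [this])⟩⟩
      one_smul := fun B => Subtype.ext (conjFin_one B.1)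
      mul_smul := fun a b B => Subtype.ext (conjFin_mul _ _ B.1) }
  have hsmul : ∀ (l : L) (B : Y), (l • B).1 = conjFin (l : G) B.1 := fun _ _ => rfl
  have hstab : ∀ B : Y, MulAction.stabilizer L B = stabSub L B.1 := by
    intro B
    ext l
    rw [MulAction.mem_stabilizer_iff, mem_stabSub, Subtype.ext_iff]
    rfl
  -- the numbers
  let N : Y → ℂ := fun B => ∑ y : L, α y * conj (dadeW L H χ B.1 y)
  have hNint : ∀ B : Y, ∃ n : ℤ, N B = (Nat.card (stabSub L B.1) : ℂ) * n := by
    intro B
    letI : Fintype (stabSub L B.1) := Fintype.ofFinite _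
    obtain ⟨n, hn⟩ := classInner_isGeneralized_int
      (IsGeneralizedCharacter.restrict (stabSub L B.1) hα) (dadeW_isGeneralized hD hχ B.2.1)
    refine ⟨n, ?_⟩
    rw [← hn, classInner_def]
    have h0 : (Nat.card (stabSub L B.1) : ℂ) ≠ 0 := by exact_mod_cast Nat.card_pos.ne'
    rw [← mul_assoc, mul_inv_cancel₀ h0, one_mul]
    have h1 : ∀ y : L, y ∉ stabSub L B.1 → α y * conj (dadeW L H χ B.1 y) = 0 := by
      intro y hy
      have h2 : dadeW L H χ B.1 y = 0 := by
        unfold dadeW dadeSign
        rw [dif_neg hy]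
        ring
      rw [h2, map_zero, mul_zero]
    simp only [N]
    rw [← Finset.sum_filter_of_ne (s := Finset.univ) (p := fun y => y ∈ stabSub L B.1)
      (fun y _ h => by
        by_contra hy
        exact h (h1 y hy))]
    refine Finset.sum_subtype _ (by simp) _
  choose n hn using hNint
  have hNconj : ∀ (l : L) (B : Y), N (l • B) = N B := by
    intro l B
    simp only [N]
    refine (Fintype.sum_equiv (MulAut.conj l).toEquiv (fun z => α z * conj (dadeW L H χ B.1 z))
      (fun y => α y * conj (dadeW L H χ (l • B).1 y)) fun z => ?_).symm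
    have h1 : (MulAut.conj l).toEquiv z = l * z * l⁻¹ := rfl
    rw [h1, hsmul, dadeW_conj hD hχc B.2.1, hαc z l]
  have hcardstab : ∀ (l : L) (B : Y), Nat.card (stabSub L (l • B).1) = Nat.card (stabSub L B.1) := by
    intro l B
    rw [← hstab, ← hstab]
    have h2 := Subgroup.card_mul_index (MulAction.stabilizer L (l • B))
    have h3 := Subgroup.card_mul_index (MulAction.stabilizer L B)
    rw [MulAction.index_stabilizer, MulAction.orbit_smul] at h2
    rw [MulAction.index_stabilizer] at h3
    have h4 : 0 < (MulAction.orbit L B).ncard := by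
      rw [← MulAction.index_stabilizer]
      exact Nat.pos_of_ne_zero Subgroup.index_ne_zero_of_finite
    exact Nat.eq_of_mul_eq_mul_right h4 (h2.trans h3.symm)
  have hninv : ∀ (l : L) (B : Y), n (l • B) = n B := by
    intro l B
    have h1 := hn (l • B)
    rw [hNconj, hn B, hcardstab] at h1
    have h0 : (Nat.card (stabSub L B.1) : ℂ) ≠ 0 := by exact_mod_cast Nat.card_pos.ne'
    have h2 := mul_left_cancel₀ h0 h1
    exact_mod_cast h2.symm
  letI : Fintype Y := Fintype.ofFinite _
  obtain ⟨m, hm⟩ := sum_stabilizer_mul_int n hninv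
  refine ⟨m, ?_⟩
  have hL0 : (Nat.card L : ℂ) ≠ 0 := by exact_mod_cast Nat.card_pos.ne'
  have hsumY : ∑ B : Y, N B = (Nat.card L : ℂ) * m := by
    rw [← hm]
    refine Finset.sum_congr rfl fun B _ => ?_
    rw [hn B, hstab]
  -- the finset of subsets
  let YF : Finset (Finset G) := Finset.univ.filter (fun B => (↑B : Set G) ⊆ A ∧ B.Nonempty)
  have hYF : ∀ B, B ∈ YF ↔ (↑B : Set G) ⊆ A ∧ B.Nonempty := by
    intro B
    simp [YF]
  have hsumYF : ∀ f : Finset G → ℂ, ∑ B : Y, f B.1 = ∑ B ∈ YF, f B := by
    intro f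
    exact (Finset.sum_subtype YF (fun B => hYF B) f).symm
  have hterm : ∀ y : L, α y * conj (ψ y) = ∑ B ∈ YF, α y * conj (dadeW L H χ B y) := by
    intro y
    by_cases hy : (y : G) ∈ A
    · rw [← Finset.mul_sum, ← map_sum, sum_dadeW hD hχc YF hYF hy, hψ y hy]
      congr 2
      unfold dadeAvg
      have hT : dadeT H ({(y : G)} : Finset G) = H y := by
        ext u
        rw [mem_dadeT]
        simp
      rw [finsum_coe_subgroup]
      have hs : ∑ u : dadeT H ({(y : G)} : Finset G), χ ((y : G) * u) =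
          ∑ u ∈ Finset.univ.filter (· ∈ H y), χ ((y : G) * u) := by
        refine (Finset.sum_subtype (Finset.univ.filter (· ∈ H y)) (fun u => ?_)
          (fun u => χ ((y : G) * u))).symm
        simp [hT]
      rw [hs, hT]
    · rw [hαA y hy]
      simp
  rw [classInner_def]
  have h5 : ∑ y : L, α y * conj (ψ y) = ∑ B : Y, N B := by
    rw [Finset.sum_congr rfl fun y _ => hterm y, Finset.sum_comm]
    exact (hsumYF (fun B => ∑ y : L, α y * conj (dadeW L H χ B y))).symm
  rw [h5, hsumY, ← mul_assoc, inv_mul_cancel₀ hL0, one_mul]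


/-- Integrality of the Dade map. -/
theorem dade_isGeneralized (hD : DadeHypothesis A L H) [Fintype L] {α : L → ℂ}
    (hα : IsGeneralizedCharacter L α) (hαA : ∀ x : L, (x : G) ∉ A → α x = 0) :
    IsGeneralizedCharacter G (dadeIsometry A L H α) := by
  classical
  have hαc := IsGeneralizedCharacter.isClassFunction hα
  have hβ := dade_isClass hD hαc
  rw [classFunction_eq_sum (dadeIsometry A L H α) hβ]
  refine Finset.sum_induction _ (IsGeneralizedCharacter G) (fun _ _ ha hb => IsGeneralizedCharacter.add ha hb)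
    IsGeneralizedCharacter.zero (fun ξ _ => ?_)
  have hξ := IsIrrCharacter.isCharacter ξ.2
  let ψ : L → ℂ := fun a => (Nat.card (H a) : ℂ)⁻¹ * ∑ᶠ u ∈ (H a : Set G), (ξ : G → ℂ) (a * u)
  obtain ⟨m, hm⟩ := dade_adjoint_int hD hα hαA hξ ψ (fun _ _ => rfl)
  rw [dade_inner hD hαc hαA _ ψ (IsCharacter.isClassFunction hξ) (fun _ _ => rfl), hm]
  exact IsGeneralizedCharacter.intCast_smul (IsGeneralizedCharacter.of_isCharacter hξ) m

end Adjoint

end Cfsg.Agent.Lib.OddChar
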