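import Mathlib
import Cfsg.Agent.Lib.OddChar.CohFrob2
import Cfsg.Agent.Lib.OddChar.CohSameDeg
import Cfsg.Agent.Lib.OddChar.FrobAbelian
import Cfsg.Agent.Lib.OddChar.SylowFrob

/-!
# Coherence for sets of irreducible characters: the extension theorems for a Frobenius kernel.
-/

set_option autoImplicit false

open scoped ComplexConjugate commutatorElement

namespace Cfsg.Agent.Lib.OddChar

open Cfsg (classInner IsCharacter IsIrrCharacter IsClassFunction IsGeneralizedCharacter zspan zspanOn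
  conjFun IsLinearIsometryOn IsCoherent IsCoherenceSystem IrrCharacter indFun extendByZero
  inducedIrrAbove charDegree)
open Cfsg.Agent.Lib.Char Cfsg.Agent.Lib.Degree

universe u v

section Insert

variable {L : Type u} [Group L] [Fintype L] {G : Type v} [Group G] [Fintype G]

/-- The extension lemma: one more irreducible character. -/
theorem coh_insert_irr (S₀ : Finset (L → ℂ)) (χ : L → ℂ) (hirr : ∀ ξ ∈ S₀, IsIrrCharacter L ξ)
    (hχ : IsIrrCharacter L χ) (hχS : χ ∉ S₀) (d : (L → ℂ) → ℕ) (hd : ∀ ξ ∈ insert χ S₀, ξ 1 = (d ξ : ℂ))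
    (τ : (L → ℂ) → (G → ℂ)) (hτ : IsLinearIsometryOn (zspanOn (↑(insert χ S₀) : Set (L → ℂ)) {1}ᶜ) τ)
    (hτ1 : ∀ α ∈ zspanOn (↑(insert χ S₀) : Set (L → ℂ)) {1}ᶜ, τ α 1 = 0)
    (hcoh : IsCoherent (↑S₀ : Set (L → ℂ)) {1}ᶜ τ) (ψ : L → ℂ) (hψ : ψ ∈ S₀) (hdvd : d ψ ∣ d χ)
    (hlt : 2 * d ψ * d χ < ∑ ξ ∈ S₀, d ξ ^ 2) :
    IsCoherent (↑(insert χ S₀) : Set (L → ℂ)) {1}ᶜ τ := by
  classical
  obtain ⟨⟨α₀, hα₀, hα₀ne⟩, τ₁, hτ₁, hag⟩ := hcoh
  have hext : CohExt (↑S₀ : Set (L → ℂ)) τ τ₁ := ⟨hτ₁, hag⟩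
  have hS₂ : insert χ (↑S₀ : Set (L → ℂ)) ⊆ (↑(insert χ S₀) : Set (L → ℂ)) := by
    rw [Finset.coe_insert]
  have hdd : ∀ ξ ∈ S₀, ξ 1 = ((d ξ : ℤ) : ℂ) := fun ξ hξ => by
    rw [hd ξ (Finset.mem_insert_of_mem hξ)]
    simp
  have hdχ : χ 1 = ((d χ : ℤ) : ℂ) := by
    rw [hd χ (Finset.mem_insert_self _ _)]
    simp
  obtain ⟨a, ha⟩ := hdvd
  have hdψpos : 0 < d ψ := by
    have := map_one_ne_zero_of_irr (hirr ψ hψ)
    rw [hdd ψ hψ] at this
    apply Nat.pos_of_ne_zero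
    intro h0
    apply this
    simp [h0]
  have hdχpos : 0 < d χ := by
    have := map_one_ne_zero_of_irr hχ
    rw [hdχ] at this
    apply Nat.pos_of_ne_zero
    intro h0
    apply this
    simp [h0]
  have hapos : 0 < a := by
    apply Nat.pos_of_ne_zero
    intro h0
    rw [h0, mul_zero] at ha
    omega
  have horthχ : ∀ ξ ∈ (↑S₀ : Set (L → ℂ)), classInner ξ χ = 0 := by
    intro ξ hξ
    refine classInner_irr_of_ne (hirr ξ hξ) hχ ?_
    rintro rfl
    exact hχS hξ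
  set X : G → ℂ := τ (χ - (a : ℤ) • ψ) + (a : ℤ) • τ₁ ψ with hX
  obtain ⟨hXgen, hrel, ⟨b, hb, hXX⟩, -⟩ := X_facts (S := (↑S₀ : Set (L → ℂ)))
    (d := fun ξ => (d ξ : ℤ)) (χ₁ := ψ) (a := (a : ℤ)) hS₂ hτ hext horthχ hψ hdχ (hdd ψ hψ)
    (by rw [ha]; push_cast; ring) (fun ξ hξ => hdd ξ hξ) hX
  have hnorm1 : classInner χ χ = 1 := classInner_irr_self hχ
  rw [hnorm1] at hXX
  -- integer coefficients
  have hcoef : ∀ ξ ∈ S₀, ∃ e : ℤ, classInner X (τ₁ ξ) = e := fun ξ hξ =>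
    classInner_isGeneralized_int hXgen (hτ₁.2.2.2 _ (mem_zspan_of_mem hξ))
  choose! e he using hcoef
  have hτz : ∀ ξ ∈ S₀, ξ ∈ zspan (↑S₀ : Set (L → ℂ)) := fun ξ hξ => mem_zspan_of_mem hξ
  have hsqrel : ∀ ξ ∈ S₀, (d ψ : ℤ) * e ξ = (d ξ : ℤ) * b := by
    intro ξ hξ
    have := hrel ξ hξ
    rw [he ξ hξ, hb] at this
    exact_mod_cast this
  have hbess := bessel S₀ τ₁ (fun _ => (1 : ℝ)) (fun _ _ => one_pos)
    (fun ξ hξ ξ' hξ' hne => by
      rw [hτ₁.2.2.1 _ (hτz ξ hξ) _ (hτz ξ' hξ')]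
      exact classInner_irr_of_ne (hirr ξ hξ) (hirr ξ' hξ') hne)
    (fun ξ hξ => by
      rw [hτ₁.2.2.1 _ (hτz ξ hξ) _ (hτz ξ hξ), classInner_irr_self (hirr ξ hξ)]
      simp) X
  have hsumE : ∑ ξ ∈ S₀, ‖classInner X (τ₁ ξ)‖ ^ 2 / (1 : ℝ) = ((∑ ξ ∈ S₀, e ξ ^ 2 : ℤ) : ℝ) := by
    push_cast
    refine Finset.sum_congr rfl fun ξ hξ => ?_
    rw [he ξ hξ, Complex.norm_intCast, sq_abs, div_one]
  have hXre : (classInner X X).re = ((1 + 2 * (a : ℤ) * b : ℤ) : ℝ) := by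
    rw [hXX]
    simp
  obtain ⟨hb1, hb2⟩ := hbess
  rw [hsumE, hXre] at hb1
  rw [hsumE, hXre] at hb2
  have hE : ∑ ξ ∈ S₀, e ξ ^ 2 ≤ 1 + 2 * (a : ℤ) * b := by exact_mod_cast hb1
  set E : ℤ := ∑ ξ ∈ S₀, e ξ ^ 2 with hEdef
  set T : ℤ := ∑ ξ ∈ S₀, (d ξ : ℤ) ^ 2 with hTdef
  have hDE : (d ψ : ℤ) ^ 2 * E = b ^ 2 * T := by
    rw [hEdef, hTdef, Finset.mul_sum, Finset.mul_sum]
    refine Finset.sum_congr rfl fun ξ hξ => ?_
    have := hsqrel ξ hξ
    calc (d ψ : ℤ) ^ 2 * e ξ ^ 2 = ((d ψ : ℤ) * e ξ) ^ 2 := by ring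
      _ = ((d ξ : ℤ) * b) ^ 2 := by rw [this]
      _ = b ^ 2 * (d ξ : ℤ) ^ 2 := by ring
  have hTlt : 2 * (a : ℤ) * (d ψ : ℤ) ^ 2 < T := by
    have h1 : ((2 * d ψ * d χ : ℕ) : ℤ) < ((∑ ξ ∈ S₀, d ξ ^ 2 : ℕ) : ℤ) := by exact_mod_cast hlt
    rw [ha] at h1
    push_cast at h1
    rw [hTdef]
    nlinarith
  have hD : (0 : ℤ) < (d ψ : ℤ) := by exact_mod_cast hdψpos
  have hA : (1 : ℤ) ≤ (a : ℤ) := by exact_mod_cast hapos
  have hb01 : b = 0 ∨ b = 1 := by
    by_contra hcon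
    push Not at hcon
    obtain ⟨hb0, hb1'⟩ := hcon
    have hbb : 2 ≤ b * (b - 1) := by
      rcases lt_or_gt_of_ne hb0 with h | h
      · nlinarith
      · have : 2 ≤ b := by omega
        nlinarith
    have hbsq : 1 ≤ b ^ 2 := by
      have := sq_pos_of_ne_zero hb0
      omega
    have hD2 : (0 : ℤ) < (d ψ : ℤ) ^ 2 := by positivity
    have h1 : (d ψ : ℤ) ^ 2 * E ≤ (d ψ : ℤ) ^ 2 * (1 + 2 * (a : ℤ) * b) :=
      mul_le_mul_of_nonneg_left hE hD2.le
    have h2 : b ^ 2 * (2 * (a : ℤ) * (d ψ : ℤ) ^ 2 + 1) ≤ b ^ 2 * T :=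
      mul_le_mul_of_nonneg_left (by omega) (by positivity)
    have h3 : (d ψ : ℤ) ^ 2 * (1 - 2 * (a : ℤ) * (b * (b - 1))) ≥ 1 := by
      nlinarith
    have h4 : 1 - 2 * (a : ℤ) * (b * (b - 1)) ≤ -3 := by nlinarith
    nlinarith
  have hb0 : b = 0 := by
    rcases hb01 with h | h
    · exact h
    exfalso
    subst h
    simp only [one_pow, one_mul, mul_one] at hDE hE
    have hD2 : (0 : ℤ) < (d ψ : ℤ) ^ 2 := by positivity
    have hE2 : 2 * (a : ℤ) < E := by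
      by_contra hcon
      push Not at hcon
      have := mul_le_mul_of_nonneg_left hcon hD2.le
      nlinarith
    have hE3 : E = 1 + 2 * (a : ℤ) := by omega
    have heq := hb2 (by rw [hE3]; simp)
    -- the values at `1`
    have hval : ∀ ξ ∈ S₀, τ₁ ξ 1 = (e ξ : ℂ) * τ₁ ψ 1 := by
      intro ξ hξ
      have h1 : (d ψ : ℤ) • ξ - (d ξ : ℤ) • ψ ∈ zspan (↑S₀ : Set (L → ℂ)) :=
        zspan_sub (zspan_smul _ (hτz ξ hξ)) (zspan_smul _ (hτz ψ hψ))
      have h2 : ((d ψ : ℤ) • ξ - (d ξ : ℤ) • ψ) 1 = 0 := by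
        simp only [Pi.sub_apply, zsmul_fun_apply]
        rw [hdd ξ hξ, hdd ψ hψ]
        ring
      have h3 := hag _ (mem_zspanOn_one.mpr ⟨h1, h2⟩)
      have h4 := hτ1 _ (zspanOn_mono ((Set.subset_insert _ _).trans hS₂) (mem_zspanOn_one.mpr ⟨h1, h2⟩))
      rw [← h3, isometry_sub hτ₁ (zspan_smul _ (hτz ξ hξ)) (zspan_smul _ (hτz ψ hψ)),
        hτ₁.2.1 _ (hτz ξ hξ), hτ₁.2.1 _ (hτz ψ hψ)] at h4
      simp only [Pi.sub_apply, zsmul_fun_apply] at h4
      have h5 : ((d ψ : ℤ) : ℂ) * (e ξ : ℂ) = ((d ξ : ℤ) : ℂ) := by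
        have := hsqrel ξ hξ
        rw [mul_one] at this
        exact_mod_cast this
      have h6 : ((d ψ : ℤ) : ℂ) ≠ 0 := by exact_mod_cast hD.ne'
      apply mul_left_cancel₀ h6
      rw [← mul_assoc, h5]
      linear_combination h4
    have hX1 : X 1 = ((E : ℤ) : ℂ) * τ₁ ψ 1 := by
      rw [heq, Finset.sum_apply, hEdef]
      push_cast
      rw [Finset.sum_mul]
      refine Finset.sum_congr rfl fun ξ hξ => ?_
      rw [Pi.smul_apply, smul_eq_mul, he ξ hξ, hval ξ hξ]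
      simp only [Complex.ofReal_one, div_one]
      ring
    have hX2 : X 1 = (a : ℂ) * τ₁ ψ 1 := by
      rw [hX]
      have hy : χ - (a : ℤ) • ψ ∈ zspanOn (↑(insert χ S₀) : Set (L → ℂ)) {1}ᶜ := by
        refine mem_zspanOn_one.mpr ⟨zspan_sub (mem_zspan_of_mem (by simp))
          (zspan_smul _ (mem_zspan_of_mem (by simp [hψ]))), ?_⟩
        simp only [Pi.sub_apply, zsmul_fun_apply]
        rw [hdχ, hdd ψ hψ, ha]
        push_cast
        ring
      have := hτ1 _ hy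
      simp only [Pi.add_apply, zsmul_fun_apply]
      rw [this]
      push_cast
      ring
    have hne0 : τ₁ ψ 1 ≠ 0 :=
      (pm_of_norm_one (hτ₁.2.2.2 _ (hτz ψ hψ)) (by
        rw [hτ₁.2.2.1 _ (hτz ψ hψ) _ (hτz ψ hψ), classInner_irr_self (hirr ψ hψ)])).map_one_ne
    rw [hX1, hE3] at hX2
    have h7 := mul_right_cancel₀ hne0 hX2
    have h8 : (1 + 2 * (a : ℤ) : ℤ) = (a : ℤ) := by exact_mod_cast h7
    omega
  subst hb0
  have hXnorm : classInner X X = classInner χ χ := by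
    rw [hXX, hnorm1]
    simp
  have hXorth : ∀ φ ∈ (↑S₀ : Set (L → ℂ)), classInner (τ₁ φ) X = 0 := by
    intro φ hφ
    have h1 := hrel φ hφ
    rw [hb] at h1
    simp only [Int.cast_zero, mul_zero] at h1
    have h2 : classInner X (τ₁ φ) = 0 := by
      rcases mul_eq_zero.mp h1 with h3 | h3
      · exfalso
        exact hD.ne' (by exact_mod_cast h3)
      · exact h3
    rw [← conj_classInner, h2, map_zero]
  have hχ0 : classInner χ χ ≠ 0 := by
    rw [hnorm1]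
    exact one_ne_zero
  obtain ⟨τ', hτ', -, -⟩ := cohExt_insert hS₂ hτ hext horthχ hχ0 hψ
    (by rw [hdχ, hdd ψ hψ, ha]; push_cast; ring) hX hXgen hXnorm hXorth
  refine ⟨⟨α₀, zspanOn_mono (by simp) hα₀, hα₀ne⟩, τ', ?_⟩
  rw [Finset.coe_insert]
  exact hτ'

end Insert

section Extend

variable {L : Type u} [Group L] [Fintype L] {G : Type v} [Group G] [Fintype G]

/-- Restriction of a linear isometry on the span vanishing at `1` to a smaller set. -/
theorem isometryOn_mono {S S' : Set (L → ℂ)} {τ : (L → ℂ) → (G → ℂ)} (h : S' ⊆ S)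
    (hτ : IsLinearIsometryOn (zspanOn S {1}ᶜ) τ) : IsLinearIsometryOn (zspanOn S' {1}ᶜ) τ := by
  obtain ⟨h1, h2, h3, h4⟩ := hτ
  exact ⟨fun α hα β hβ => h1 α (zspanOn_mono h hα) β (zspanOn_mono h hβ),
      fun α hα n => h2 α (zspanOn_mono h hα) n,
      fun α hα β hβ => h3 α (zspanOn_mono h hα) β (zspanOn_mono h hβ),
      fun α hα => h4 α (zspanOn_mono h hα)⟩

/-- The iterated extension of a coherent set of irreducible characters. -/
theorem coh_extend_irr {S : Set (L → ℂ)} (hirr : ∀ χ ∈ S, IsIrrCharacter L χ)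
    {τ : (L → ℂ) → (G → ℂ)} (hτ : IsLinearIsometryOn (zspanOn S {1}ᶜ) τ)
    (hτ1 : ∀ α ∈ zspanOn S {1}ᶜ, τ α 1 = 0)
    (U₀ T : Finset (L → ℂ)) (hU₀T : U₀ ⊆ T) (hTS : (↑T : Set (L → ℂ)) ⊆ S)
    (hcoh : IsCoherent (↑U₀ : Set (L → ℂ)) {1}ᶜ τ) (χ₁ : L → ℂ) (hχ₁ : χ₁ ∈ U₀)
    (hineq : ∀ χ ∈ T, χ ∉ U₀ → charDegree χ₁ ∣ charDegree χ ∧
      2 * charDegree χ₁ * charDegree χ < ∑ φ ∈ U₀, charDegree φ ^ 2) :
    IsCoherent (↑T : Set (L → ℂ)) {1}ᶜ τ := by
  classical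
  have key : ∀ (k : ℕ) (U : Finset (L → ℂ)), (T \ U).card = k → U₀ ⊆ U → U ⊆ T →
      IsCoherent (↑U : Set (L → ℂ)) {1}ᶜ τ → IsCoherent (↑T : Set (L → ℂ)) {1}ᶜ τ := by
    intro k
    induction k using Nat.strong_induction_on with
    | _ k ih =>
      intro U hk hU₀U hUT hUcoh
      by_cases hUeq : U = T
      · rw [← hUeq]
        exact hUcoh
      obtain ⟨χ, hχT, hχU⟩ : ∃ χ ∈ T, χ ∉ U := by
        by_contra hcon
        push Not at hcon
        exact hUeq (Finset.Subset.antisymm hUT hcon)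
      have hχU₀ : χ ∉ U₀ := fun h => hχU (hU₀U h)
      obtain ⟨hdvd, hlt⟩ := hineq χ hχT hχU₀
      have hsumle : ∑ φ ∈ U₀, charDegree φ ^ 2 ≤ ∑ φ ∈ U, charDegree φ ^ 2 :=
        Finset.sum_le_sum_of_subset_of_nonneg hU₀U (fun _ _ _ => by positivity)
      have hinsT : (↑(insert χ U) : Set (L → ℂ)) ⊆ S := by
        intro f hf
        have hf' : f ∈ insert χ U := hf
        rcases Finset.mem_insert.mp hf' with rfl | h
        · exact hTS hχT
        · exact hTS (hUT h)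
      have h1 := coh_insert_irr U χ (fun ξ hξ => hirr ξ (hTS (hUT hξ))) (hirr χ (hTS hχT)) hχU
        charDegree (fun ξ hξ => map_one_eq_charDegree (IsIrrCharacter.isCharacter (hirr ξ (hinsT hξ))))
        τ (isometryOn_mono hinsT hτ) (fun α hα => hτ1 α (zspanOn_mono hinsT hα)) hUcoh χ₁ (hU₀U hχ₁) hdvd
        (lt_of_lt_of_le hlt hsumle)
      have hU'T : insert χ U ⊆ T := by
        intro f hf
        rcases Finset.mem_insert.mp hf with rfl | h
        · exact hχT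
        · exact hUT h
      have hcard : (T \ insert χ U).card < k := by
        rw [← hk]
        apply Finset.card_lt_card
        refine ⟨fun f hf => ?_, fun hsub => ?_⟩
        · simp only [Finset.mem_sdiff, Finset.mem_insert, not_or] at hf ⊢
          exact ⟨hf.1, hf.2.2⟩
        · have h2 : χ ∈ T \ U := Finset.mem_sdiff.mpr ⟨hχT, hχU⟩
          have h3 := hsub h2
          simp at h3
      exact ih _ hcard (insert χ U) rfl (hU₀U.trans (Finset.subset_insert _ _)) hU'T h1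
  exact key _ U₀ rfl (Finset.Subset.refl _) hU₀T hcoh

end Extend

section Step

variable {L : Type u} [Group L] [Fintype L] {G : Type v} [Group G] [Fintype G]
  {K : Subgroup L} [hK : K.Normal] {τ : (L → ℂ) → (G → ℂ)}

/-- The extension lemma for `S(A)` and `S(B)`, for a Frobenius kernel. -/
theorem coh_step_irr (hC : ∀ n ∈ K, n ≠ 1 → Subgroup.centralizer ({n} : Set L) ≤ K)
    (hsolv : Group.IsSolvable K)
    (hτ : IsLinearIsometryOn (zspanOn (inducedIrrAbove K ⊥) {1}ᶜ) τ)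
    (hτ1 : ∀ α ∈ zspanOn (inducedIrrAbove K ⊥) {1}ᶜ, τ α 1 = 0)
    (A B C D : Subgroup L) [A.Normal] [B.Normal] (hAK : A < K) (hBA : B ≤ A)
    (hDC : D ≤ C) (hCK : C ≤ K) (hcent : ∀ x ∈ D, ∀ y ∈ C, x * y * x⁻¹ * y⁻¹ ∈ B)
    (hA : IsCoherent (inducedIrrAbove K A) {1}ᶜ τ)
    (hlt : 4 * C.index ^ 2 * D.relIndex C < (A.relIndex K - 1) ^ 2) :
    IsCoherent (inducedIrrAbove K B) {1}ᶜ τ := by
  classical
  letI : Fintype K := Fintype.ofFinite _
  have hirrS : ∀ χ ∈ inducedIrrAbove K ⊥, IsIrrCharacter L χ := fun χ hχ => inducedIrrAbove_irr hC hχ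
  have hsub : ∀ X : Subgroup L, inducedIrrAbove K X ⊆ inducedIrrAbove K ⊥ :=
    fun X => inducedIrrAbove_anti bot_le
  set U₀ := (inducedIrrAbove_finite (K := K) A).toFinset with hU₀
  set V := (inducedIrrAbove_finite (K := K) B).toFinset with hV
  have hmemU : ∀ φ, φ ∈ U₀ ↔ φ ∈ inducedIrrAbove K A := fun φ => by simp [hU₀]
  have hmemV : ∀ φ, φ ∈ V ↔ φ ∈ inducedIrrAbove K B := fun φ => by simp [hV]
  have hU₀coe : (↑U₀ : Set (L → ℂ)) = inducedIrrAbove K A := by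
    ext φ
    exact hmemU φ
  have hVcoe : (↑V : Set (L → ℂ)) = inducedIrrAbove K B := by
    ext φ
    exact hmemV φ
  obtain ⟨θ₁, hθ₁, hne₁, hone₁, hker₁⟩ := exists_linear_above hsolv hAK
  have hχ₁ : indFun K θ₁ ∈ inducedIrrAbove K A := ⟨θ₁, hθ₁, hne₁, hker₁, rfl⟩
  have hdχ₁ : charDegree (indFun K θ₁) = K.index :=
    charDegree_natCast (by rw [indFun_one, hone₁, mul_one])
  have hT : IsCoherent (↑V : Set (L → ℂ)) {1}ᶜ τ := by
    refine coh_extend_irr hirrS hτ hτ1 U₀ V ?_ ?_ ?_ (indFun K θ₁) ?_ ?_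
    · intro φ hφ
      exact (hmemV φ).mpr (inducedIrrAbove_anti hBA ((hmemU φ).mp hφ))
    · intro φ hφ
      exact hsub B ((hmemV φ).mp hφ)
    · rw [hU₀coe]
      exact hA
    · exact (hmemU _).mpr hχ₁
    · intro χ hχT _
      obtain ⟨θ, hθ, hne, hker, rfl⟩ := (hmemV χ).mp hχT
      have hθ1 := map_one_eq_charDegree (IsIrrCharacter.isCharacter hθ)
      have hdχ : charDegree (indFun K θ) = K.index * charDegree θ :=
        charDegree_natCast (by rw [indFun_one, hθ1]; push_cast; ring)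
      refine ⟨?_, ?_⟩
      · rw [hdχ₁, hdχ]
        exact Dvd.intro _ rfl
      · have hsum := sum_weight (K := K) A (d := charDegree) (n := fun _ => 1)
          (fun φ hφ => map_one_eq_charDegree (IsIrrCharacter.isCharacter (hirrS φ (hsub A hφ))))
          (fun φ hφ => by rw [classInner_irr_self (hirrS φ (hsub A hφ))]; simp)
          (fun _ _ => one_pos)
        have hb := deg_sq_bound hθ hDC hCK hcent hker
        have hb' : charDegree θ ^ 2 * Nat.card C * Nat.card D ≤ Nat.card K ^ 2 := by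
          rw [hθ1, Complex.norm_natCast] at hb
          exact_mod_cast hb
        have h1 : K.index * Nat.card K = C.index * Nat.card C := by
          rw [Subgroup.index_mul_card, Subgroup.index_mul_card]
        have h2 : Nat.card C = D.relIndex C * Nat.card D := by
          have h3 := Subgroup.card_mul_index (D.subgroupOf C)
          have h4 : Nat.card (D.subgroupOf C) = Nat.card D :=
            Nat.card_congr (Subgroup.subgroupOfEquivOfLe hDC).toEquiv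
          rw [h4] at h3
          rw [← h3, Subgroup.relIndex, mul_comm]
        have h3 := degree_arith h1 h2 Nat.card_pos Nat.card_pos hb' hlt
        have hidx : 1 ≤ A.relIndex K := by omega
        rw [hdχ₁, hdχ]
        have h4 : ((2 * (K.index * charDegree θ) : ℕ) : ℝ) < ((A.relIndex K - 1 : ℕ) : ℝ) := by
          exact_mod_cast h3
        rw [Nat.cast_sub hidx] at h4
        have hKidx : (0 : ℝ) < K.index := by
          exact_mod_cast Nat.pos_of_ne_zero Subgroup.index_ne_zero_of_finite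
        have h5 : (((2 * K.index * (K.index * charDegree θ) : ℕ) : ℝ)) <
            ((∑ φ ∈ U₀, charDegree φ ^ 2 : ℕ) : ℝ) := by
          have h6 : ((∑ φ ∈ U₀, charDegree φ ^ 2 : ℕ) : ℝ) = (K.index : ℝ) * ((A.relIndex K : ℝ) - 1) := by
            rw [← hsum]
            push_cast
            refine Finset.sum_congr rfl fun φ _ => ?_
            simp
          rw [h6]
          push_cast at h4 ⊢
          nlinarith [mul_lt_mul_of_pos_left h4 hKidx]
        exact_mod_cast h5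
  rw [hVcoe] at hT
  exact hT

/-- The descending chain, with a section central modulo the bottom. -/
theorem coh_chain_irr (hC : ∀ n ∈ K, n ≠ 1 → Subgroup.centralizer ({n} : Set L) ≤ K)
    (hsolv : Group.IsSolvable K)
    (hτ : IsLinearIsometryOn (zspanOn (inducedIrrAbove K ⊥) {1}ᶜ) τ)
    (hτ1 : ∀ α ∈ zspanOn (inducedIrrAbove K ⊥) {1}ᶜ, τ α 1 = 0)
    (M H₁ T : Subgroup L) [M.Normal] [H₁.Normal] (hMH₁ : M ≤ H₁) (hH₁K : H₁ < K) (hTK : T ≤ K)
    (hTc : ∀ t ∈ T, ∀ k ∈ K, t * k * t⁻¹ * k⁻¹ ∈ M)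
    [(M.subgroupOf K).Normal] (hnil : Group.IsNilpotent (↥K ⧸ M.subgroupOf K))
    (hcoh : IsCoherent (inducedIrrAbove K H₁) {1}ᶜ τ)
    (hnum : ∀ N : Subgroup L, N.Normal → M ≤ N → N ≤ H₁ →
      4 * K.index ^ 2 * (N ⊔ T).relIndex K < (N.relIndex K - 1) ^ 2) :
    IsCoherent (inducedIrrAbove K M) {1}ᶜ τ := by
  have hle : ∀ i, commChain M H₁ K i ≤ H₁ := commChain_le hMH₁
  have hlt : ∀ i, commChain M H₁ K i < K := fun i => lt_of_le_of_lt (hle i) hH₁K
  have hchain : ∀ i, IsCoherent (inducedIrrAbove K (commChain M H₁ K i)) {1}ᶜ τ := by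
    intro i
    induction i with
    | zero => exact hcoh
    | succ i ih =>
      haveI hNi := commChain_normal (M := M) (H₁ := H₁) (H := K) i
      haveI hNi' := commChain_normal (M := M) (H₁ := H₁) (H := K) (i + 1)
      refine coh_step_irr hC hsolv hτ hτ1 (commChain M H₁ K i) (commChain M H₁ K (i + 1)) K
        (commChain M H₁ K i ⊔ T) (hlt i) ?_ (sup_le (hlt i).le hTK) le_rfl ?_ ih ?_
      · exact sup_le (Subgroup.commutator_le_left _ _) (le_commChain hMH₁ i)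
      · intro x hx y hy
        obtain ⟨n, hn, t, ht, rfl⟩ := Subgroup.mem_sup_of_normal_left.mp hx
        have h1 : n * y * n⁻¹ * y⁻¹ ∈ commChain M H₁ K (i + 1) := by
          have : ⁅n, y⁆ ∈ commChain M H₁ K (i + 1) :=
            (le_sup_left : _ ≤ ⁅commChain M H₁ K i, K⁆ ⊔ M) (Subgroup.commutator_mem_commutator hn hy)
          rwa [commutatorElement_def] at this
        have h2 : t * y * t⁻¹ * y⁻¹ ∈ commChain M H₁ K (i + 1) :=
          (le_sup_right : _ ≤ ⁅commChain M H₁ K i, K⁆ ⊔ M) (hTc t ht y hy)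
        have h3 : (n * t) * y * (n * t)⁻¹ * y⁻¹ =
            n * (t * y * t⁻¹ * y⁻¹) * n⁻¹ * (n * y * n⁻¹ * y⁻¹) := by
          group
        rw [h3]
        exact Subgroup.mul_mem _ (hNi'.conj_mem _ h2 n) h1
      · exact hnum _ hNi (le_commChain hMH₁ i) (hle i)
  obtain ⟨n, hn⟩ := commChain_reach hMH₁ hH₁K.le hnil
  have heq : commChain M H₁ K n = M := le_antisymm hn (le_commChain hMH₁ n)
  rw [← heq]
  exact hchain n

end Step

end Cfsg.Agent.Lib.OddChar
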