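import Mathlib
import Cfsg.Agent.Lib.OddChar.CohIrr
import Cfsg.Agent.Lib.OddChar.PairTI

/-!
# Coherence for the irreducible characters above a Frobenius kernel.
-/

set_option autoImplicit false

open scoped ComplexConjugate commutatorElement

namespace Cfsg.Agent.Lib.OddChar

open Cfsg (classInner IsCharacter IsIrrCharacter IsClassFunction IsGeneralizedCharacter zspan zspanOn
  conjFun IsLinearIsometryOn IsCoherent IsCoherenceSystem IrrCharacter indFun extendByZero
  inducedIrrAbove charDegree)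
open Cfsg.Agent.Lib.Char Cfsg.Agent.Lib.Degree

universe u v

section Count

/-- All stabilizers of index divisible by `e`: then `e` divides the number of points. -/
theorem dvd_card_of_dvd_stabilizer_index {Γ Y : Type*} [Group Γ] [MulAction Γ Y] [Finite Γ] [Finite Y]
    {e : ℕ} (h : ∀ y : Y, e ∣ (MulAction.stabilizer Γ y).index) : e ∣ Nat.card Y := by
  classical
  haveI : Fintype (MulAction.orbitRel.Quotient Γ Y) := Fintype.ofFinite _
  rw [Nat.card_congr (MulAction.selfEquivSigmaOrbitsQuotientStabilizer Γ Y), Nat.card_sigma]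
  exact Finset.dvd_sum fun ω _ => h _

variable {L : Type u} [Group L] [Finite L] {K H₁ N : Subgroup L} [K.Normal] [H₁.Normal] [N.Normal]

/-- The Frobenius count for an arbitrary normal section. -/
theorem frob_count_gen (hH₁N : H₁ ≤ N) (hNK : N ≤ K)
    (hfrob : ∀ k ∈ K, k ∉ H₁ → ∀ x : L, x * k * x⁻¹ * k⁻¹ ∈ H₁ → x ∈ K) :
    K.index ∣ H₁.relIndex N - 1 := by
  classical
  let π : L →* L ⧸ H₁ := QuotientGroup.mk' H₁
  have hπ : Function.Surjective π := QuotientGroup.mk'_surjective H₁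
  let Nb : Subgroup (L ⧸ H₁) := N.map π
  haveI hNb : Nb.Normal := Subgroup.Normal.map inferInstance π hπ
  let Y := {y : L ⧸ H₁ // y ∈ Nb ∧ y ≠ 1}
  letI act : MulAction (L ⧸ H₁) Y :=
    { smul := fun q y => ⟨q * y.1 * q⁻¹, hNb.conj_mem _ y.2.1 q, fun h => y.2.2 (by
        have h1 : q * y.1 * q⁻¹ = q * 1 * q⁻¹ := by rw [h]; group
        exact mul_left_cancel (mul_right_cancel h1))⟩
      one_smul := fun y => by
        apply Subtype.ext
        change 1 * y.1 * 1⁻¹ = y.1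
        group
      mul_smul := fun a b y => by
        apply Subtype.ext
        change (a * b) * y.1 * (a * b)⁻¹ = a * (b * y.1 * b⁻¹) * a⁻¹
        group }
  have hstab : ∀ y : Y, K.index ∣ (MulAction.stabilizer (L ⧸ H₁) y).index := by
    intro y
    obtain ⟨_, ⟨k, hkN, rfl⟩, hne⟩ := y
    have hkH : k ∉ H₁ := fun h => hne ((QuotientGroup.eq_one_iff k).mpr h)
    have hcomap : (MulAction.stabilizer (L ⧸ H₁) (⟨π k, ⟨k, hkN, rfl⟩, hne⟩ : Y)).comap π ≤ K := by
      intro x hx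
      rw [Subgroup.mem_comap, MulAction.mem_stabilizer_iff, Subtype.ext_iff] at hx
      change π x * π k * (π x)⁻¹ = π k at hx
      have h1 : x * k * x⁻¹ * k⁻¹ ∈ H₁ := by
        rw [← QuotientGroup.eq_one_iff (x * k * x⁻¹ * k⁻¹)]
        change π (x * k * x⁻¹ * k⁻¹) = 1
        rw [map_mul, map_mul, map_mul, map_inv, map_inv, mul_inv_eq_one]
        exact hx
      exact hfrob k (hNK hkN) hkH x h1
    rw [← Subgroup.index_comap_of_surjective _ hπ]
    exact Subgroup.index_dvd_of_le hcomap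
  have h1 := dvd_card_of_dvd_stabilizer_index hstab
  have hY : Nat.card Y = Nat.card Nb - 1 := by
    letI : Fintype (L ⧸ H₁) := Fintype.ofFinite _
    letI : Fintype Nb := Fintype.ofFinite _
    have h2 : Y ≃ {y : Nb // y ≠ 1} :=
      { toFun := fun y => ⟨⟨y.1, y.2.1⟩, fun h => y.2.2 (congrArg Subtype.val h)⟩
        invFun := fun y => ⟨y.1.1, y.1.2, fun h => y.2 (Subtype.ext h)⟩
        left_inv := fun _ => rfl
        right_inv := fun _ => rfl }
    rw [Nat.card_congr h2, Nat.card_eq_fintype_card, Nat.card_eq_fintype_card,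
      Fintype.card_subtype_compl, Fintype.card_subtype_eq]
  have hcard : Nat.card Nb = H₁.relIndex N := by
    have h2 : (Nb.comap π) = N := by
      ext x
      simp only [Nb, Subgroup.mem_comap, Subgroup.mem_map]
      constructor
      · rintro ⟨n, hn, hnx⟩
        have h3 : n⁻¹ * x ∈ H₁ := (QuotientGroup.eq).mp hnx
        have h4 : n⁻¹ * x ∈ N := hH₁N h3
        have h5 := N.mul_mem hn h4
        simpa using h5
      · intro hx
        exact ⟨x, hx, rfl⟩
    have h3 : Nb.index = N.index := by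
      rw [← h2, Subgroup.index_comap_of_surjective _ hπ]
    have h4 := Subgroup.card_mul_index Nb
    have h5 := Subgroup.card_mul_index N
    have h6 : Nat.card (L ⧸ H₁) * Nat.card H₁ = Nat.card L := by
      have := Subgroup.card_mul_index H₁
      rw [Subgroup.index] at this
      rw [mul_comm]
      exact this
    have h7 := Subgroup.card_mul_index (H₁.subgroupOf N)
    have h8 : Nat.card (H₁.subgroupOf N) = Nat.card H₁ :=
      Nat.card_congr (Subgroup.subgroupOfEquivOfLe hH₁N).toEquiv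
    rw [h8] at h7
    have h9 : H₁.relIndex N = (H₁.subgroupOf N).index := rfl
    rw [h9]
    have hH : 0 < Nat.card H₁ := Nat.card_pos
    have hNidx : 0 < N.index := Nat.pos_of_ne_zero Subgroup.index_ne_zero_of_finite
    apply Nat.eq_of_mul_eq_mul_left hH
    apply Nat.eq_of_mul_eq_mul_left hNidx
    calc N.index * (Nat.card H₁ * Nat.card Nb) = (Nat.card Nb * Nb.index) * Nat.card H₁ := by
          rw [h3]; ring
      _ = Nat.card (L ⧸ H₁) * Nat.card H₁ := by rw [h4]
      _ = Nat.card L := h6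
      _ = Nat.card N * N.index := h5.symm
      _ = N.index * (Nat.card H₁ * (H₁.subgroupOf N).index) := by rw [← h7]; ring
  rw [hY, hcard] at h1
  exact h1

end Count

section Nil

/-- A nontrivial normal subgroup of a nilpotent group meets the centre nontrivially. -/
theorem exists_center_of_normal_nilpotent {X : Type*} [Group X] [hnil : Group.IsNilpotent X]
    (R : Subgroup X) [hR : R.Normal] (hR1 : R ≠ ⊥) : ∃ z ∈ R, z ≠ 1 ∧ z ∈ Subgroup.center X := by
  classical
  obtain ⟨n, hn⟩ := hnil.nilpotent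
  have hex : ∃ n, R ⊓ Subgroup.upperCentralSeries X n ≠ ⊥ := ⟨n, by
    rw [hn, inf_top_eq]
    exact hR1⟩
  have hn0 := Nat.find_spec hex
  have hmin := fun m (hm : m < Nat.find hex) => Nat.find_min hex hm
  obtain h0 | ⟨x, hx, hx1⟩ := (R ⊓ Subgroup.upperCentralSeries X (Nat.find hex)).bot_or_exists_ne_one
  · exact absurd h0 hn0
  have hxR : x ∈ R := hx.1
  have hxZ : x ∈ Subgroup.upperCentralSeries X (Nat.find hex) := hx.2
  have hne0 : Nat.find hex ≠ 0 := by
    intro h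
    rw [h, Subgroup.upperCentralSeries_zero] at hxZ
    exact hx1 (Subgroup.mem_bot.mp hxZ)
  obtain ⟨m, hm⟩ := Nat.exists_eq_succ_of_ne_zero hne0
  have hm' : m < Nat.find hex := by omega
  have hb := hmin m hm'
  push Not at hb
  rw [hm, Nat.succ_eq_add_one, Subgroup.mem_upperCentralSeries_succ_iff] at hxZ
  refine ⟨x, hxR, hx1, Subgroup.mem_center_iff.mpr fun y => ?_⟩
  have h1 : x * y * x⁻¹ * y⁻¹ ∈ R ⊓ Subgroup.upperCentralSeries X m := by
    refine ⟨?_, hxZ y⟩
    have h2 : x * y * x⁻¹ * y⁻¹ = x * (y * x⁻¹ * y⁻¹) := by group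
    rw [h2]
    exact R.mul_mem hxR (hR.conj_mem _ (R.inv_mem hxR) y)
  rw [hb, Subgroup.mem_bot] at h1
  have h3 : x * y * x⁻¹ = y := by
    have := mul_inv_eq_one.mp h1
    exact this
  have h4 : x * y = y * x := by
    calc x * y = (x * y * x⁻¹) * x := by group
      _ = y * x := by rw [h3]
  exact h4.symm

/-- A normal Sylow subgroup of a nilpotent normal subgroup. -/
theorem exists_normal_sylow {L : Type u} [Group L] [Finite L] {K : Subgroup L} [hK : K.Normal]
    (hnil : Group.IsNilpotent K) (p : ℕ) [Fact p.Prime] :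
    ∃ P : Subgroup L, P.Normal ∧ P ≤ K ∧ IsPGroup p P ∧ ¬ p ∣ P.relIndex K := by
  classical
  haveI := hnil
  let P₀ : Sylow p K := default
  have hP₀n : (P₀ : Subgroup K).Normal := inferInstance
  have hchar : (P₀ : Subgroup K).Characteristic := Sylow.characteristic_of_normal P₀ hP₀n
  refine ⟨(P₀ : Subgroup K).map K.subtype, ⟨?_⟩, Subgroup.map_subtype_le _, ?_, ?_⟩
  · rintro _ ⟨y, hy, rfl⟩ x
    refine ⟨MulAut.conjNormal x y, ?_, MulAut.conjNormal_apply x y⟩
    have h1 := (Subgroup.characteristic_iff_map_eq.mp hchar) (MulAut.conjNormal x)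
    have h2 : (MulAut.conjNormal x) y ∈ (P₀ : Subgroup K).map (MulAut.conjNormal x).toMonoidHom :=
      ⟨y, hy, rfl⟩
    rw [h1] at h2
    exact h2
  · exact P₀.isPGroup'.map _
  · have h1 : ((P₀ : Subgroup K).map K.subtype).subgroupOf K = P₀ :=
      Subgroup.comap_map_eq_self_of_injective K.subtype_injective _
    rw [Subgroup.relIndex, h1]
    exact P₀.not_dvd_index

end Nil

section Arith

theorem num_stage2 {e y z : ℕ} (he : 0 < e) (hy : 2 * e + 1 ≤ y) (hz : e + 1 ≤ z) :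
    4 * e ^ 2 * y < (y * z - 1) ^ 2 := by
  have h1 : y * (e + 1) ≤ y * z := Nat.mul_le_mul_left _ hz
  have h2 : y * e + 2 * e ≤ y * z - 1 := by
    have h3 : y * (e + 1) = y * e + y := by ring
    omega
  have h4 : (y * e + 2 * e) ^ 2 ≤ (y * z - 1) ^ 2 := Nat.pow_le_pow_left h2 2
  refine lt_of_lt_of_le ?_ h4
  have h5 : (y * e + 2 * e) ^ 2 = e ^ 2 * (y + 2) ^ 2 := by ring
  rw [h5]
  have h6 : 0 < e ^ 2 := by positivity
  have h7 : 4 * y < (y + 2) ^ 2 := by nlinarith
  calc 4 * e ^ 2 * y = e ^ 2 * (4 * y) := by ring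
    _ < e ^ 2 * (y + 2) ^ 2 := Nat.mul_lt_mul_of_pos_left h7 h6

theorem num_stage3 {e z w : ℕ} (he : 0 < e) (hz : 2 ≤ z) (hw : 2 * e + 1 ≤ w) :
    4 * e ^ 2 * z < (w * z - 1) ^ 2 := by
  have h1 : (2 * e + 1) * z ≤ w * z := Nat.mul_le_mul_right _ hw
  have h2 : 2 * e * z + 1 ≤ w * z - 1 := by
    have h3 : (2 * e + 1) * z = 2 * e * z + z := by ring
    omega
  have h4 : (2 * e * z + 1) ^ 2 ≤ (w * z - 1) ^ 2 := Nat.pow_le_pow_left h2 2
  refine lt_of_lt_of_le ?_ h4
  have h5 : 0 < e ^ 2 := by positivity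
  have h6 : 4 * e ^ 2 * z < (2 * e * z + 1) ^ 2 := by nlinarith [mul_pos h5 (by omega : 0 < z)]
  exact h6

/-- `(2 e + 1) ≤ x` from the congruence and parity. -/
theorem two_mul_add_one_le {e x : ℕ} (he : Odd e) (hx : Odd x) (hx1 : x ≠ 1) (hd : e ∣ x - 1) :
    2 * e + 1 ≤ x := by
  have hx0 : 0 < x := hx.pos
  exact odd_ge he hx (by omega) hd

end Arith

variable {L : Type u} [Group L] [Fintype L] {G : Type v} [Group G] [Fintype G]
  {K : Subgroup L} [hK : K.Normal] {τ : (L → ℂ) → (G → ℂ)}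

/-- The top of the chain: at least two characters of the same degree. -/
theorem coh_top_irr (hC : ∀ n ∈ K, n ≠ 1 → Subgroup.centralizer ({n} : Set L) ≤ K)
    (hsolv : Group.IsSolvable K)
    (hτ : IsLinearIsometryOn (zspanOn (inducedIrrAbove K ⊥) {1}ᶜ) τ)
    (hτ1 : ∀ α ∈ zspanOn (inducedIrrAbove K ⊥) {1}ᶜ, τ α 1 = 0)
    (A : Subgroup L) [A.Normal] (hAK : A < K) (hcomm : ⁅K, K⁆ ≤ A) (hbig : 2 * K.index + 1 ≤ A.relIndex K) :
    IsCoherent (inducedIrrAbove K A) {1}ᶜ τ := by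
  classical
  letI : Fintype K := Fintype.ofFinite _
  have hsub : inducedIrrAbove K A ⊆ inducedIrrAbove K ⊥ := inducedIrrAbove_anti bot_le
  have hirr : ∀ χ ∈ inducedIrrAbove K A, IsIrrCharacter L χ := fun χ hχ => inducedIrrAbove_irr hC hχ
  have hdeg1 : ∀ φ ∈ inducedIrrAbove K A, φ 1 = (K.index : ℂ) := by
    rintro φ ⟨θ, hθ, -, hker, rfl⟩
    rw [indFun_one]
    have h1 : θ 1 = 1 := by
      refine irr_one_of_comm_ker (A.subgroupOf K) ?_ hθ (fun n hn => hker n (Subgroup.mem_subgroupOf.mp hn))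
      rw [commutator_def, Subgroup.commutator_le]
      intro a _ b _
      apply Subgroup.mem_subgroupOf.mpr
      have h2 : ⁅(a : L), (b : L)⁆ ∈ ⁅K, K⁆ := Subgroup.commutator_mem_commutator a.2 b.2
      have h3 : ((⁅a, b⁆ : K) : L) = ⁅(a : L), (b : L)⁆ := rfl
      rw [h3]
      exact hcomm h2
    rw [h1, mul_one]
  refine coh_same_deg_irr (inducedIrrAbove_finite A) hirr ?_
    (fun φ hφ ψ hψ => by rw [hdeg1 φ hφ, hdeg1 ψ hψ]) (isometryOn_mono hsub hτ)
    (fun α hα => hτ1 α (zspanOn_mono hsub hα))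
  by_contra hcon
  push Not at hcon
  obtain ⟨θ, hθ, hne, -, hker⟩ := exists_linear_above hsolv hAK
  have hχ : indFun K θ ∈ inducedIrrAbove K A := ⟨θ, hθ, hne, hker, rfl⟩
  have hset : (inducedIrrAbove_finite (K := K) A).toFinset = {indFun K θ} := by
    ext φ
    simp only [Set.Finite.mem_toFinset, Finset.mem_singleton]
    exact ⟨fun h => hcon φ h _ hχ, fun h => h ▸ hχ⟩
  have hsum := sum_weight (K := K) A (d := fun _ => K.index) (n := fun _ => 1)
    (fun φ hφ => hdeg1 φ hφ)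
    (fun φ hφ => by rw [classInner_irr_self (hirr φ hφ)]; simp)
    (fun _ _ => one_pos)
  rw [hset, Finset.sum_singleton] at hsum
  have hepos : (0 : ℝ) < K.index := by
    exact_mod_cast Nat.pos_of_ne_zero Subgroup.index_ne_zero_of_finite
  have h1 : ((2 * K.index + 1 : ℕ) : ℝ) ≤ (A.relIndex K : ℝ) := by exact_mod_cast hbig
  push_cast at h1 hsum
  nlinarith

/-- Coherence when the abelianisation is large. -/
theorem coh_big_irr (hC : ∀ n ∈ K, n ≠ 1 → Subgroup.centralizer ({n} : Set L) ≤ K)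
    (hnil : Group.IsNilpotent K)
    (hτ : IsLinearIsometryOn (zspanOn (inducedIrrAbove K ⊥) {1}ᶜ) τ)
    (hτ1 : ∀ α ∈ zspanOn (inducedIrrAbove K ⊥) {1}ᶜ, τ α 1 = 0)
    (hK1 : K ≠ ⊥) (hbig : 4 * K.index ^ 2 + 1 < ⁅K, K⁆.relIndex K) :
    IsCoherent (inducedIrrAbove K ⊥) {1}ᶜ τ := by
  classical
  have hsolv : Group.IsSolvable K := inferInstance
  have hlt := commutator_lt_of_solvable hsolv hK1
  have hepos : 0 < K.index := Nat.pos_of_ne_zero Subgroup.index_ne_zero_of_finite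
  have htop := coh_top_irr hC hsolv hτ hτ1 ⁅K, K⁆ hlt le_rfl (by nlinarith)
  have hnil' : Group.IsNilpotent (↥K ⧸ (⊥ : Subgroup L).subgroupOf K) :=
    Group.nilpotent_of_surjective (QuotientGroup.mk' _) (QuotientGroup.mk'_surjective _)
  refine coh_chain_irr hC hsolv hτ hτ1 ⊥ ⁅K, K⁆ ⊥ bot_le hlt bot_le ?_ hnil' htop ?_
  · intro t ht k _
    have : t = 1 := Subgroup.mem_bot.mp ht
    subst this
    simp
  · intro N hN _ hNle
    rw [sup_bot_eq]
    haveI := hN
    have h1 : ⁅K, K⁆.relIndex K ∣ N.relIndex K := Subgroup.relIndex_dvd_of_le_left K hNle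
    have h2 : 0 < N.relIndex K := Nat.pos_of_ne_zero Subgroup.index_ne_zero_of_finite
    have h3 := Nat.le_of_dvd h2 h1
    have h4 := chain_arith (b := 1) (e := K.index) (t := N.relIndex K) one_pos (by omega)
    simpa using h4

/-- Coherence when the kernel is nonabelian and not of prime power order. -/
theorem coh_nonprime_irr (hKL : K < ⊤) (hC : ∀ n ∈ K, n ≠ 1 → Subgroup.centralizer ({n} : Set L) ≤ K)
    (hτ : IsLinearIsometryOn (zspanOn (inducedIrrAbove K ⊥) {1}ᶜ) τ)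
    (hτ1 : ∀ α ∈ zspanOn (inducedIrrAbove K ⊥) {1}ᶜ, τ α 1 = 0)
    (hna : ¬ IsMulCommutative K) (hpp : ¬ ∃ p m : ℕ, p.Prime ∧ Nat.card K = p ^ m) :
    IsCoherent (inducedIrrAbove K ⊥) {1}ᶜ τ := by
  classical
  have hnil : Group.IsNilpotent K := kernel_nilpotent hKL hC
  have hsolv : Group.IsSolvable K := inferInstance
  have hcop : Nat.Coprime (Nat.card K) K.index := coprime_of_centralizers hC
  have hn1 : Nat.card K ≠ 1 := fun h => hpp ⟨2, 0, Nat.prime_two, by simpa using h⟩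
  have hn0 : Nat.card K ≠ 0 := Nat.card_pos.ne'
  have hK1 : K ≠ ⊥ := by
    rintro rfl
    exact hn1 (by simp)
  -- the primes
  set p := (Nat.card K).minFac with hpdef
  have hp : p.Prime := Nat.minFac_prime hn1
  have hpd : p ∣ Nat.card K := Nat.minFac_dvd _
  haveI hpf : Fact p.Prime := ⟨hp⟩
  obtain ⟨q, hq, hqd, hqp⟩ : ∃ q, q.Prime ∧ q ∣ Nat.card K ∧ q ≠ p := by
    by_contra hcon
    push Not at hcon
    exact hpp ⟨p, _, hp, Nat.eq_prime_pow_of_unique_prime_dvd hn0 (fun {r} hr hrd => hcon r hr hrd)⟩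
  haveI hqf : Fact q.Prime := ⟨hq⟩
  obtain ⟨P, hPn, hPK, hPp, hPidx⟩ := exists_normal_sylow hnil p
  obtain ⟨R, hRn, hRK, hRp, hRidx⟩ := exists_normal_sylow hnil q
  haveI := hPn
  haveI := hRn
  have hcardK : Nat.card K = Nat.card P * P.relIndex K := by
    have h1 := Subgroup.card_mul_index (P.subgroupOf K)
    have h2 : Nat.card (P.subgroupOf K) = Nat.card P :=
      Nat.card_congr (Subgroup.subgroupOfEquivOfLe hPK).toEquiv
    rw [h2] at h1
    exact h1.symm
  -- `[K : P]` is odd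
  have hPodd : Odd (P.relIndex K) := by
    by_contra hcon
    have h2 : 2 ∣ P.relIndex K := by
      rcases Nat.even_or_odd (P.relIndex K) with h | h
      · exact h.two_dvd
      · exact absurd h hcon
    have h3 : 2 ∣ Nat.card K := hcardK ▸ Dvd.dvd.mul_left h2 _
    have h4 : p ≤ 2 := Nat.minFac_le_of_dvd le_rfl h3
    have h5 : p = 2 := le_antisymm h4 hp.two_le
    rw [h5] at hPidx
    exact hPidx h2
  -- `e` is odd
  have heodd : Odd K.index := by
    rcases Nat.even_or_odd (Nat.card K) with h | h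
    · have h2 : Nat.Coprime 2 K.index := Nat.Coprime.coprime_dvd_left h.two_dvd hcop
      exact (Nat.coprime_two_left).mp h2
    · exact odd_index_of_nonabelian hC h hna
  have hepos : 0 < K.index := heodd.pos
  have hfrob : ∀ {A : Subgroup L} [A.Normal], A ≤ K → ∀ k ∈ K, k ∉ A → ∀ x : L, x * k * x⁻¹ * k⁻¹ ∈ A → x ∈ K :=
    fun hA k hk hkA x hx => mem_of_comm_mem hC hA hk hkA hx
  have hK'lt : ⁅K, K⁆ < K := commutator_lt_of_solvable hsolv hK1
  have hK'n : (⁅K, K⁆ : Subgroup L).Normal := inferInstance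
  have hnilq : ∀ (M : Subgroup L) [M.Normal], Group.IsNilpotent (↥K ⧸ M.subgroupOf K) := by
    intro M _
    exact Group.nilpotent_of_surjective (QuotientGroup.mk' _) (QuotientGroup.mk'_surjective _)
  -- the first index
  set A₁ : Subgroup L := ⁅K, K⁆ ⊔ P with hA₁
  haveI hA₁n : A₁.Normal := inferInstance
  have hA₁K : A₁ ≤ K := sup_le hK'lt.le hPK
  have hPA₁ : P ≤ A₁ := le_sup_right
  have hK'A₁ : ⁅K, K⁆ ≤ A₁ := le_sup_left
  have ht : 2 * K.index + 1 ≤ A₁.relIndex K := by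
    refine two_mul_add_one_le heodd (Odd.of_dvd_nat hPodd (Subgroup.relIndex_dvd_of_le_left K hPA₁)) ?_
      (frob_count hA₁K le_rfl hK'A₁ (hfrob hA₁K))
    intro h1
    have h2 : q ∣ P.relIndex K := by
      have h3 : q ∣ Nat.card P * P.relIndex K := hcardK ▸ hqd
      rcases (Nat.Prime.dvd_mul hq).mp h3 with h4 | h4
      · exfalso
        obtain ⟨m, hm⟩ := IsPGroup.iff_card.mp hPp
        rw [hm] at h4
        exact hqp ((Nat.prime_dvd_prime_iff_eq hq hp).mp (hq.dvd_of_dvd_pow h4))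
      · exact h4
    have h3 := prime_dvd_top hPK (hnilq P) hA₁ q hq h2
    rw [h1] at h3
    exact hq.one_lt.ne' (Nat.dvd_one.mp h3)
  have hs : K.index + 1 ≤ ⁅K, K⁆.relIndex A₁ := by
    have h1 : K.index ∣ ⁅K, K⁆.relIndex A₁ - 1 :=
      frob_count hK'A₁ hA₁K le_rfl (hfrob hK'lt.le)
    have h2 : ⁅K, K⁆.relIndex A₁ ≠ 1 := by
      intro h3
      have h4 : A₁ ≤ ⁅K, K⁆ := Subgroup.relIndex_eq_one.mp h3
      have h5 : p ∣ (⊥ : Subgroup L).relIndex K := by
        rw [Subgroup.relIndex_bot_left]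
        exact hpd
      have h6 := prime_dvd_top bot_le (hnilq ⊥) (H₁ := ⁅K, K⁆) (by simp) p hp h5
      apply hPidx
      exact h6.trans (Subgroup.relIndex_dvd_of_le_left K (hPA₁.trans h4))
    have h3 : 0 < ⁅K, K⁆.relIndex A₁ := Nat.pos_of_ne_zero Subgroup.index_ne_zero_of_finite
    have h4 := Nat.le_of_dvd (by omega) h1
    omega
  have hx : ⁅K, K⁆.relIndex K = ⁅K, K⁆.relIndex A₁ * A₁.relIndex K :=
    (Subgroup.relIndex_mul_relIndex _ _ _ hK'A₁ hA₁K).symm
  have htop : IsCoherent (inducedIrrAbove K ⁅K, K⁆) {1}ᶜ τ := by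
    refine coh_top_irr hC hsolv hτ hτ1 _ hK'lt le_rfl ?_
    rw [hx]
    exact ht.trans (Nat.le_mul_of_pos_left _ (by omega))
  -- stage 2
  set M : Subgroup L := ⁅P, K⁆ with hM
  haveI hMn : M.Normal := inferInstance
  have hMK' : M ≤ ⁅K, K⁆ := Subgroup.commutator_mono hPK le_rfl
  have hMP : M ≤ P := Subgroup.commutator_le_left _ _
  have hPne : P ≠ K := by
    intro h
    obtain ⟨m, hm⟩ := IsPGroup.iff_card.mp hPp
    rw [h] at hm
    exact hpp ⟨p, m, hp, hm⟩
  have hPlt : P < K := lt_of_le_of_ne hPK hPne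
  have hstage2 : IsCoherent (inducedIrrAbove K M) {1}ᶜ τ := by
    refine coh_chain_irr hC hsolv hτ hτ1 M ⁅K, K⁆ P hMK' hK'lt hPK ?_ (hnilq M) htop ?_
    · intro t ht' k hk
      have := Subgroup.commutator_mem_commutator ht' hk
      rwa [commutatorElement_def] at this
    · intro N hN _ hNle
      haveI := hN
      have hNP : N ⊔ P ≤ K := sup_le (hNle.trans hK'lt.le) hPK
      have h1 : N.relIndex K = N.relIndex (N ⊔ P) * (N ⊔ P).relIndex K :=
        (Subgroup.relIndex_mul_relIndex _ _ _ le_sup_left hNP).symm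
      have h2 : A₁.relIndex K ≤ (N ⊔ P).relIndex K := by
        refine Nat.le_of_dvd (Nat.pos_of_ne_zero Subgroup.index_ne_zero_of_finite)
          (Subgroup.relIndex_dvd_of_le_left K (sup_le_sup_right hNle P))
      have h3 : ⁅K, K⁆.relIndex A₁ ≤ N.relIndex (N ⊔ P) := by
        rw [hA₁, Subgroup.relIndex_sup_left, Subgroup.relIndex_sup_left]
        exact Nat.le_of_dvd (Nat.pos_of_ne_zero Subgroup.index_ne_zero_of_finite)
          (Subgroup.relIndex_dvd_of_le_left P hNle)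
      rw [h1, mul_comm (N.relIndex (N ⊔ P))]
      exact num_stage2 hepos (ht.trans h2) (hs.trans h3)
  -- stage 3
  set Z : Subgroup L := K ⊓ Subgroup.centralizer (K : Set L) with hZ
  have hZmem : ∀ z, z ∈ Z ↔ z ∈ K ∧ ∀ k ∈ K, z * k = k * z := by
    intro z
    rw [hZ, Subgroup.mem_inf, Subgroup.mem_centralizer_iff]
    constructor
    · rintro ⟨h1, h2⟩
      exact ⟨h1, fun k hk => (h2 k hk).symm⟩
    · rintro ⟨h1, h2⟩
      exact ⟨h1, fun k hk => (h2 k hk).symm⟩
  haveI hZn : Z.Normal := by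
    refine ⟨fun z hz x => (hZmem _).mpr ⟨hK.conj_mem _ ((hZmem z).mp hz).1 x, fun k hk => ?_⟩⟩
    have h1 := ((hZmem z).mp hz).2 (x⁻¹ * k * x) (by simpa using hK.conj_mem k hk x⁻¹)
    calc x * z * x⁻¹ * k = x * (z * (x⁻¹ * k * x)) * x⁻¹ := by group
      _ = x * ((x⁻¹ * k * x) * z) * x⁻¹ := by rw [h1]
      _ = k * (x * z * x⁻¹) := by group
  have hZK : Z ≤ K := inf_le_left
  have hZneK : Z ≠ K := by
    intro h
    apply hna
    refine ⟨⟨fun a b => ?_⟩⟩
    have h1 : (a : L) ∈ Z := by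
      rw [h]
      exact a.2
    exact Subtype.ext (((hZmem _).mp h1).2 b b.2)
  -- `Z` is not inside `P`
  have hZP : ¬ Z ≤ P := by
    intro h
    have hRne : R.subgroupOf K ≠ ⊥ := by
      intro h2
      have hRb : R = ⊥ := by
        rw [eq_bot_iff]
        intro x hx
        have h3 : (⟨x, hRK hx⟩ : K) ∈ R.subgroupOf K := Subgroup.mem_subgroupOf.mpr hx
        rw [h2, Subgroup.mem_bot] at h3
        exact Subgroup.mem_bot.mpr (congrArg Subtype.val h3)
      apply hRidx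
      rw [hRb, Subgroup.relIndex_bot_left]
      exact hqd
    obtain ⟨z, hz, hz1, hzc⟩ := exists_center_of_normal_nilpotent (X := K) (R.subgroupOf K) hRne
    have hzZ : (z : L) ∈ Z := (hZmem _).mpr ⟨z.2, fun k hk => by
      have h3 := Subgroup.mem_center_iff.mp hzc ⟨k, hk⟩
      exact (congrArg Subtype.val h3).symm⟩
    have hzP := h hzZ
    have hzR : (z : L) ∈ R := Subgroup.mem_subgroupOf.mp hz
    have hcopPR : Nat.Coprime (Nat.card P) (Nat.card R) := by
      obtain ⟨a, ha⟩ := IsPGroup.iff_card.mp hPp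
      obtain ⟨b, hb⟩ := IsPGroup.iff_card.mp hRp
      rw [ha, hb]
      exact Nat.Coprime.pow _ _ ((Nat.coprime_primes hp hq).mpr hqp.symm)
    have hinf : P ⊓ R = ⊥ := (Subgroup.disjoint_of_coprime_natCard hcopPR).eq_bot
    have h3 : (z : L) ∈ P ⊓ R := ⟨hzP, hzR⟩
    rw [hinf, Subgroup.mem_bot] at h3
    exact hz1 (Subtype.ext h3)
  have hMlt : M < K := lt_of_le_of_lt hMP hPlt
  -- the second index
  set A₂ : Subgroup L := P ⊔ Z with hA₂
  haveI hA₂n : A₂.Normal := inferInstance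
  have hA₂K : A₂ ≤ K := sup_le hPK hZK
  have hw : 2 * K.index + 1 ≤ P.relIndex A₂ := by
    refine two_mul_add_one_le heodd ?_ ?_ (frob_count_gen le_sup_left hA₂K (hfrob hPK))
    · have h1 : P.relIndex K = P.relIndex A₂ * A₂.relIndex K :=
        (Subgroup.relIndex_mul_relIndex _ _ _ le_sup_left hA₂K).symm
      exact Odd.of_dvd_nat hPodd (h1 ▸ Dvd.intro _ rfl)
    · intro h
      exact hZP ((le_sup_right : Z ≤ A₂).trans (Subgroup.relIndex_eq_one.mp h))
  have hz2 : 2 ≤ (⁅K, K⁆ ⊔ Z).relIndex K := by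
    have h1 : Z.relIndex K ≠ 1 := fun h => hZneK (le_antisymm hZK (Subgroup.relIndex_eq_one.mp h))
    obtain ⟨r, hr, hrd⟩ := Nat.exists_prime_and_dvd h1
    have h2 := prime_dvd_top hZK (hnilq Z) rfl r hr hrd
    have h3 : 0 < (⁅K, K⁆ ⊔ Z).relIndex K := Nat.pos_of_ne_zero Subgroup.index_ne_zero_of_finite
    have h4 := Nat.le_of_dvd h3 h2
    have := hr.two_le
    omega
  have hfin := coh_chain_irr hC hsolv hτ hτ1 ⊥ M Z bot_le hMlt hZK ?_ (hnilq ⊥) hstage2 ?_
  · exact hfin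
  · intro t ht' k hk
    have h1 := ((hZmem t).mp ht').2 k hk
    have h2 : t * k * t⁻¹ * k⁻¹ = 1 := by
      rw [h1]
      group
    rw [h2]
    exact Subgroup.one_mem _
  · intro N hN _ hNle
    haveI := hN
    have hNK : N ≤ K := hNle.trans hMlt.le
    have hNZ : N ⊔ Z ≤ K := sup_le hNK hZK
    have h1 : N.relIndex K = N.relIndex (N ⊔ Z) * (N ⊔ Z).relIndex K :=
      (Subgroup.relIndex_mul_relIndex _ _ _ le_sup_left hNZ).symm
    have h2 : (⁅K, K⁆ ⊔ Z).relIndex K ≤ (N ⊔ Z).relIndex K := by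
      refine Nat.le_of_dvd (Nat.pos_of_ne_zero Subgroup.index_ne_zero_of_finite)
        (Subgroup.relIndex_dvd_of_le_left K (sup_le_sup_right (hNle.trans hMK') Z))
    have h3 : P.relIndex A₂ ≤ N.relIndex (N ⊔ Z) := by
      rw [hA₂, Subgroup.relIndex_sup_left, Subgroup.relIndex_sup_left]
      exact Nat.le_of_dvd (Nat.pos_of_ne_zero Subgroup.index_ne_zero_of_finite)
        (Subgroup.relIndex_dvd_of_le_left Z (hNle.trans hMP))
    rw [h1]
    exact num_stage3 hepos (hz2.trans h2) (hw.trans h3)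

end Cfsg.Agent.Lib.OddChar
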