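import Mathlib
import Cfsg.Agent.Lib.OddChar.CyclicW2

/-!
# Induction from a self-normalising cyclic subgroup.
-/

set_option autoImplicit false

open scoped ComplexConjugate

namespace Cfsg.Agent.Lib.OddChar

open Cfsg (classInner IsCharacter IsIrrCharacter IsClassFunction extendByZero indFun
  IsSelfNormalizingCyclic IsCyclicTIFamily)
open Cfsg.Agent.Lib.Char

universe u

section TI

variable {G : Type u} [Group G] [Finite G] {W₁ W₂ : Subgroup G}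

theorem selfNorm_comm (hW : IsSelfNormalizingCyclic W₁ W₂) {a b : G} (ha : a ∈ W₁ ⊔ W₂)
    (hb : b ∈ W₁ ⊔ W₂) : a * b = b * a :=
  Cfsg.Agent.Lib.OddLocal.comm_of_isCyclic hW.2.2.2.2.1 ha hb

/-- The centraliser of an element of the TI-set is `W`. -/
theorem selfNorm_centralizer (hW : IsSelfNormalizingCyclic W₁ W₂) {a g : G} (ha : a ∈ W₁ ⊔ W₂)
    (h₁ : a ∉ W₁) (h₂ : a ∉ W₂) (hg : g * a = a * g) : g ∈ W₁ ⊔ W₂ := by
  have h1 := hW.2.2.2.2.2 {a} (by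
    intro y hy
    rw [Set.mem_singleton_iff.mp hy]
    exact ⟨ha, by simp [h₁, h₂]⟩) (Set.singleton_nonempty a)
  rw [← h1, Subgroup.mem_set_normalizer_iff]
  intro n
  simp only [Set.mem_singleton_iff]
  have h2 : g * a * g⁻¹ = a := by rw [hg]; group
  constructor
  · rintro rfl
    exact h2
  · intro h3
    have h4 : g * n * g⁻¹ = g * a * g⁻¹ := by rw [h3, h2]
    exact mul_left_cancel (mul_right_cancel h4)

theorem selfNorm_conj_sub (hW : IsSelfNormalizingCyclic W₁ W₂) {a x : G} (ha : a ∈ W₁ ⊔ W₂)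
    (h₁ : a ∉ W₁) (h₂ : a ∉ W₂) (hx : x * a * x⁻¹ ∈ W₁ ⊔ W₂) {y : G} (hy : y ∈ W₁ ⊔ W₂) :
    x⁻¹ * y * x ∈ W₁ ⊔ W₂ := by
  refine selfNorm_centralizer hW ha h₁ h₂ ?_
  have h3 := selfNorm_comm hW hy hx
  calc x⁻¹ * y * x * a = x⁻¹ * (y * (x * a * x⁻¹)) * x := by group
    _ = x⁻¹ * ((x * a * x⁻¹) * y) * x := by rw [h3]
    _ = a * (x⁻¹ * y * x) := by group

/-- Elements of the TI-set are fused only by `W`. -/
theorem selfNorm_conj (hW : IsSelfNormalizingCyclic W₁ W₂) {a x : G} (ha : a ∈ W₁ ⊔ W₂)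
    (h₁ : a ∉ W₁) (h₂ : a ∉ W₂) (hx : x * a * x⁻¹ ∈ W₁ ⊔ W₂) (hx₁ : x * a * x⁻¹ ∉ W₁)
    (hx₂ : x * a * x⁻¹ ∉ W₂) : x ∈ W₁ ⊔ W₂ := by
  have hd : x⁻¹ * (x * a * x⁻¹) * x⁻¹⁻¹ = a := by group
  have hup : ∀ y ∈ W₁ ⊔ W₂, x⁻¹ * y * x ∈ W₁ ⊔ W₂ := fun y hy =>
    selfNorm_conj_sub hW ha h₁ h₂ hx hy
  have hdown : ∀ y ∈ W₁ ⊔ W₂, x * y * x⁻¹ ∈ W₁ ⊔ W₂ := fun y hy => by
    have := selfNorm_conj_sub hW hx hx₁ hx₂ (x := x⁻¹) (by rw [hd]; exact ha) hy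
    simpa using this
  have hcyc := hW.2.2.2.2.1
  have hsub : ∀ (U : Subgroup G), U ≤ W₁ ⊔ W₂ → ∀ z : G, (∀ y ∈ W₁ ⊔ W₂, z * y * z⁻¹ ∈ W₁ ⊔ W₂) →
      ∀ y ∈ U, z * y * z⁻¹ ∈ U := by
    intro U hU z hz y hy
    have hle : U.map (MulAut.conj z).toMonoidHom ≤ W₁ ⊔ W₂ := by
      rintro _ ⟨t, ht, rfl⟩
      exact hz t (hU ht)
    have hcard : Nat.card ↥(U.map (MulAut.conj z).toMonoidHom) = Nat.card U :=
      Nat.card_congr (U.equivMapOfInjective _ (MulAut.conj z).injective).toEquiv.symm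
    exact Cfsg.Agent.Lib.OddLocal.eq_of_card_eq_of_isCyclic hcyc hle hU hcard ⟨y, hy, rfl⟩
  have hinv : ∀ y ∈ W₁ ⊔ W₂, x⁻¹ * y * x⁻¹⁻¹ ∈ W₁ ⊔ W₂ := fun y hy => by
    simpa using hup y hy
  have hw1 := hsub W₁ le_sup_left x hdown
  have hw1' := hsub W₁ le_sup_left x⁻¹ hinv
  have hw2 := hsub W₂ le_sup_right x hdown
  have hw2' := hsub W₂ le_sup_right x⁻¹ hinv
  set S : Set G := {y | y ∈ W₁ ⊔ W₂ ∧ y ∉ W₁ ∧ y ∉ W₂} with hS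
  have h3 := hW.2.2.2.2.2 S (by
    rintro y ⟨h4, h5, h6⟩
    exact ⟨h4, by simp [h5, h6]⟩) ⟨a, ha, h₁, h₂⟩
  rw [← h3, Subgroup.mem_set_normalizer_iff]
  have hback : ∀ (U : Subgroup G) n, (∀ y ∈ U, x⁻¹ * y * x⁻¹⁻¹ ∈ U) → x * n * x⁻¹ ∈ U → n ∈ U := by
    intro U n hU h4
    have := hU _ h4
    have h5 : x⁻¹ * (x * n * x⁻¹) * x⁻¹⁻¹ = n := by group
    rwa [h5] at this
  intro n
  constructor
  · rintro ⟨h4, h5, h6⟩
    exact ⟨hdown n h4, fun h7 => h5 (hback W₁ n hw1' h7), fun h7 => h6 (hback W₂ n hw2' h7)⟩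
  · rintro ⟨h4, h5, h6⟩
    refine ⟨hback _ n hinv h4, fun h7 => h5 (hw1 n h7), fun h7 => h6 (hw2 n h7)⟩

end TI

section Ind

variable {G : Type u} [Group G] [Fintype G] {W₁ W₂ : Subgroup G}

/-- The induced function agrees with the original function on the TI-set. -/
theorem indFun_cyc_val (hW : IsSelfNormalizingCyclic W₁ W₂) {β : ↥(W₁ ⊔ W₂) → ℂ}
    (hβ : ∀ w : ↥(W₁ ⊔ W₂), (w : G) ∈ W₁ ∨ (w : G) ∈ W₂ → β w = 0) (a : ↥(W₁ ⊔ W₂))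
    (h₁ : (a : G) ∉ W₁) (h₂ : (a : G) ∉ W₂) : indFun (W₁ ⊔ W₂) β a = β a := by
  classical
  have hterm : ∀ x : G, extendByZero (W₁ ⊔ W₂) β (x⁻¹ * a * x) =
      if x ∈ W₁ ⊔ W₂ then β a else 0 := by
    intro x
    split_ifs with hx
    · have h3 : x⁻¹ * (a : G) * x = a := by
        rw [mul_assoc, selfNorm_comm hW a.2 hx]
        group
      have h4 : x⁻¹ * (a : G) * x ∈ W₁ ⊔ W₂ := by rw [h3]; exact a.2
      rw [extendByZero_of_mem _ _ h4]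
      congr 1
      exact Subtype.ext h3
    · by_cases h4 : x⁻¹ * (a : G) * x ∈ W₁ ⊔ W₂
      · rw [extendByZero_of_mem _ _ h4]
        refine hβ _ ?_
        by_contra h5
        push Not at h5
        have h6 := selfNorm_conj hW (x := x⁻¹) a.2 h₁ h₂ (by simpa using h4)
          (by simpa using h5.1) (by simpa using h5.2)
        exact hx (by simpa using (W₁ ⊔ W₂).inv_mem h6)
      · exact extendByZero_of_not_mem _ _ h4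
  rw [indFun_apply]
  simp only [hterm]
  rw [Finset.sum_ite, Finset.sum_const_zero, add_zero, Finset.sum_const, nsmul_eq_mul]
  have h1 : ((Finset.univ.filter (· ∈ W₁ ⊔ W₂)).card : ℂ) = (Nat.card ↥(W₁ ⊔ W₂) : ℂ) := by
    congr 1
    exact (Nat.subtype_card _ (by simp)).symm
  rw [h1]
  have h2 := card_ne_zero_complex ↥(W₁ ⊔ W₂)
  field_simp

/-- Inner products of functions induced from `W` vanishing on `W₁ ∪ W₂`. -/
theorem classInner_indFun_cyc (hW : IsSelfNormalizingCyclic W₁ W₂) [Fintype ↥(W₁ ⊔ W₂)]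
    {α β : ↥(W₁ ⊔ W₂) → ℂ}
    (hα : ∀ w : ↥(W₁ ⊔ W₂), (w : G) ∈ W₁ ∨ (w : G) ∈ W₂ → α w = 0)
    (hβ : ∀ w : ↥(W₁ ⊔ W₂), (w : G) ∈ W₁ ∨ (w : G) ∈ W₂ → β w = 0) :
    classInner (indFun (W₁ ⊔ W₂) α) (indFun (W₁ ⊔ W₂) β) = classInner α β := by
  rw [frobenius_reciprocity _ α _ (indFun_isClassFunction _ _), classInner_def, classInner_def]
  congr 1
  refine Finset.sum_congr rfl fun w _ => ?_
  by_cases h : (w : G) ∈ W₁ ∨ (w : G) ∈ W₂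
  · rw [hα w h, zero_mul, zero_mul]
  · push Not at h
    rw [indFun_cyc_val hW hβ w h.1 h.2]

end Ind

section Pair

variable {G : Type u} [Group G] [Finite G] {W₁ W₂ : Subgroup G}

theorem hom_ne_facts (hc' : ∀ a ∈ W₁, ∀ b ∈ W₂, a * b = b * a) {φ ψ φ' ψ' : ↥(W₁ ⊔ W₂) →* ℂˣ}
    (hφ1 : φ ≠ 1) (hψ1 : ψ ≠ 1)
    (hφ : ∀ w : ↥(W₁ ⊔ W₂), (w : G) ∈ W₂ → φ w = 1) (hψ : ∀ w : ↥(W₁ ⊔ W₂), (w : G) ∈ W₁ → ψ w = 1)
    (hφ' : ∀ w : ↥(W₁ ⊔ W₂), (w : G) ∈ W₂ → φ' w = 1) (hψ' : ∀ w : ↥(W₁ ⊔ W₂), (w : G) ∈ W₁ → ψ' w = 1) :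
    ψ ≠ φ' ∧ φ ≠ ψ' ∧ φ * ψ ≠ φ' ∧ φ * ψ ≠ ψ' := by
  refine ⟨?_, ?_, ?_, ?_⟩
  · rintro rfl
    exact hψ1 (hom_ext_sup hc' (fun w hw => by simpa using hψ w hw) (fun w hw => by simpa using hφ' w hw))
  · rintro rfl
    exact hφ1 (hom_ext_sup hc' (fun w hw => by simpa using hψ' w hw) (fun w hw => by simpa using hφ w hw))
  · intro h
    apply hψ1
    refine hom_ext_sup hc' (fun w hw => by simpa using hψ w hw) (fun w hw => ?_)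
    have := DFunLike.congr_fun h w
    simpa [hφ w hw, hφ' w hw] using this
  · intro h
    apply hφ1
    refine hom_ext_sup hc' (fun w hw => ?_) (fun w hw => by simpa using hφ w hw)
    have := DFunLike.congr_fun h w
    simpa [hψ w hw, hψ' w hw] using this

open Classical in
/-- The inner product of the functions `(1-φ)(1-ψ)`. -/
theorem classInner_pairFun_pairFun [Fintype ↥(W₁ ⊔ W₂)] (hc' : ∀ a ∈ W₁, ∀ b ∈ W₂, a * b = b * a)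
    {φ ψ φ' ψ' : ↥(W₁ ⊔ W₂) →* ℂˣ} (hφ1 : φ ≠ 1) (hψ1 : ψ ≠ 1) (hφ'1 : φ' ≠ 1) (hψ'1 : ψ' ≠ 1)
    (hφ : ∀ w : ↥(W₁ ⊔ W₂), (w : G) ∈ W₂ → φ w = 1) (hψ : ∀ w : ↥(W₁ ⊔ W₂), (w : G) ∈ W₁ → ψ w = 1)
    (hφ' : ∀ w : ↥(W₁ ⊔ W₂), (w : G) ∈ W₂ → φ' w = 1) (hψ' : ∀ w : ↥(W₁ ⊔ W₂), (w : G) ∈ W₁ → ψ' w = 1) :
    classInner (pairFun φ ψ) (pairFun φ' ψ') = 1 + (if φ = φ' then 1 else 0) +
      (if ψ = ψ' then 1 else 0) + (if φ = φ' then 1 else 0) * (if ψ = ψ' then 1 else 0) := by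
  obtain ⟨h1, h2, h3, h4⟩ := hom_mul_facts hc' hφ'1 hψ'1 hφ' hψ' hφ hψ
  obtain ⟨h5, h6, h7, h8⟩ := hom_ne_facts hc' hφ1 hψ1 hφ hψ hφ' hψ'
  have h9 : φ * ψ ≠ 1 := (hom_mul_facts hc' hφ1 hψ1 hφ hψ hφ hψ).1.symm
  conv_lhs => rw [pairFun_eq φ' ψ']
  rw [classInner_add_right, classInner_sub_right, classInner_sub_right, classInner_pairFun_hc,
    classInner_pairFun_hc, classInner_pairFun_hc, classInner_pairFun_hc]
  rw [if_pos rfl, if_neg hφ1, if_neg hψ1, if_neg h9, if_neg hφ'1.symm, if_neg h5, if_neg h7,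
    if_neg hψ'1.symm, if_neg h6, if_neg h8, if_neg h1, if_neg h2, if_neg h3]
  by_cases e1 : φ = φ' <;> by_cases e2 : ψ = ψ' <;> simp [e1, e2, h4]

end Pair

end Cfsg.Agent.Lib.OddChar
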