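import Mathlib

/-!
# A combinatorial lemma on additive functions on a grid.
-/

set_option autoImplicit false

namespace Cfsg.Agent.Lib.OddChar

universe u v

variable {I : Type u} {J : Type v} [Fintype I] [Fintype J] [DecidableEq I] [DecidableEq J]

/-- An additive function on a grid with few nonzero entries is trivial, or concentrated on a
line. -/
theorem grid_lemma (a : I → J → ℂ)
    (hadd : ∀ i i' j j', a i j + a i' j' = a i j' + a i' j)
    (hmn : Fintype.card I + 2 ≤ Fintype.card J)
    (hfew : (Finset.univ.filter fun p : I × J => a p.1 p.2 ≠ 0).card < 2 * Fintype.card I) :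
    (∀ i j, a i j = 0) ∨ (∃ j₀ c, ∀ i j, a i j = if j = j₀ then c else 0) ∨
      (∃ i₀ c, ∀ i j, a i j = if i = i₀ then c else 0) := by
  classical
  set r : I → ℕ := fun i => (Finset.univ.filter fun j => a i j ≠ 0).card with hr
  have htotal : (Finset.univ.filter fun p : I × J => a p.1 p.2 ≠ 0).card = ∑ i, r i := by
    rw [Finset.card_filter, Fintype.sum_prod_type]
    refine Finset.sum_congr rfl fun i _ => ?_
    rw [hr]
    simp only
    rw [Finset.card_filter]
  rw [htotal] at hfew
  have hr2 : ∀ i, a i = 0 → r i = 0 := by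
    intro i hi
    simp [hr, hi]
  obtain ⟨i₁, hi₁⟩ : ∃ i₁, r i₁ ≤ 1 := by
    by_contra hcon
    push Not at hcon
    have h1 : ∑ _i : I, 2 ≤ ∑ i, r i := Finset.sum_le_sum fun i _ => hcon i
    simp only [Finset.sum_const, Finset.card_univ, smul_eq_mul] at h1
    omega
  have hJne : (Finset.univ : Finset J).Nonempty := by
    rw [← Finset.card_pos, Finset.card_univ]
    omega
  obtain ⟨j₁, -⟩ := hJne
  have hcase : r i₁ = 0 ∨ r i₁ = 1 := by omega
  rcases hcase with h0 | h1
  · -- a zero row
    have hz : ∀ j, a i₁ j = 0 := by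
      intro j
      by_contra hne
      have : j ∈ Finset.univ.filter fun j => a i₁ j ≠ 0 := by simp [hne]
      rw [Finset.card_eq_zero.mp h0] at this
      simp at this
    have hconst : ∀ i j j', a i j = a i j' := by
      intro i j j'
      have := hadd i i₁ j j'
      rwa [hz, hz, add_zero, add_zero] at this
    have hrfull : ∀ i, a i j₁ ≠ 0 → r i = Fintype.card J := by
      intro i hi
      simp only [hr]
      rw [Finset.filter_true_of_mem, Finset.card_univ]
      intro j _
      rw [hconst i j j₁]
      exact hi
    by_cases hall : ∀ i, a i j₁ = 0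
    · left
      intro i j
      rw [hconst i j j₁, hall]
    · push Not at hall
      obtain ⟨i₀, hi₀⟩ := hall
      right; right
      refine ⟨i₀, a i₀ j₁, fun i j => ?_⟩
      split_ifs with he
      · rw [he, hconst i₀ j j₁]
      · rw [hconst i j j₁]
        by_contra hne
        have h2 := Finset.add_le_sum (s := Finset.univ) (f := r) (fun i _ => Nat.zero_le _)
          (Finset.mem_univ i) (Finset.mem_univ i₀) he
        rw [hrfull i hne, hrfull i₀ hi₀] at h2
        omega
  · -- a row with one nonzero entry
    obtain ⟨j₀, hj₀⟩ := Finset.card_eq_one.mp h1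
    have hmem : ∀ j, a i₁ j ≠ 0 ↔ j = j₀ := by
      intro j
      have : j ∈ (Finset.univ.filter fun j => a i₁ j ≠ 0) ↔ j ∈ ({j₀} : Finset J) := by rw [hj₀]
      simpa using this
    have hc : a i₁ j₀ ≠ 0 := (hmem j₀).mpr rfl
    have hz : ∀ j, j ≠ j₀ → a i₁ j = 0 := by
      intro j hj
      by_contra hne
      exact hj ((hmem j).mp hne)
    have hstep : ∀ i j, j ≠ j₀ → a i j₀ = a i j + a i₁ j₀ := by
      intro i j hj
      have := hadd i i₁ j₀ j
      rwa [hz j hj, add_zero] at this
    have hconst : ∀ i j j', j ≠ j₀ → j' ≠ j₀ → a i j = a i j' := by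
      intro i j j' hj hj'
      have := hadd i i₁ j j'
      rwa [hz j hj, hz j' hj', add_zero, add_zero] at this
    have hkey : ∀ i j, j ≠ j₀ → a i j = 0 := by
      intro i₂ j₂ hj₂
      by_contra hne
      -- count
      have hrow : Fintype.card J - 1 ≤ r i₂ := by
        have hsub : (Finset.univ.erase j₀) ⊆ (Finset.univ.filter fun j => a i₂ j ≠ 0) := by
          intro j hj
          have hj' : j ≠ j₀ := Finset.ne_of_mem_erase hj
          simp only [Finset.mem_filter, Finset.mem_univ, true_and]
          rw [hconst i₂ j j₂ hj' hj₂]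
          exact hne
        have := Finset.card_le_card hsub
        rw [Finset.card_erase_of_mem (Finset.mem_univ _), Finset.card_univ] at this
        exact this
      have hother : ∀ i, 1 ≤ r i := by
        intro i
        refine Finset.card_pos.mpr ?_
        by_cases h3 : a i j₂ = 0
        · refine ⟨j₀, ?_⟩
          simp only [Finset.mem_filter, Finset.mem_univ, true_and]
          rw [hstep i j₂ hj₂, h3, zero_add]
          exact hc
        · exact ⟨j₂, by simp [h3]⟩
      have hsum : r i₂ + ∑ i ∈ Finset.univ.erase i₂, r i = ∑ i, r i :=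
        Finset.add_sum_erase _ _ (Finset.mem_univ i₂)
      have hrest : ∑ _i ∈ Finset.univ.erase i₂, 1 ≤ ∑ i ∈ Finset.univ.erase i₂, r i :=
        Finset.sum_le_sum fun i _ => hother i
      simp only [Finset.sum_const, smul_eq_mul, mul_one] at hrest
      rw [Finset.card_erase_of_mem (Finset.mem_univ _), Finset.card_univ] at hrest
      have hIpos : 0 < Fintype.card I := Fintype.card_pos_iff.mpr ⟨i₂⟩
      omega
    right; left
    refine ⟨j₀, a i₁ j₀, fun i j => ?_⟩
    split_ifs with he
    · rw [he]
      by_cases hJ : ∃ j' : J, j' ≠ j₀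
      · obtain ⟨j', hj'⟩ := hJ
        rw [hstep i j' hj', hkey i j' hj', zero_add]
      · push Not at hJ
        have : Fintype.card J ≤ 1 := Fintype.card_le_one_iff.mpr fun x y => by
          rw [hJ x, hJ y]
        omega
    · exact hkey i j he

end Cfsg.Agent.Lib.OddChar
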