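import Mathlib
import Cfsg.Agent.Lib.OddChar.CyclicW3
import Cfsg.Agent.Lib.OddChar.Grid
import Cfsg.Agent.Lib.PGroup.ProductSet

/-!
# The grid of linear characters of `W₁ × W₂`.
-/

set_option autoImplicit false

open scoped ComplexConjugate Pointwise

namespace Cfsg.Agent.Lib.OddChar

open Cfsg (classInner IsCharacter IsIrrCharacter IsClassFunction extendByZero indFun
  IsSelfNormalizingCyclic IsCyclicTIFamily)
open Cfsg.Agent.Lib.Char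

universe u

section Dual

variable {Γ : Type u} [Group Γ] [Finite Γ]

/-- Row orthogonality. -/
theorem sum_hom_eq_zero [Fintype Γ] {φ : Γ →* ℂˣ} (hφ : φ ≠ 1) : ∑ x, ((φ x : ℂˣ) : ℂ) = 0 := by
  obtain ⟨x₀, hx₀⟩ : ∃ x₀, φ x₀ ≠ 1 := by
    by_contra hcon
    push Not at hcon
    exact hφ (MonoidHom.ext hcon)
  have h3 : ∑ x, ((φ x : ℂˣ) : ℂ) = ((φ x₀ : ℂˣ) : ℂ) * ∑ x, ((φ x : ℂˣ) : ℂ) := by
    rw [Finset.mul_sum]
    refine Fintype.sum_equiv (Equiv.mulLeft x₀⁻¹) _ _ fun x => ?_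
    simp
  have h4 : ((φ x₀ : ℂˣ) : ℂ) ≠ 1 := fun h => hx₀ (Units.ext h)
  have h5 : (1 - ((φ x₀ : ℂˣ) : ℂ)) * ∑ x, ((φ x : ℂˣ) : ℂ) = 0 := by
    linear_combination h3
  exact (mul_eq_zero.mp h5).resolve_left (sub_ne_zero.mpr (Ne.symm h4))

/-- The number of linear characters trivial on a subgroup. -/
theorem card_homsTrivial (hcomm : ∀ a b : Γ, a * b = b * a) (B : Subgroup Γ) :
    (homsTrivial B).card * Nat.card B = Nat.card Γ := by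
  classical
  letI : Fintype Γ := Fintype.ofFinite Γ
  have h1 : ∑ x : Γ, ∑ φ ∈ homsTrivial B, ((φ x : ℂˣ) : ℂ) =
      ((homsTrivial B).card : ℂ) * (Nat.card B : ℂ) := by
    have hterm : ∀ x : Γ, ∑ φ ∈ homsTrivial B, ((φ x : ℂˣ) : ℂ) =
        if x ∈ B then ((homsTrivial B).card : ℂ) else 0 := by
      intro x
      split_ifs with hx
      · exact sum_homsTrivial_of_mem B hx
      · exact sum_homsTrivial_of_not_mem hcomm B hx
    simp only [hterm]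
    rw [Finset.sum_ite, Finset.sum_const_zero, add_zero, Finset.sum_const, nsmul_eq_mul, mul_comm]
    congr 2
    exact (Nat.subtype_card _ (by simp)).symm
  have h2 : ∑ x : Γ, ∑ φ ∈ homsTrivial B, ((φ x : ℂˣ) : ℂ) = (Nat.card Γ : ℂ) := by
    rw [Finset.sum_comm, Finset.sum_eq_single (1 : Γ →* ℂˣ)]
    · simp [Nat.card_eq_fintype_card]
    · intro φ _ hne
      exact sum_hom_eq_zero hne
    · intro h
      exact absurd (one_mem_homsTrivial B) h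
  rw [h1] at h2
  exact_mod_cast h2

theorem mem_homsTrivial_bot (φ : Γ →* ℂˣ) : φ ∈ homsTrivial (⊥ : Subgroup Γ) := by
  rw [mem_homsTrivial]
  intro b hb
  rw [(Subgroup.mem_bot.mp hb), map_one]

end Dual

section Pair

variable {G : Type u} [Group G] [Finite G] {W₁ W₂ : Subgroup G}

theorem card_sup_of_comm (hc' : ∀ a ∈ W₁, ∀ b ∈ W₂, a * b = b * a) (hinf : W₁ ⊓ W₂ = ⊥) :
    Nat.card ↥(W₁ ⊔ W₂) = Nat.card W₁ * Nat.card W₂ := by
  have h1 := Cfsg.Agent.Lib.PGroup.card_coe_mul_coe_mul_card_inf W₁ W₂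
  rw [hinf] at h1
  simp only [Subgroup.card_bot, mul_one] at h1
  have h2 : ((W₁ : Set G) * (W₂ : Set G)) = ((W₁ ⊔ W₂ : Subgroup G) : Set G) := by
    ext x
    simp only [Set.mem_mul, SetLike.mem_coe]
    constructor
    · rintro ⟨a, ha, b, hb, rfl⟩
      exact Subgroup.mul_mem _ (Subgroup.mem_sup_left ha) (Subgroup.mem_sup_right hb)
    · intro hx
      obtain ⟨a, ha, b, hb, rfl⟩ := mem_sup_of_comm hc' hx
      exact ⟨a, ha, b, hb, rfl⟩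
  rw [h2] at h1
  exact h1

variable (W₁ W₂) in
/-- Linear characters of `W` trivial on `W₂`. -/
noncomputable def homsLeft : Finset (↥(W₁ ⊔ W₂) →* ℂˣ) := homsTrivial (W₂.subgroupOf (W₁ ⊔ W₂))

variable (W₁ W₂) in
/-- Linear characters of `W` trivial on `W₁`. -/
noncomputable def homsRight : Finset (↥(W₁ ⊔ W₂) →* ℂˣ) := homsTrivial (W₁.subgroupOf (W₁ ⊔ W₂))

theorem mem_homsLeft {φ : ↥(W₁ ⊔ W₂) →* ℂˣ} :
    φ ∈ homsLeft W₁ W₂ ↔ ∀ w : ↥(W₁ ⊔ W₂), (w : G) ∈ W₂ → φ w = 1 := by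
  rw [homsLeft, mem_homsTrivial]
  exact forall_congr' fun w => imp_congr_left Subgroup.mem_subgroupOf

theorem mem_homsRight {φ : ↥(W₁ ⊔ W₂) →* ℂˣ} :
    φ ∈ homsRight W₁ W₂ ↔ ∀ w : ↥(W₁ ⊔ W₂), (w : G) ∈ W₁ → φ w = 1 := by
  rw [homsRight, mem_homsTrivial]
  exact forall_congr' fun w => imp_congr_left Subgroup.mem_subgroupOf

theorem card_homsLeft (hc' : ∀ a ∈ W₁, ∀ b ∈ W₂, a * b = b * a)
    (hcomm : ∀ a b : ↥(W₁ ⊔ W₂), a * b = b * a) (hinf : W₁ ⊓ W₂ = ⊥) :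
    (homsLeft W₁ W₂).card = Nat.card W₁ := by
  have h1 := card_homsTrivial hcomm (W₂.subgroupOf (W₁ ⊔ W₂))
  have h2 : Nat.card ↥(W₂.subgroupOf (W₁ ⊔ W₂)) = Nat.card W₂ :=
    Nat.card_congr (Subgroup.subgroupOfEquivOfLe le_sup_right).toEquiv
  rw [h2, card_sup_of_comm hc' hinf] at h1
  exact Nat.eq_of_mul_eq_mul_right Nat.card_pos h1

theorem card_homsRight (hc' : ∀ a ∈ W₁, ∀ b ∈ W₂, a * b = b * a)
    (hcomm : ∀ a b : ↥(W₁ ⊔ W₂), a * b = b * a) (hinf : W₁ ⊓ W₂ = ⊥) :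
    (homsRight W₁ W₂).card = Nat.card W₂ := by
  have h1 := card_homsTrivial hcomm (W₁.subgroupOf (W₁ ⊔ W₂))
  have h2 : Nat.card ↥(W₁.subgroupOf (W₁ ⊔ W₂)) = Nat.card W₁ :=
    Nat.card_congr (Subgroup.subgroupOfEquivOfLe le_sup_left).toEquiv
  rw [h2, card_sup_of_comm hc' hinf, mul_comm] at h1
  exact Nat.eq_of_mul_eq_mul_left Nat.card_pos h1

/-- The factorisation is injective. -/
theorem factor_injective (hc' : ∀ a ∈ W₁, ∀ b ∈ W₂, a * b = b * a)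
    {φ φ' ψ ψ' : ↥(W₁ ⊔ W₂) →* ℂˣ} (hφ : φ ∈ homsLeft W₁ W₂) (hφ' : φ' ∈ homsLeft W₁ W₂)
    (hψ : ψ ∈ homsRight W₁ W₂) (hψ' : ψ' ∈ homsRight W₁ W₂) (h : φ * ψ = φ' * ψ') :
    φ = φ' ∧ ψ = ψ' := by
  rw [mem_homsLeft] at hφ hφ'
  rw [mem_homsRight] at hψ hψ'
  constructor
  · refine hom_ext_sup hc' (fun w hw => ?_) (fun w hw => ?_)
    · have := DFunLike.congr_fun h w
      simpa [hψ w hw, hψ' w hw] using this
    · rw [hφ w hw, hφ' w hw]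
  · refine hom_ext_sup hc' (fun w hw => ?_) (fun w hw => ?_)
    · rw [hψ w hw, hψ' w hw]
    · have := DFunLike.congr_fun h w
      simpa [hφ w hw, hφ' w hw] using this

/-- Every linear character of `W` factorises. -/
theorem exists_factor (hc' : ∀ a ∈ W₁, ∀ b ∈ W₂, a * b = b * a)
    (hcomm : ∀ a b : ↥(W₁ ⊔ W₂), a * b = b * a) (hinf : W₁ ⊓ W₂ = ⊥) (ω : ↥(W₁ ⊔ W₂) →* ℂˣ) :
    ∃ φ ∈ homsLeft W₁ W₂, ∃ ψ ∈ homsRight W₁ W₂, ω = φ * ψ := by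
  classical
  letI : Fintype (↥(W₁ ⊔ W₂) →* ℂˣ) := Fintype.ofFinite _
  set P := (homsLeft W₁ W₂) ×ˢ (homsRight W₁ W₂) with hP
  have hinj : Set.InjOn (fun p : (↥(W₁ ⊔ W₂) →* ℂˣ) × (↥(W₁ ⊔ W₂) →* ℂˣ) => p.1 * p.2) (P : Set _) := by
    rintro ⟨φ, ψ⟩ hp ⟨φ', ψ'⟩ hp' h
    simp only [hP, Finset.coe_product, Set.mem_prod, Finset.mem_coe] at hp hp'
    obtain ⟨h1, h2⟩ := factor_injective hc' hp.1 hp'.1 hp.2 hp'.2 h
    rw [h1, h2]
  have hcardP : (P.image fun p => p.1 * p.2).card = Nat.card ↥(W₁ ⊔ W₂) := by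
    rw [Finset.card_image_of_injOn hinj, hP, Finset.card_product, card_homsLeft hc' hcomm hinf,
      card_homsRight hc' hcomm hinf, card_sup_of_comm hc' hinf]
  have hall : (homsTrivial (⊥ : Subgroup ↥(W₁ ⊔ W₂))).card = Nat.card ↥(W₁ ⊔ W₂) := by
    have := card_homsTrivial hcomm (⊥ : Subgroup ↥(W₁ ⊔ W₂))
    simpa using this
  have hsub : (P.image fun p => p.1 * p.2) ⊆ homsTrivial (⊥ : Subgroup ↥(W₁ ⊔ W₂)) :=
    fun f _ => mem_homsTrivial_bot f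
  have heq := Finset.eq_of_subset_of_card_le hsub (by rw [hcardP, hall])
  have hω := mem_homsTrivial_bot ω
  rw [← heq] at hω
  obtain ⟨⟨φ, ψ⟩, hp, he⟩ := Finset.mem_image.mp hω
  simp only [hP, Finset.mem_product] at hp
  exact ⟨φ, hp.1, ψ, hp.2, he.symm⟩

end Pair

end Cfsg.Agent.Lib.OddChar
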