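import Mathlib
import Cfsg.Agent.Lib.OddChar.CyclicW4
import Cfsg.Agent.Lib.OddChar.PM
import Cfsg.Agent.Lib.Degree.GaloisChar
import Cfsg.Agent.Lib.Char.Galois

/-!
# Uniqueness of the family of characters of a cyclic TI set, and rationality.
-/

set_option autoImplicit false

open scoped ComplexConjugate Pointwise

namespace Cfsg.Agent.Lib.OddChar

open Cfsg (classInner IsCharacter IsIrrCharacter IsClassFunction extendByZero indFun
  IsSelfNormalizingCyclic IsCyclicTIFamily)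
open Cfsg.Agent.Lib.Char

universe u

variable {G : Type u} [Group G] [Fintype G]

/-- Induction and powers: a general form. -/
theorem indFun_pow_general (E : Subgroup G) (θ : E → ℂ) {k : ℕ} (hk : k.Coprime (Nat.card G))
    (g : G) :
    indFun E θ (g ^ k) = indFun E (fun e => θ (e ^ k)) g := by
  classical
  unfold indFun
  congr 1
  refine Finset.sum_congr rfl fun x _ => ?_
  have hconj : x⁻¹ * g ^ k * x = (x⁻¹ * g * x) ^ k := by
    have := conj_pow (a := x⁻¹) (b := g) (i := k)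
    simpa using this.symm
  rw [hconj]
  by_cases hy : x⁻¹ * g * x ∈ E
  · have hy' : (x⁻¹ * g * x) ^ k ∈ E := E.pow_mem hy k
    rw [Cfsg.Agent.Lib.Degree.extendByZero_eq_of_mem E _ hy',
      Cfsg.Agent.Lib.Degree.extendByZero_eq_of_mem E _ hy]
    rfl
  · have hy' : (x⁻¹ * g * x) ^ k ∉ E := fun h =>
      hy (Cfsg.Agent.Lib.Degree.mem_of_pow_mem_of_coprime E hk h)
    rw [Cfsg.Agent.Lib.Degree.extendByZero_eq_of_notMem E _ hy',
      Cfsg.Agent.Lib.Degree.extendByZero_eq_of_notMem E _ hy]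

/-- Cancelling in two triples. -/
theorem tri_eq {X : Type u} [Group X] [Fintype X] {a b c a' b' c' b₂ c₂ b₂' c₂' : X → ℂ}
    (ha : PM X a) (hb : PM X b) (hc : PM X c)
    (ha' : PM X a') (hb' : PM X b') (hc' : PM X c')
    (hb₂ : PM X b₂) (hc₂ : PM X c₂) (hb₂' : PM X b₂') (hc₂' : PM X c₂')
    (h1 : classInner a b = 0) (h2 : classInner a c = 0) (h3 : classInner b c = 0)
    (h1' : classInner a' b' = 0) (h2' : classInner a' c' = 0) (h3' : classInner b' c' = 0)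
    (h4 : classInner a b₂ = 0) (h5 : classInner a c₂ = 0) (h6 : classInner b₂ c₂ = 0)
    (h4' : classInner a' b₂' = 0) (h5' : classInner a' c₂' = 0) (h6' : classInner b₂' c₂' = 0)
    (hs : a + b + c = a' + b' + c') (hs₂ : a + b₂ + c₂ = a' + b₂' + c₂')
    (hn1 : b' ≠ b₂') (hn2 : b' ≠ c₂') (hn3 : c' ≠ b₂') (hn4 : c' ≠ c₂') : a = a' := by
  have key : ∀ {y z : X → ℂ}, classInner a y = 0 → classInner a z = 0 →
      classInner (a + y + z) a = 1 := by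
    intro y z hy hz
    rw [classInner_add_left, classInner_add_left, ha.self]
    have h7 : classInner y a = 0 := by rw [← conj_classInner, hy, map_zero]
    have h8 : classInner z a = 0 := by rw [← conj_classInner, hz, map_zero]
    rw [h7, h8]
    ring
  have k1 : classInner (a' + b' + c') a = 1 := by
    rw [← hs]
    exact key h1 h2
  have k2 : classInner (a' + b₂' + c₂') a = 1 := by
    rw [← hs₂]
    exact key h4 h5
  rcases eq_of_inner_sum_one ha ha' hb' hc' h1' h2' h3' k1 with h | h | h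
  · exact h
  · rcases eq_of_inner_sum_one ha ha' hb₂' hc₂' h4' h5' h6' k2 with h' | h' | h'
    · exact h'
    · exact absurd (h.symm.trans h') hn1
    · exact absurd (h.symm.trans h') hn2
  · rcases eq_of_inner_sum_one ha ha' hb₂' hc₂' h4' h5' h6' k2 with h' | h' | h'
    · exact h'
    · exact absurd (h.symm.trans h') hn3
    · exact absurd (h.symm.trans h') hn4

section Family

variable {W₁ W₂ : Subgroup G}

/-- Nontrivial characters: odd order gives at least two. -/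
theorem exists_two_nontrivial {s : Finset (↥(W₁ ⊔ W₂) →* ℂˣ)} (h1 : (1 : ↥(W₁ ⊔ W₂) →* ℂˣ) ∈ s)
    (h3 : 3 ≤ s.card) (f : ↥(W₁ ⊔ W₂) →* ℂˣ) :
    ∃ ψ ∈ s, ψ ≠ 1 ∧ ψ ≠ f := by
  classical
  have h4 : ((s.erase 1).erase f).card ≥ 1 := by
    have h5 := Finset.pred_card_le_card_erase (s := s.erase 1) (a := f)
    have h6 := Finset.card_erase_of_mem h1
    omega
  obtain ⟨ψ, hψ⟩ := Finset.card_pos.mp h4
  simp only [Finset.mem_erase] at hψ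
  exact ⟨ψ, hψ.2.2, hψ.2.1, hψ.1⟩

/-- Distinct members of an orthonormal family are different, also up to sign. -/
theorem family_ne_of_ne {χ : (↥(W₁ ⊔ W₂) →* ℂˣ) → (G → ℂ)} (hχ : IsCyclicTIFamily W₁ W₂ χ)
    {ω ω' : ↥(W₁ ⊔ W₂) →* ℂˣ} (h : ω ≠ ω') : χ ω ≠ χ ω' ∧ χ ω ≠ - χ ω' := by
  have h1 := hχ.orthonormal ω ω'
  rw [if_neg h] at h1
  have h2 := hχ.orthonormal ω ω
  rw [if_pos rfl] at h2
  constructor
  · intro h3
    rw [← h3, h2] at h1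
    exact one_ne_zero h1
  · intro h3
    have h4 : χ ω' = - χ ω := by rw [h3, neg_neg]
    rw [h4, classInner_neg_right, h2] at h1
    norm_num at h1

theorem family_orth {χ : (↥(W₁ ⊔ W₂) →* ℂˣ) → (G → ℂ)} (hχ : IsCyclicTIFamily W₁ W₂ χ)
    {ω ω' : ↥(W₁ ⊔ W₂) →* ℂˣ} (h : ω ≠ ω') : classInner (χ ω) (χ ω') = 0 := by
  have h1 := hχ.orthonormal ω ω'
  rwa [if_neg h] at h1

/-- The induction identity in additive form. -/
theorem family_induced_add {χ χ' : (↥(W₁ ⊔ W₂) →* ℂˣ) → (G → ℂ)} (hχ : IsCyclicTIFamily W₁ W₂ χ)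
    (hχ' : IsCyclicTIFamily W₁ W₂ χ') {φ ψ : ↥(W₁ ⊔ W₂) →* ℂˣ} (hφ1 : φ ≠ 1) (hψ1 : ψ ≠ 1)
    (hφ : ∀ w : ↥(W₁ ⊔ W₂), (w : G) ∈ W₂ → φ w = 1)
    (hψ : ∀ w : ↥(W₁ ⊔ W₂), (w : G) ∈ W₁ → ψ w = 1) :
    - χ φ + - χ ψ + χ (φ * ψ) = - χ' φ + - χ' ψ + χ' (φ * ψ) := by
  have h1 := hχ.induced_eq φ ψ hφ1 hψ1 hφ hψ
  have h2 := hχ'.induced_eq φ ψ hφ1 hψ1 hφ hψ
  ext g
  have h3 := congrFun (h1.symm.trans h2) g
  simp only [Pi.add_apply, Pi.neg_apply]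
  linear_combination h3

/-- Uniqueness of the family. -/
theorem family_unique (hW : IsSelfNormalizingCyclic W₁ W₂) (hodd : Odd (Nat.card ↥(W₁ ⊔ W₂)))
    {χ χ' : (↥(W₁ ⊔ W₂) →* ℂˣ) → (G → ℂ)} (hχ : IsCyclicTIFamily W₁ W₂ χ)
    (hχ' : IsCyclicTIFamily W₁ W₂ χ') : χ = χ' := by
  classical
  obtain ⟨hW1, hW2, hinf, hc', hcyc, -⟩ := id hW
  have hcomm : ∀ a b : ↥(W₁ ⊔ W₂), a * b = b * a := fun a b => by
    letI := IsCyclic.commGroup (α := ↥(W₁ ⊔ W₂))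
    exact mul_comm a b
  have hoddW : Odd (Nat.card W₁) ∧ Odd (Nat.card W₂) := by
    rw [card_sup_of_comm hc' hinf] at hodd
    exact Nat.odd_mul.mp hodd
  have hne1 : Nat.card W₁ ≠ 1 := fun h => hW1 (Subgroup.eq_bot_of_card_eq _ h)
  have hne2 : Nat.card W₂ ≠ 1 := fun h => hW2 (Subgroup.eq_bot_of_card_eq _ h)
  have h3L : 3 ≤ (homsLeft W₁ W₂).card := by
    rw [card_homsLeft hc' hcomm hinf]
    obtain ⟨⟨u, hu⟩, -⟩ := hoddW
    omega
  have h3R : 3 ≤ (homsRight W₁ W₂).card := by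
    rw [card_homsRight hc' hcomm hinf]
    obtain ⟨-, ⟨u, hu⟩⟩ := hoddW
    omega
  have h1L : (1 : ↥(W₁ ⊔ W₂) →* ℂˣ) ∈ homsLeft W₁ W₂ := mem_homsLeft.mpr fun w _ => rfl
  have h1R : (1 : ↥(W₁ ⊔ W₂) →* ℂˣ) ∈ homsRight W₁ W₂ := mem_homsRight.mpr fun w _ => rfl
  -- general facts about factorisations
  have hPM : ∀ {f : (↥(W₁ ⊔ W₂) →* ℂˣ) → (G → ℂ)}, IsCyclicTIFamily W₁ W₂ f → ∀ ω, PM G (f ω) :=
    fun hf ω => hf.irr_or_neg ω
  have hneφ : ∀ {φ ψ : ↥(W₁ ⊔ W₂) →* ℂˣ}, φ ∈ homsLeft W₁ W₂ → ψ ∈ homsRight W₁ W₂ → ψ ≠ 1 →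
      φ ≠ φ * ψ := by
    intro φ ψ hφ hψ hψ1 h
    have h4 : φ * 1 = φ * ψ := by
      have h5 : φ * (1 : ↥(W₁ ⊔ W₂) →* ℂˣ) = φ := by
        ext v
        simp
      rw [h5]
      exact h
    exact hψ1 (factor_injective hc' hφ hφ h1R hψ h4).2.symm
  have hneψ : ∀ {φ ψ : ↥(W₁ ⊔ W₂) →* ℂˣ}, φ ∈ homsLeft W₁ W₂ → ψ ∈ homsRight W₁ W₂ → φ ≠ 1 →
      ψ ≠ φ * ψ := by
    intro φ ψ hφ hψ hφ1 h
    have h4 : 1 * ψ = φ * ψ := by
      have h5 : (1 : ↥(W₁ ⊔ W₂) →* ℂˣ) * ψ = ψ := by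
        ext v
        simp
      rw [h5]
      exact h
    exact hφ1 (factor_injective hc' h1L hφ hψ hψ h4).1.symm
  have hneφψ : ∀ {φ ψ : ↥(W₁ ⊔ W₂) →* ℂˣ}, φ ∈ homsLeft W₁ W₂ → ψ ∈ homsRight W₁ W₂ → φ ≠ 1 →
      φ ≠ ψ := by
    intro φ ψ hφ hψ hφ1 h
    have h4 : φ * 1 = 1 * ψ := by
      have h5 : (1 : ↥(W₁ ⊔ W₂) →* ℂˣ) * ψ = ψ := by
        ext v
        simp
      have h6 : φ * (1 : ↥(W₁ ⊔ W₂) →* ℂˣ) = φ := by
        ext v
        simp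
      rw [h5, h6]
      exact h
    exact hφ1 (factor_injective hc' hφ h1L h1R hψ h4).1
  -- the family is orthogonal on a triple
  have htri : ∀ {f : (↥(W₁ ⊔ W₂) →* ℂˣ) → (G → ℂ)}, IsCyclicTIFamily W₁ W₂ f →
      ∀ {φ ψ : ↥(W₁ ⊔ W₂) →* ℂˣ}, φ ∈ homsLeft W₁ W₂ → ψ ∈ homsRight W₁ W₂ → φ ≠ 1 → ψ ≠ 1 →
      classInner (- f φ) (- f ψ) = 0 ∧ classInner (- f φ) (f (φ * ψ)) = 0 ∧
      classInner (- f ψ) (f (φ * ψ)) = 0 ∧ classInner (- f ψ) (- f φ) = 0 := by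
    intro f hf φ ψ hφ hψ hφ1 hψ1
    have h1 := family_orth hf (hneφψ hφ hψ hφ1)
    have h2 := family_orth hf (hneφ hφ hψ hψ1)
    have h3 := family_orth hf (hneψ hφ hψ hφ1)
    have h4 := family_orth hf (hneφψ hφ hψ hφ1).symm
    refine ⟨?_, ?_, ?_, ?_⟩
    · rw [classInner_neg_left, classInner_neg_right, h1]; simp
    · rw [classInner_neg_left, h2]; simp
    · rw [classInner_neg_left, h3]; simp
    · rw [classInner_neg_left, classInner_neg_right, h4]; simp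
  have keyL : ∀ φ ∈ homsLeft W₁ W₂, φ ≠ 1 → χ φ = χ' φ := by
    intro φ hφ hφ1
    obtain ⟨ψ, hψ, hψ1, -⟩ := exists_two_nontrivial h1R h3R 1
    obtain ⟨ψ₂, hψ₂, hψ₂1, hψ₂ne⟩ := exists_two_nontrivial h1R h3R ψ
    obtain ⟨a1, a2, a3, -⟩ := htri hχ hφ hψ hφ1 hψ1
    obtain ⟨b1, b2, b3, -⟩ := htri hχ' hφ hψ hφ1 hψ1
    obtain ⟨c1, c2, c3, -⟩ := htri hχ hφ hψ₂ hφ1 hψ₂1
    obtain ⟨d1, d2, d3, -⟩ := htri hχ' hφ hψ₂ hφ1 hψ₂1
    have hs := family_induced_add hχ hχ' hφ1 hψ1 (mem_homsLeft.mp hφ) (mem_homsRight.mp hψ)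
    have hs₂ := family_induced_add hχ hχ' hφ1 hψ₂1 (mem_homsLeft.mp hφ) (mem_homsRight.mp hψ₂)
    have := tri_eq (hPM hχ φ).neg (hPM hχ ψ).neg (hPM hχ (φ * ψ)) (hPM hχ' φ).neg (hPM hχ' ψ).neg
      (hPM hχ' (φ * ψ)) (hPM hχ ψ₂).neg (hPM hχ (φ * ψ₂)) (hPM hχ' ψ₂).neg (hPM hχ' (φ * ψ₂))
      a1 a2 a3 b1 b2 b3 c1 c2 c3 d1 d2 d3 hs hs₂ ?_ ?_ ?_ ?_
    · exact neg_injective this
    · intro h
      exact (family_ne_of_ne hχ' hψ₂ne.symm).1 (neg_injective h)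
    · intro h
      have h5 : ψ ≠ φ * ψ₂ := by
        intro h6
        have h7 : 1 * ψ = φ * ψ₂ := by
          have h5 : (1 : ↥(W₁ ⊔ W₂) →* ℂˣ) * ψ = ψ := by
            ext v
            simp
          rw [h5, h6]
        exact hφ1 (factor_injective hc' h1L hφ hψ hψ₂ h7).1.symm
      exact (family_ne_of_ne hχ' h5).2 (by rw [← h, neg_neg])
    · intro h
      have h5 : φ * ψ ≠ ψ₂ := by
        intro h6
        have h7 : φ * ψ = 1 * ψ₂ := by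
          have h5 : (1 : ↥(W₁ ⊔ W₂) →* ℂˣ) * ψ₂ = ψ₂ := by
            ext v
            simp
          rw [h5, h6]
        exact hφ1 (factor_injective hc' hφ h1L hψ hψ₂ h7).1
      exact (family_ne_of_ne hχ' h5).2 h
    · intro h
      have h5 : φ * ψ ≠ φ * ψ₂ := fun h6 =>
        hψ₂ne (factor_injective hc' hφ hφ hψ hψ₂ h6).2.symm
      exact (family_ne_of_ne hχ' h5).1 h
  have keyR : ∀ ψ ∈ homsRight W₁ W₂, ψ ≠ 1 → χ ψ = χ' ψ := by
    intro ψ hψ hψ1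
    obtain ⟨φ, hφ, hφ1, -⟩ := exists_two_nontrivial h1L h3L 1
    obtain ⟨φ₂, hφ₂, hφ₂1, hφ₂ne⟩ := exists_two_nontrivial h1L h3L φ
    obtain ⟨-, a2, a3, a1⟩ := htri hχ hφ hψ hφ1 hψ1
    obtain ⟨-, b2, b3, b1⟩ := htri hχ' hφ hψ hφ1 hψ1
    obtain ⟨-, c2, c3, c1⟩ := htri hχ hφ₂ hψ hφ₂1 hψ1
    obtain ⟨-, d2, d3, d1⟩ := htri hχ' hφ₂ hψ hφ₂1 hψ1
    have hs := family_induced_add hχ hχ' hφ1 hψ1 (mem_homsLeft.mp hφ) (mem_homsRight.mp hψ)
    have hs₂ := family_induced_add hχ hχ' hφ₂1 hψ1 (mem_homsLeft.mp hφ₂) (mem_homsRight.mp hψ)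
    have hs' : - χ ψ + - χ φ + χ (φ * ψ) = - χ' ψ + - χ' φ + χ' (φ * ψ) := by
      rw [add_comm (- χ ψ), add_comm (- χ' ψ)]
      exact hs
    have hs₂' : - χ ψ + - χ φ₂ + χ (φ₂ * ψ) = - χ' ψ + - χ' φ₂ + χ' (φ₂ * ψ) := by
      rw [add_comm (- χ ψ), add_comm (- χ' ψ)]
      exact hs₂
    have := tri_eq (hPM hχ ψ).neg (hPM hχ φ).neg (hPM hχ (φ * ψ)) (hPM hχ' ψ).neg (hPM hχ' φ).neg
      (hPM hχ' (φ * ψ)) (hPM hχ φ₂).neg (hPM hχ (φ₂ * ψ)) (hPM hχ' φ₂).neg (hPM hχ' (φ₂ * ψ))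
      a1 a3 a2 b1 b3 b2 c1 c3 c2 d1 d3 d2 hs' hs₂' ?_ ?_ ?_ ?_
    · exact neg_injective this
    · intro h
      exact (family_ne_of_ne hχ' hφ₂ne.symm).1 (neg_injective h)
    · intro h
      have h5 : φ ≠ φ₂ * ψ := by
        intro h6
        have h7 : φ * 1 = φ₂ * ψ := by
          have h5 : φ * (1 : ↥(W₁ ⊔ W₂) →* ℂˣ) = φ := by
            ext v
            simp
          rw [h5, h6]
        exact hψ1 (factor_injective hc' hφ hφ₂ h1R hψ h7).2.symm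
      exact (family_ne_of_ne hχ' h5).2 (by rw [← h, neg_neg])
    · intro h
      have h5 : φ * ψ ≠ φ₂ := by
        intro h6
        have h7 : φ * ψ = φ₂ * 1 := by
          have h5 : φ₂ * (1 : ↥(W₁ ⊔ W₂) →* ℂˣ) = φ₂ := by
            ext v
            simp
          rw [h5, h6]
        exact hψ1 (factor_injective hc' hφ hφ₂ hψ h1R h7).2
      exact (family_ne_of_ne hχ' h5).2 h
    · intro h
      have h5 : φ * ψ ≠ φ₂ * ψ := fun h6 =>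
        hφ₂ne (factor_injective hc' hφ hφ₂ hψ hψ h6).1.symm
      exact (family_ne_of_ne hχ' h5).1 h
  funext ω
  obtain ⟨φ, hφ, ψ, hψ, rfl⟩ := exists_factor hc' hcomm hinf ω
  by_cases hφ1 : φ = 1
  · subst hφ1
    have h5 : (1 : ↥(W₁ ⊔ W₂) →* ℂˣ) * ψ = ψ := by
      ext v
      simp
    rw [h5]
    by_cases hψ1 : ψ = 1
    · subst hψ1
      rw [hχ.map_one, hχ'.map_one]
    · exact keyR ψ hψ hψ1
  by_cases hψ1 : ψ = 1
  · subst hψ1
    have h5 : φ * (1 : ↥(W₁ ⊔ W₂) →* ℂˣ) = φ := by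
      ext v
      simp
    rw [h5]
    exact keyL φ hφ hφ1
  have hs := family_induced_add hχ hχ' hφ1 hψ1 (mem_homsLeft.mp hφ) (mem_homsRight.mp hψ)
  rw [keyL φ hφ hφ1, keyR ψ hψ hψ1] at hs
  exact add_left_cancel hs

/-- Galois twist of the family. -/
theorem family_galois {χ : (↥(W₁ ⊔ W₂) →* ℂˣ) → (G → ℂ)} (hχ : IsCyclicTIFamily W₁ W₂ χ)
    {k k' : ℕ} (hk : k.Coprime (Nat.card G)) (hkk' : k * k' ≡ 1 [MOD Nat.card G]) :
    IsCyclicTIFamily W₁ W₂ (fun ω g => χ (ω ^ k') (g ^ k)) := by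
  classical
  have hG : ∀ g : G, (g ^ k) ^ k' = g := by
    intro g
    rw [← pow_mul]
    have h1 : k * k' ≡ 1 [MOD orderOf g] := hkk'.of_dvd (orderOf_dvd_natCard g)
    calc g ^ (k * k') = g ^ 1 := (pow_eq_pow_iff_modEq).mpr h1
      _ = g := pow_one g
  have hW : ∀ w : ↥(W₁ ⊔ W₂), (w ^ k) ^ k' = w := by
    intro w
    apply Subtype.ext
    simp only [Subgroup.coe_pow]
    exact hG _
  have hWinv : ∀ (ω : ↥(W₁ ⊔ W₂) →* ℂˣ) (w : ↥(W₁ ⊔ W₂)), (ω ^ k') (w ^ k) = ω w := by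
    intro ω w
    rw [MonoidHom.pow_apply, ← map_pow, hW]
  have hinj : ∀ ω ω' : ↥(W₁ ⊔ W₂) →* ℂˣ, ω ^ k' = ω' ^ k' → ω = ω' := by
    intro ω ω' h
    ext w
    rw [← hWinv ω w, ← hWinv ω' w, h]
  have h1 : ∀ ω : ↥(W₁ ⊔ W₂) →* ℂˣ, ω ≠ 1 → ω ^ k' ≠ 1 := by
    intro ω hω h
    have h2 : (1 : ↥(W₁ ⊔ W₂) →* ℂˣ) ^ k' = 1 := by
      ext v
      simp
    exact hω (hinj ω 1 (by rw [h, h2]))
  refine ⟨?_, ?_, ?_, ?_, ?_⟩
  · intro ω
    rcases hχ.irr_or_neg (ω ^ k') with h | h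
    · exact Or.inl (Cfsg.Agent.Lib.Degree.galois_isIrr h hk)
    · exact Or.inr (Cfsg.Agent.Lib.Degree.galois_isIrr h hk)
  · intro ω ω'
    rw [Cfsg.Agent.Lib.Degree.classInner_galois (χ (ω ^ k')) (χ (ω' ^ k')) hk,
      hχ.orthonormal]
    by_cases h : ω = ω'
    · subst h
      simp
    · rw [if_neg h, if_neg (fun h2 => h (hinj _ _ h2))]
  · funext g
    have h2 : (1 : ↥(W₁ ⊔ W₂) →* ℂˣ) ^ k' = 1 := by
      ext v
      simp
    simp only [h2]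
    rw [hχ.map_one]
  · intro ω w hw₁ hw₂
    have h2 : ((w ^ k : ↥(W₁ ⊔ W₂)) : G) ∉ W₁ := fun h =>
      hw₁ (Cfsg.Agent.Lib.Degree.mem_of_pow_mem_of_coprime W₁ hk (by simpa using h))
    have h3 : ((w ^ k : ↥(W₁ ⊔ W₂)) : G) ∉ W₂ := fun h =>
      hw₂ (Cfsg.Agent.Lib.Degree.mem_of_pow_mem_of_coprime W₂ hk (by simpa using h))
    have h4 := hχ.eq_on (ω ^ k') (w ^ k) h2 h3
    rw [hWinv] at h4
    simpa using h4
  · intro φ ψ hφ1 hψ1 hφ hψ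
    funext g
    have h4 := congrFun (hχ.induced_eq (φ ^ k') (ψ ^ k') (h1 φ hφ1) (h1 ψ hψ1)
      (fun w hw => by rw [MonoidHom.pow_apply, hφ w hw, one_pow])
      (fun w hw => by rw [MonoidHom.pow_apply, hψ w hw, one_pow])) (g ^ k)
    rw [indFun_pow_general _ _ hk] at h4
    simp only [hWinv] at h4
    have h5 : (φ * ψ) ^ k' = φ ^ k' * ψ ^ k' := by
      ext v
      simp [mul_pow]
    rw [h4, h5]

/-- The values of the family and the Galois action. -/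
theorem family_pow (hW : IsSelfNormalizingCyclic W₁ W₂) (hodd : Odd (Nat.card ↥(W₁ ⊔ W₂)))
    {χ : (↥(W₁ ⊔ W₂) →* ℂˣ) → (G → ℂ)} (hχ : IsCyclicTIFamily W₁ W₂ χ)
    {k k' : ℕ} (hk : k.Coprime (Nat.card G)) (hkk' : k * k' ≡ 1 [MOD Nat.card G])
    (ω : ↥(W₁ ⊔ W₂) →* ℂˣ) (g : G) : χ (ω ^ k') (g ^ k) = χ ω g := by
  have := family_unique hW hodd (family_galois hχ hk hkk') hχ
  exact congrFun (congrFun this ω) g

/-- Existence of a multiplier. -/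
theorem exists_multiplier {a b n u : ℕ} (hn : n ≠ 0) (hab : a.Coprime b) (ha : a ∣ n) (hb : b ∣ n)
    (hu : u.Coprime b) :
    ∃ k k' : ℕ, k.Coprime n ∧ k * k' ≡ 1 [MOD n] ∧ k ≡ u [MOD b] ∧ k' ≡ 1 [MOD a] := by
  classical
  haveI : NeZero n := ⟨hn⟩
  let c := Nat.chineseRemainder hab 1 u
  have hc1 : (c : ℕ) ≡ 1 [MOD a] := c.2.1
  have hc2 : (c : ℕ) ≡ u [MOD b] := c.2.2
  have hcop : (c : ℕ).Coprime (a * b) := by
    apply Nat.Coprime.mul_right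
    · have := hc1.gcd_eq
      rw [Nat.Coprime, this]
      simp
    · have := hc2.gcd_eq
      rw [Nat.Coprime, this]
      exact hu
  have hdvd : a * b ∣ n := hab.mul_dvd_of_dvd_of_dvd ha hb
  let z : (ZMod (a * b))ˣ := ZMod.unitOfCoprime c hcop
  obtain ⟨y, hy⟩ := ZMod.unitsMap_surjective hdvd z
  have hk : y.val.val.Coprime n := by
    exact (ZMod.val_coe_unit_coprime y)
  have hval : y.val.val ≡ c [MOD a * b] := by
    have h1 : ((y.val.val : ℕ) : ZMod (a * b)) = (c : ℕ) := by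
      have h2 : ((ZMod.unitsMap hdvd y : (ZMod (a * b))ˣ) : ZMod (a * b)) = (c : ℕ) := by
        rw [hy]
        rfl
      have h3 : ((ZMod.unitsMap hdvd y : (ZMod (a * b))ˣ) : ZMod (a * b)) =
          ZMod.castHom hdvd (ZMod (a * b)) y.val := rfl
      rw [h3] at h2
      rw [← h2]
      simp
    exact (ZMod.natCast_eq_natCast_iff _ _ _).mp h1
  have hmod : y.val.val ≡ c [MOD a] ∧ y.val.val ≡ c [MOD b] :=
    ⟨hval.of_dvd (Dvd.intro _ rfl), hval.of_dvd (Dvd.intro_left _ rfl)⟩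
  let k := y.val.val
  let k' := (y⁻¹).val.val
  have hkk' : k * k' ≡ 1 [MOD n] := by
    apply (ZMod.natCast_eq_natCast_iff _ _ _).mp
    push_cast
    simp only [k, k', ZMod.natCast_val, ZMod.cast_id', id_eq]
    simp
  refine ⟨k, k', hk, hkk', hmod.2.trans hc2, ?_⟩
  have h1 : k * k' ≡ 1 [MOD a] := hkk'.of_dvd ha
  have h2 : k ≡ 1 [MOD a] := hmod.1.trans hc1
  have h3 : k * k' ≡ 1 * k' [MOD a] := h2.mul_right k'
  rw [one_mul] at h3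
  exact h3.symm.trans h1

/-- Values of `χ ω` at elements of order prime to that of `ω` are fixed by coprime powers. -/
theorem family_pow_self (hW : IsSelfNormalizingCyclic W₁ W₂) (hodd : Odd (Nat.card ↥(W₁ ⊔ W₂)))
    {χ : (↥(W₁ ⊔ W₂) →* ℂˣ) → (G → ℂ)} (hχ : IsCyclicTIFamily W₁ W₂ χ)
    (ω : ↥(W₁ ⊔ W₂) →* ℂˣ) (g : G) (hg : Nat.Coprime (orderOf g) (orderOf ω))
    {u : ℕ} (hu : u.Coprime (orderOf g)) : χ ω (g ^ u) = χ ω g := by
  classical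
  letI : Fintype ↥(W₁ ⊔ W₂) := Fintype.ofFinite _
  have hn : Nat.card G ≠ 0 := Nat.card_pos.ne'
  have hω : ω ^ Nat.card G = 1 := by
    ext w
    have h2 : (w : ↥(W₁ ⊔ W₂)) ^ Nat.card G = 1 := by
      apply Subtype.ext
      simp only [Subgroup.coe_pow, Subgroup.coe_one]
      exact pow_card_eq_one'
    rw [MonoidHom.pow_apply, ← map_pow, h2, map_one]
    rfl
  have hdω : orderOf ω ∣ Nat.card G := orderOf_dvd_of_pow_eq_one hω
  obtain ⟨k, k', hk, hkk', hku, hk'1⟩ := exists_multiplier hn hg.symm hdω (orderOf_dvd_natCard g) hu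
  have h1 : ω ^ k' = ω := by
    have h5 : k' % orderOf ω = 1 % orderOf ω := hk'1
    rw [← pow_mod_orderOf ω k', h5, pow_mod_orderOf, pow_one]
  have h2 : g ^ k = g ^ u := (pow_eq_pow_iff_modEq).mpr hku
  have h3 := family_pow hW hodd hχ hk hkk' ω g
  rw [h1, h2] at h3
  exact h3

end Family

end Cfsg.Agent.Lib.OddChar
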