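import Mathlib
import Cfsg.Agent.Lib.Char.Ops
import Cfsg.Agent.Lib.Char.Burnside
import Cfsg.Agent.Lib.Char.Constituent

/-!
# The prime above `p` in cyclotomic integers, and congruences of character values.
-/

set_option autoImplicit false

namespace Cfsg.Agent.Lib.OddChar

open Cfsg (IsCharacter IsIrrCharacter IrrCharacter IsGeneralizedCharacter)
open Cfsg.Agent.Lib.Char

universe u

/-- `1 - ζ` divides `1 - ζ ^ k` among the algebraic integers. -/
theorem one_sub_pow_eq_mul {ζ : ℂ} (hζ : IsIntegral ℤ ζ) (k : ℕ) :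
    ∃ u : ℂ, IsIntegral ℤ u ∧ 1 - ζ ^ k = (1 - ζ) * u := by
  refine ⟨∑ i ∈ Finset.range k, ζ ^ i, ?_, (mul_neg_geom_sum ζ k).symm⟩
  exact IsIntegral.sum _ fun i _ => hζ.pow i

theorem isIntegral_intCast (c : ℤ) : IsIntegral ℤ (c : ℂ) := by
  simpa using isIntegral_algebraMap (R := ℤ) (A := ℂ) (x := c)

theorem isIntegral_of_pow_eq_one {ζ : ℂ} {n : ℕ} (hn : 0 < n) (h : ζ ^ n = 1) : IsIntegral ℤ ζ :=
  IsIntegral.of_pow hn (by rw [h]; exact isIntegral_one)

/-- A multiple of `1 - ε` among the rational integers is divisible by `p`. -/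
theorem prime_dvd_of_eq_mul (p : ℕ) (hp : p.Prime) (n : ℤ) (ω : ℂ) (hω : IsIntegral ℤ ω)
    (h : (n : ℂ) = (1 - Complex.exp (2 * Real.pi * Complex.I / p)) * ω) : (p : ℤ) ∣ n := by
  classical
  haveI : Fact p.Prime := ⟨hp⟩
  haveI : NeZero p := ⟨hp.ne_zero⟩
  set ε : ℂ := Complex.exp (2 * Real.pi * Complex.I / p) with hεdef
  have hε : IsPrimitiveRoot ε p := Complex.isPrimitiveRoot_exp p hp.ne_zero
  have hprod : (p : ℂ) = ∏ μ ∈ primitiveRoots p ℂ, (1 - μ) := by
    have h1 := Polynomial.cyclotomic_eq_prod_X_sub_primitiveRoots hε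
    have h2 := congrArg (Polynomial.eval 1) h1
    rw [Polynomial.eval_one_cyclotomic_prime, Polynomial.eval_prod] at h2
    simpa using h2
  have hmem : ∀ μ ∈ primitiveRoots p ℂ, IsPrimitiveRoot μ p := fun μ hμ =>
    (mem_primitiveRoots hp.pos).mp hμ |> fun h => h
  have hint : ∀ μ ∈ primitiveRoots p ℂ, IsIntegral ℤ (1 - μ) := fun μ hμ =>
    isIntegral_one.sub (isIntegral_of_pow_eq_one hp.pos (hmem μ hμ).pow_eq_one)
  have hεmem : ε ∈ primitiveRoots p ℂ := (mem_primitiveRoots hp.pos).mpr hε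
  by_contra hnd
  have hprime : Prime (p : ℤ) := Nat.prime_iff_prime_int.mp hp
  have hcop : IsCoprime (p : ℤ) n := (hprime.coprime_iff_not_dvd).mpr hnd
  obtain ⟨a, b, hab⟩ := hcop
  set W : ℂ := ∏ μ ∈ (primitiveRoots p ℂ).erase ε, (1 - μ) with hW
  have hWint : IsIntegral ℤ W := IsIntegral.prod _ fun μ hμ => hint μ (Finset.mem_of_mem_erase hμ)
  have hpW : (p : ℂ) = (1 - ε) * W := by
    rw [hprod, hW, Finset.mul_prod_erase _ (fun μ => 1 - μ) hεmem]
  -- `1 - ε` is a unit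
  set τ : ℂ := (a : ℂ) * W + (b : ℂ) * ω with hτ
  have hτint : IsIntegral ℤ τ :=
    ((isIntegral_intCast a).mul hWint).add ((isIntegral_intCast b).mul hω)
  have hunit : (1 - ε) * τ = 1 := by
    have h1 : ((a * p + b * n : ℤ) : ℂ) = 1 := by rw [hab]; simp
    push_cast at h1
    calc (1 - ε) * τ = (a : ℂ) * ((1 - ε) * W) + (b : ℂ) * ((1 - ε) * ω) := by rw [hτ]; ring
      _ = (a : ℂ) * p + (b : ℂ) * n := by rw [← hpW, ← h]
      _ = 1 := h1
  have hεint : IsIntegral ℤ ε := isIntegral_of_pow_eq_one hp.pos hε.pow_eq_one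
  -- every factor is a unit
  have hunits : ∀ μ ∈ primitiveRoots p ℂ, ∃ τ' : ℂ, IsIntegral ℤ τ' ∧ (1 - μ) * τ' = 1 := by
    intro μ hμ
    have hμp := hmem μ hμ
    obtain ⟨j, -, hj⟩ := hμp.eq_pow_of_pow_eq_one hε.pow_eq_one
    obtain ⟨s, hs, hs2⟩ := one_sub_pow_eq_mul (isIntegral_of_pow_eq_one hp.pos hμp.pow_eq_one) j
    refine ⟨s * τ, hs.mul hτint, ?_⟩
    rw [hj] at hs2
    rw [← mul_assoc, ← hs2, hunit]
  choose! τ' hτ'1 hτ'2 using hunits
  set T : ℂ := ∏ μ ∈ primitiveRoots p ℂ, τ' μ with hT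
  have hTint : IsIntegral ℤ T := IsIntegral.prod _ hτ'1
  have hpT : (p : ℂ) * T = 1 := by
    rw [hprod, hT, ← Finset.prod_mul_distrib]
    exact Finset.prod_eq_one hτ'2
  have hT2 : T = (((1 : ℚ) / p : ℚ) : ℂ) := by
    have hp0 : (p : ℂ) ≠ 0 := by exact_mod_cast hp.ne_zero
    push_cast
    field_simp
    linear_combination hpT
  rw [hT2] at hTint
  have h3 : IsIntegral ℤ ((1 : ℚ) / p : ℚ) := by
    have hinj : Function.Injective (algebraMap ℚ ℂ) := (algebraMap ℚ ℂ).injective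
    exact (isIntegral_algebraMap_iff hinj).mp (by simpa using hTint)
  obtain ⟨y, hy⟩ := IsIntegrallyClosed.isIntegral_iff.mp h3
  have hy2 : (y : ℚ) * p = 1 := by
    have hp0 : (p : ℚ) ≠ 0 := by exact_mod_cast hp.ne_zero
    have : (y : ℚ) = 1 / p := by simpa using hy
    rw [this]
    field_simp
  have hy3 : y * (p : ℤ) = 1 := by exact_mod_cast hy2
  have := Int.isUnit_iff.mp (IsUnit.of_mul_eq_one _ (by rw [mul_comm]; exact hy3))
  have h2 : (p : ℤ) ≥ 2 := by exact_mod_cast hp.two_le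
  rcases this with h4 | h4 <;> omega

/-- The value of a linear character at a product with an element of order `p`. -/
theorem linear_sub_eq_mul {A : Type u} [Group A] [Finite A] (lam : A →* ℂˣ) (p : ℕ) (hp : p.Prime)
    (x y : A) (hx : x ^ p = 1) :
    ∃ ω : ℂ, IsIntegral ℤ ω ∧ ((lam (x * y) : ℂˣ) : ℂ) - (lam y : ℂˣ) =
      (1 - Complex.exp (2 * Real.pi * Complex.I / p)) * ω := by
  haveI : NeZero p := ⟨hp.ne_zero⟩
  set ε : ℂ := Complex.exp (2 * Real.pi * Complex.I / p) with hεdef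
  have hε : IsPrimitiveRoot ε p := Complex.isPrimitiveRoot_exp p hp.ne_zero
  have h1 : ((lam x : ℂˣ) : ℂ) ^ p = 1 := by
    have := congrArg (fun z : ℂˣ => (z : ℂ)) (map_pow lam x p)
    simp only [hx, map_one, Units.val_one, Units.val_pow_eq_pow_val] at this
    exact this.symm
  obtain ⟨i, -, hi⟩ := hε.eq_pow_of_pow_eq_one h1
  have hεint := isIntegral_of_pow_eq_one hp.pos hε.pow_eq_one
  obtain ⟨u, hu, hu2⟩ := one_sub_pow_eq_mul hεint i
  have hy : IsIntegral ℤ ((lam y : ℂˣ) : ℂ) := by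
    refine isIntegral_of_pow_eq_one (Nat.card_pos (α := A)) ?_
    have := congrArg (fun z : ℂˣ => (z : ℂ)) (map_pow lam y (Nat.card A))
    simp only [pow_card_eq_one', map_one, Units.val_one, Units.val_pow_eq_pow_val] at this
    exact this.symm
  refine ⟨-u * (lam y : ℂˣ), (hu.neg).mul hy, ?_⟩
  rw [map_mul, Units.val_mul, ← hi]
  linear_combination (-(lam y : ℂˣ) : ℂ) * hu2

/-- The congruence for generalized characters. -/
theorem generalized_sub_eq_mul {G : Type u} [Group G] [Finite G] {χ : G → ℂ}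
    (hχ : IsGeneralizedCharacter G χ) (p : ℕ) (hp : p.Prime) (x y : G) (hx : x ^ p = 1)
    (hxy : x * y = y * x) :
    ∃ ω : ℂ, IsIntegral ℤ ω ∧ χ (x * y) - χ y =
      (1 - Complex.exp (2 * Real.pi * Complex.I / p)) * ω := by
  classical
  let A : Subgroup G := Subgroup.closure {x, y}
  have hcomm : ∀ a ∈ ({x, y} : Set G), ∀ b ∈ ({x, y} : Set G), a * b = b * a := by
    intro a ha b hb
    rcases ha with rfl | rfl <;> rcases hb with rfl | rfl <;> simp [hxy]
  have hAcomm : ∀ a b : A, a * b = b * a := (Subgroup.isMulCommutative_closure hcomm).is_comm.comm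
  letI : Fintype A := Fintype.ofFinite A
  letI : Fintype G := Fintype.ofFinite G
  have hres := IsGeneralizedCharacter.restrict A hχ
  obtain ⟨c, hc⟩ := generalized_eq_sum hres
  let x' : A := ⟨x, Subgroup.subset_closure (by simp)⟩
  let y' : A := ⟨y, Subgroup.subset_closure (by simp)⟩
  have hlin : ∀ lam : IrrCharacter A, ∃ ω : ℂ, IsIntegral ℤ ω ∧
      (lam : A → ℂ) (x' * y') - (lam : A → ℂ) y' =
        (1 - Complex.exp (2 * Real.pi * Complex.I / p)) * ω := by
    intro lam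
    obtain ⟨f, hf⟩ := exists_hom_of_character_one (IsIrrCharacter.isCharacter lam.2)
      (charDegree_eq_one_of_comm hAcomm lam.2)
    rw [hf]
    exact linear_sub_eq_mul f p hp x' y' (Subtype.ext (by simpa [x'] using hx))
  choose ω hω1 hω2 using hlin
  refine ⟨∑ lam, (c lam : ℂ) * ω lam, IsIntegral.sum _ fun lam _ => (isIntegral_intCast _).mul (hω1 lam), ?_⟩
  have h1 : χ (x * y) = (fun a : A => χ a) (x' * y') := rfl
  have h2 : χ y = (fun a : A => χ a) y' := rfl
  rw [h1, h2, hc]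
  simp only [Finset.sum_apply, Pi.smul_apply, smul_eq_mul, Finset.mul_sum]
  rw [← Finset.sum_sub_distrib]
  refine Finset.sum_congr rfl fun lam _ => ?_
  have := hω2 lam
  linear_combination (c lam : ℂ) * this

end Cfsg.Agent.Lib.OddChar
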