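import Mathlib

/-!
# Integer vectors of norm three in a grid.

The combinatorial core of the cyclic TI-isometry: a grid of norm-three integer vectors with the
Gram matrix of `(1 - φ)(1 - ψ)` minus the trivial coordinate splits as `a i + b j + c i j`.
-/

set_option autoImplicit false

namespace Cfsg.Agent.Lib.OddChar.TIGrid

section Ints

theorem sq_bound {x : ℤ} (h : x ^ 2 ≤ 3) : -1 ≤ x ∧ x ≤ 1 := by
  constructor <;> nlinarith

theorem conf_S1 {a b c d e f g : ℤ} (ha : a = 1) (hb : b = 0) (hc : c = 0) (h2 : a + d + e = 0)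
    (h3 : b + d + f = 0) (h4 : c + d + g = 0)
    (hsq : a ^ 2 + b ^ 2 + c ^ 2 + d ^ 2 + e ^ 2 + f ^ 2 + g ^ 2 ≤ 3) :
    d = 0 ∧ e = -1 ∧ f = 0 ∧ g = 0 := by
  have e' : e = -1 - d := by omega
  have f' : f = -d := by omega
  have g' : g = -d := by omega
  subst ha hb hc e' f' g'
  have h1 : d ^ 2 ≤ 3 := by nlinarith [sq_nonneg d, sq_nonneg (-1 - d)]
  obtain ⟨h5, h6⟩ := sq_bound h1
  interval_cases d <;> simp_all

theorem conf_S2 {a b c d e f g : ℤ} (h1 : a + b + c = 0) (h2 : a + d + e = 1) (h3 : b + d + f = 0)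
    (h4 : c + d + g = 0) (ha : 0 ≤ a) (hd : 0 ≤ d) (he : 0 ≤ e)
    (hsq : a ^ 2 + b ^ 2 + c ^ 2 + d ^ 2 + e ^ 2 + f ^ 2 + g ^ 2 ≤ 3) :
    (a = 1 ∧ b = -1 ∧ c = 0 ∧ d = 0 ∧ e = 0 ∧ f = 1 ∧ g = 0) ∨
    (a = 1 ∧ b = 0 ∧ c = -1 ∧ d = 0 ∧ e = 0 ∧ f = 0 ∧ g = 1) ∨
    (a = 0 ∧ b = 0 ∧ c = 0 ∧ d = 1 ∧ e = 0 ∧ f = -1 ∧ g = -1) ∨
    (a = 0 ∧ b = 0 ∧ c = 0 ∧ d = 0 ∧ e = 1 ∧ f = 0 ∧ g = 0) := by
  have c' : c = -a - b := by omega
  have e' : e = 1 - a - d := by omega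
  have f' : f = -b - d := by omega
  have g' : g = a + b - d := by omega
  subst c' e' f' g'
  have h5 : b ^ 2 ≤ 3 := by
    nlinarith [sq_nonneg a, sq_nonneg (-a - b), sq_nonneg d, sq_nonneg (1 - a - d),
      sq_nonneg (-b - d), sq_nonneg (a + b - d)]
  have h6 : a ≤ 1 := by omega
  have h7 : d ≤ 1 := by omega
  obtain ⟨h8, h9⟩ := sq_bound h5
  interval_cases a <;> interval_cases d <;> interval_cases b <;> simp_all

theorem conf_S4 {a b c d e f g : ℤ} (h1 : a + b + c = 0) (h2 : a + d + e = 0) (h3 : b + d + f = 0)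
    (h4 : c + d + g = 1)
    (hsq : a ^ 2 + b ^ 2 + c ^ 2 + d ^ 2 + e ^ 2 + f ^ 2 + g ^ 2 ≤ 3) :
    a - b + f ≠ 1 := by
  have c' : c = -a - b := by omega
  have e' : e = - a - d := by omega
  have f' : f = -b - d := by omega
  have g' : g = 1 + a + b - d := by omega
  subst c' e' f' g'
  have h5 : b ^ 2 ≤ 3 := by
    nlinarith [sq_nonneg a, sq_nonneg (-a - b), sq_nonneg d, sq_nonneg (- a - d),
      sq_nonneg (-b - d), sq_nonneg (1 + a + b - d)]
  have h6 : a ^ 2 ≤ 3 := by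
    nlinarith [sq_nonneg b, sq_nonneg (-a - b), sq_nonneg d, sq_nonneg (- a - d),
      sq_nonneg (-b - d), sq_nonneg (1 + a + b - d)]
  have h7 : d ^ 2 ≤ 3 := by
    nlinarith [sq_nonneg a, sq_nonneg b, sq_nonneg (-a - b), sq_nonneg (- a - d),
      sq_nonneg (-b - d), sq_nonneg (1 + a + b - d)]
  obtain ⟨h8, h9⟩ := sq_bound h5
  obtain ⟨h10, h11⟩ := sq_bound h6
  obtain ⟨h12, h13⟩ := sq_bound h7
  interval_cases a <;> interval_cases b <;> interval_cases d <;> simp_all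

theorem conf_aux {a1 b1 c1 d1 e1 f1 g1 a2 b2 c2 d2 e2 f2 g2 a3 b3 c3 d3 e3 f3 g3
    a4 b4 c4 d4 e4 f4 g4 : ℤ}
    (ha1 : a1 = 1) (hb1 : b1 = 0) (hc1 : c1 = 0) (l12 : a1 + d1 + e1 = 0) (l13 : b1 + d1 + f1 = 0)
    (l14 : c1 + d1 + g1 = 0)
    (sq1 : a1 ^ 2 + b1 ^ 2 + c1 ^ 2 + d1 ^ 2 + e1 ^ 2 + f1 ^ 2 + g1 ^ 2 ≤ 3)
    (l21 : a2 + b2 + c2 = 0) (l22 : a2 + d2 + e2 = 1) (l23 : b2 + d2 + f2 = 0)
    (l24 : c2 + d2 + g2 = 0) (pa2 : 0 ≤ a2) (pd2 : 0 ≤ d2) (pe2 : 0 ≤ e2)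
    (sq2 : a2 ^ 2 + b2 ^ 2 + c2 ^ 2 + d2 ^ 2 + e2 ^ 2 + f2 ^ 2 + g2 ^ 2 ≤ 3)
    (l31 : a3 + b3 + c3 = 0) (l32 : a3 + d3 + e3 = 0) (l33 : b3 + d3 + f3 = 1)
    (l34 : c3 + d3 + g3 = 0)
    (sq3 : a3 ^ 2 + b3 ^ 2 + c3 ^ 2 + d3 ^ 2 + e3 ^ 2 + f3 ^ 2 + g3 ^ 2 ≤ 3)
    (l41 : a4 + b4 + c4 = 0) (l42 : a4 + d4 + e4 = 0) (l43 : b4 + d4 + f4 = 0)
    (l44 : c4 + d4 + g4 = 1)
    (sq4 : a4 ^ 2 + b4 ^ 2 + c4 ^ 2 + d4 ^ 2 + e4 ^ 2 + f4 ^ 2 + g4 ^ 2 ≤ 3)
    (B12 : (a1 - a2) ^ 2 + (b1 - b2) ^ 2 + (c1 - c2) ^ 2 + (d1 - d2) ^ 2 + (e1 - e2) ^ 2 +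
      (f1 - f2) ^ 2 + (g1 - g2) ^ 2 ≤ 4)
    (D24 : a2 ^ 2 + b2 ^ 2 + f2 ^ 2 = 3 → a2 * a4 + b2 * b4 + f2 * f4 = 1)
    (D23 : a2 ^ 2 + c2 ^ 2 + g2 ^ 2 = 3 → a2 * a3 + c2 * c3 + g2 * g3 = 1) : False := by
  obtain ⟨h1, h2, h3, h4⟩ := conf_S1 ha1 hb1 hc1 l12 l13 l14 sq1
  subst ha1 hb1 hc1 h1 h2 h3 h4
  rcases conf_S2 l21 l22 l23 l24 pa2 pd2 pe2 sq2 with
    ⟨h1, h2, h3, h4, h5, h6, h7⟩ | ⟨h1, h2, h3, h4, h5, h6, h7⟩ | ⟨h1, h2, h3, h4, h5, h6, h7⟩ |
      ⟨h1, h2, h3, h4, h5, h6, h7⟩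
  · subst h1 h2 h3 h4 h5 h6 h7
    have h8 := D24 (by norm_num)
    refine conf_S4 l41 l42 l43 l44 sq4 ?_
    linarith
  · subst h1 h2 h3 h4 h5 h6 h7
    have h8 := D23 (by norm_num)
    refine conf_S4 (a := a3) (b := c3) (c := b3) (d := d3) (e := e3) (f := g3) (g := f3)
      (by linarith) l32 l34 (by linarith) (by linarith) ?_
    linarith
  · subst h1 h2 h3 h4 h5 h6 h7
    norm_num at B12
  · subst h1 h2 h3 h4 h5 h6 h7
    norm_num at B12

end Ints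

section Vec

variable {ι : Type*} [Fintype ι] [DecidableEq ι]

/-- The integer dot product. -/
def dotZ (v w : ι → ℤ) : ℤ := ∑ x, v x * w x

omit [DecidableEq ι] in
theorem dotZ_comm (v w : ι → ℤ) : dotZ v w = dotZ w v := by
  unfold dotZ
  exact Finset.sum_congr rfl fun x _ => mul_comm _ _

omit [DecidableEq ι] in
theorem dotZ_self (v : ι → ℤ) : dotZ v v = ∑ x, v x ^ 2 := by
  unfold dotZ
  exact Finset.sum_congr rfl fun x _ => (sq _).symm

omit [DecidableEq ι] in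
theorem dotZ_sub_sub (v w : ι → ℤ) :
    dotZ (fun x => v x - w x) (fun x => v x - w x) = dotZ v v - 2 * dotZ v w + dotZ w w := by
  unfold dotZ
  rw [Finset.mul_sum, ← Finset.sum_sub_distrib, ← Finset.sum_add_distrib]
  exact Finset.sum_congr rfl fun x _ => by ring

theorem bessel_list (l : List ι) (hl : l.Nodup) (v : ι → ℤ) :
    (l.map fun x => v x ^ 2).sum ≤ dotZ v v := by
  rw [dotZ_self, ← List.sum_toFinset _ hl]
  exact Finset.sum_le_sum_of_subset_of_nonneg (Finset.subset_univ _) (fun x _ _ => sq_nonneg _)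

theorem bessel7 {a b c d e f g : ι} (hl : [a, b, c, d, e, f, g].Nodup) (v : ι → ℤ) :
    v a ^ 2 + v b ^ 2 + v c ^ 2 + v d ^ 2 + v e ^ 2 + v f ^ 2 + v g ^ 2 ≤ dotZ v v := by
  have := bessel_list _ hl v
  simp only [List.map_cons, List.map_nil, List.sum_cons, List.sum_nil] at this
  linarith

theorem bessel4 {a b c d : ι} (hl : [a, b, c, d].Nodup) (v : ι → ℤ) :
    v a ^ 2 + v b ^ 2 + v c ^ 2 + v d ^ 2 ≤ dotZ v v := by
  have := bessel_list _ hl v
  simp only [List.map_cons, List.map_nil, List.sum_cons, List.sum_nil] at this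
  linarith

theorem bessel2 {a b : ι} (hl : a ≠ b) (v : ι → ℤ) :
    v a ^ 2 + v b ^ 2 ≤ dotZ v v := by
  have := bessel_list [a, b] (by simp [hl]) v
  simp only [List.map_cons, List.map_nil, List.sum_cons, List.sum_nil] at this
  linarith

theorem bessel1 (a : ι) (v : ι → ℤ) : v a ^ 2 ≤ dotZ v v := by
  have := bessel_list [a] (by simp) v
  simp only [List.map_cons, List.map_nil, List.sum_cons, List.sum_nil] at this
  linarith

theorem norm3_vals {v : ι → ℤ} (h : dotZ v v = 3) (x : ι) : v x = 0 ∨ v x = 1 ∨ v x = -1 := by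
  have h1 := bessel1 x v
  rw [h] at h1
  have := sq_bound h1
  omega

theorem dot_three {u v w : ι} (huv : u ≠ v) (huw : u ≠ w) (hvw : v ≠ w) {S T : ι → ℤ}
    (hS : dotZ S S = 3) (h : S u ^ 2 + S v ^ 2 + S w ^ 2 = 3) :
    dotZ S T = S u * T u + S v * T v + S w * T w := by
  have hz : ∀ z, z ≠ u → z ≠ v → z ≠ w → S z = 0 := by
    intro z h1 h2 h3
    have h4 := bessel4 (a := z) (b := u) (c := v) (d := w) (by simp [*]) S
    have h5 : S z ^ 2 ≤ 0 := by linarith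
    have h6 : S z ^ 2 = 0 := le_antisymm h5 (sq_nonneg _)
    exact pow_eq_zero_iff (two_ne_zero) |>.mp h6
  unfold dotZ
  have h7 : ∑ x, S x * T x = ∑ x ∈ ({u, v, w} : Finset ι), S x * T x := by
    symm
    apply Finset.sum_subset (Finset.subset_univ _)
    intro x _ hx
    simp only [Finset.mem_insert, Finset.mem_singleton, not_or] at hx
    rw [hz x hx.1 hx.2.1 hx.2.2, zero_mul]
  rw [h7, Finset.sum_insert (by simp [huv, huw]), Finset.sum_insert (by simp [hvw]),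
    Finset.sum_singleton]
  ring

omit [Fintype ι] in
theorem sum3 {Y : Finset ι} (hY : Y.card = 3) {a b c : ι} (ha : a ∈ Y) (hb : b ∈ Y) (hc : c ∈ Y)
    (hab : a ≠ b) (hac : a ≠ c) (hbc : b ≠ c) (f : ι → ℤ) :
    ∑ x ∈ Y, f x = f a + f b + f c := by
  have h1 : ({a, b, c} : Finset ι) ⊆ Y := by
    intro x hx
    simp only [Finset.mem_insert, Finset.mem_singleton] at hx
    rcases hx with rfl | rfl | rfl <;> assumption
  have h2 : ({a, b, c} : Finset ι).card = 3 := Finset.card_eq_three.mpr ⟨a, b, c, hab, hac, hbc, rfl⟩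
  have h3 : ({a, b, c} : Finset ι) = Y := Finset.eq_of_subset_of_card_le h1 (by omega)
  rw [← h3, Finset.sum_insert (by simp [hab, hac]), Finset.sum_insert (by simp [hbc]),
    Finset.sum_singleton]
  ring

omit [Fintype ι] in
theorem exists_third {Y : Finset ι} (hY : Y.card = 3) {a d : ι} (ha : a ∈ Y) (hd : d ∈ Y)
    (had : a ≠ d) : ∃ e ∈ Y, e ≠ a ∧ e ≠ d := by
  have h1 : ({a, d} : Finset ι).card = 2 := Finset.card_pair had
  have h2 : ∃ e ∈ Y, e ∉ ({a, d} : Finset ι) :=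
    Finset.exists_mem_notMem_of_card_lt_card (by omega)
  obtain ⟨e, he, he2⟩ := h2
  simp only [Finset.mem_insert, Finset.mem_singleton, not_or] at he2
  exact ⟨e, he, he2.1, he2.2⟩

section Lines

variable (Y : Fin 4 → Finset ι) (S : Fin 4 → ι → ℤ)

theorem no_conf_a (hcard : ∀ j, (Y j).card = 3)
    (hmeet : ∀ j k, j ≠ k → ∃ x, x ∈ Y j ∧ x ∈ Y k ∧ ∀ z, z ∈ Y j → z ∈ Y k → z = x)
    (hnorm : ∀ j, dotZ (S j) (S j) = 3)
    (hline : ∀ j k, ∑ x ∈ Y k, S j x = if j = k then 1 else 0)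
    (hpos : ∀ j, ∀ x ∈ Y j, 0 ≤ S j x)
    (hdot : ∀ j k, j ≠ k → dotZ (S j) (S k) = 1)
    {p q r s : Fin 4} (hpq : p ≠ q) (hpr : p ≠ r) (hps : p ≠ s) (hqr : q ≠ r) (hqs : q ≠ s)
    (hrs : r ≠ s) {d : ι} (hdq : d ∈ Y q) (hdr : d ∈ Y r) (hds : d ∈ Y s) (hdp : d ∉ Y p) :
    False := by
  have uniq : ∀ j k, j ≠ k → ∀ u v, u ∈ Y j → u ∈ Y k → v ∈ Y j → v ∈ Y k → u = v := by
    intro j k hjk u v hu1 hu2 hv1 hv2
    obtain ⟨x, -, -, hx⟩ := hmeet j k hjk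
    rw [hx u hu1 hu2, hx v hv1 hv2]
  obtain ⟨a, ap, aq, -⟩ := hmeet p q hpq
  obtain ⟨b, bp, br, -⟩ := hmeet p r hpr
  obtain ⟨c, cp, cs, -⟩ := hmeet p s hps
  have hda : d ≠ a := fun h => hdp (h ▸ ap)
  have hdb : d ≠ b := fun h => hdp (h ▸ bp)
  have hdc : d ≠ c := fun h => hdp (h ▸ cp)
  have hab : a ≠ b := fun h => hda (uniq q r hqr d a hdq hdr aq (h ▸ br))
  have hac : a ≠ c := fun h => hda (uniq q s hqs d a hdq hds aq (h ▸ cs))
  have hbc : b ≠ c := fun h => hdb (uniq r s hrs d b hdr hds br (h ▸ cs))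
  obtain ⟨e, eq', hea, hed⟩ := exists_third (hcard q) aq hdq hda.symm
  obtain ⟨f, fr, hfb, hfd⟩ := exists_third (hcard r) br hdr hdb.symm
  obtain ⟨g, gs, hgc, hgd⟩ := exists_third (hcard s) cs hds hdc.symm
  have heb : e ≠ b := fun h => hab (uniq p q hpq a b ap aq bp (h ▸ eq'))
  have hec : e ≠ c := fun h => hac (uniq p q hpq a c ap aq cp (h ▸ eq'))
  have hfa : f ≠ a := fun h => hab.symm (uniq p r hpr b a bp br ap (h ▸ fr))
  have hfc : f ≠ c := fun h => hbc (uniq p r hpr b c bp br cp (h ▸ fr))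
  have hga : g ≠ a := fun h => hac.symm (uniq p s hps c a cp cs ap (h ▸ gs))
  have hgb : g ≠ b := fun h => hbc.symm (uniq p s hps c b cp cs bp (h ▸ gs))
  have hef : e ≠ f := fun h => hed (uniq q r hqr e d eq' (h ▸ fr) hdq hdr)
  have heg : e ≠ g := fun h => hed (uniq q s hqs e d eq' (h ▸ gs) hdq hds)
  have hfg : f ≠ g := fun h => hfd (uniq r s hrs f d fr (h ▸ gs) hdr hds)
  have hnd : [a, b, c, d, e, f, g].Nodup := by
    simp only [List.nodup_cons, List.mem_cons, List.not_mem_nil, or_false, not_or,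
      List.nodup_nil, not_false_eq_true, and_true]
    exact ⟨⟨hab, hac, hda.symm, hea.symm, hfa.symm, hga.symm⟩, ⟨hbc, hdb.symm, heb.symm, hfb.symm,
      hgb.symm⟩, ⟨hdc.symm, hec.symm, hfc.symm, hgc.symm⟩, ⟨hed.symm, hfd.symm, hgd.symm⟩, ⟨hef, heg⟩,
      hfg⟩
  -- the line equations
  have Lp : ∀ j, S j a + S j b + S j c = if j = p then 1 else 0 := fun j => by
    rw [← sum3 (hcard p) ap bp cp hab hac hbc, hline]
  have Lq : ∀ j, S j a + S j d + S j e = if j = q then 1 else 0 := fun j => by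
    rw [← sum3 (hcard q) aq hdq eq' hda.symm hea.symm hed.symm, hline]
  have Lr : ∀ j, S j b + S j d + S j f = if j = r then 1 else 0 := fun j => by
    rw [← sum3 (hcard r) br hdr fr hdb.symm hfb.symm hfd.symm, hline]
  have Ls : ∀ j, S j c + S j d + S j g = if j = s then 1 else 0 := fun j => by
    rw [← sum3 (hcard s) cs hds gs hdc.symm hgc.symm hgd.symm, hline]
  have B : ∀ j, S j a ^ 2 + S j b ^ 2 + S j c ^ 2 + S j d ^ 2 + S j e ^ 2 + S j f ^ 2 + S j g ^ 2 ≤ 3 :=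
    fun j => by
      have := bessel7 hnd (S j)
      rwa [hnorm] at this
  have BD : ∀ j k, j ≠ k → (S j a - S k a) ^ 2 + (S j b - S k b) ^ 2 + (S j c - S k c) ^ 2 +
      (S j d - S k d) ^ 2 + (S j e - S k e) ^ 2 + (S j f - S k f) ^ 2 + (S j g - S k g) ^ 2 ≤ 4 := by
    intro j k hjk
    have h1 := bessel7 hnd (fun x => S j x - S k x)
    rw [dotZ_sub_sub, hnorm, hnorm, hdot j k hjk] at h1
    linarith
  have pp1 : 0 ≤ S p a := hpos p a ap
  have pp2 : 0 ≤ S p b := hpos p b bp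
  have pp3 : 0 ≤ S p c := hpos p c cp
  have Lpp := Lp p
  rw [if_pos rfl] at Lpp
  have hqp : q ≠ p := hpq.symm
  have hrp : r ≠ p := hpr.symm
  have hsp : s ≠ p := hps.symm
  have hrq : r ≠ q := hqr.symm
  have hsq : s ≠ q := hqs.symm
  have hsr : s ≠ r := hrs.symm
  have Lpq := Lq p
  have Lpr := Lr p
  have Lps := Ls p
  have Lqp := Lp q
  have Lqq := Lq q
  have Lqr := Lr q
  have Lqs := Ls q
  have Lrp := Lp r
  have Lrq := Lq r
  have Lrr := Lr r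
  have Lrs := Ls r
  have Lsp := Lp s
  have Lsq := Lq s
  have Lsr := Lr s
  have Lss := Ls s
  simp only [hpq, hpr, hps, hqp, hqr, hqs, hrp, hrq, hrs, hsp, hsq, hsr, if_true, if_false]
    at Lpq Lpr Lps Lqp Lqq Lqr Lqs Lrp Lrq Lrr Lrs Lsp Lsq Lsr Lss
  have Bp := B p
  have Bq := B q
  have Br := B r
  have Bs := B s
  have D : ∀ j k, j ≠ k → ∀ u v w, u ≠ v → u ≠ w → v ≠ w → S j u ^ 2 + S j v ^ 2 + S j w ^ 2 = 3 →
      S j u * S k u + S j v * S k v + S j w * S k w = 1 := by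
    intro j k hjk u v w huv huw hvw h
    rw [← dot_three huv huw hvw (hnorm j) h, hdot j k hjk]
  -- which of `a, b, c` carries the value one of `S p`
  have hcases : (S p a = 1 ∧ S p b = 0 ∧ S p c = 0) ∨ (S p b = 1 ∧ S p a = 0 ∧ S p c = 0) ∨
      (S p c = 1 ∧ S p a = 0 ∧ S p b = 0) := by omega
  rcases hcases with ⟨h1, h2, h3⟩ | ⟨h1, h2, h3⟩ | ⟨h1, h2, h3⟩
  · exact conf_aux h1 h2 h3 Lpq Lpr Lps Bp Lqp Lqq Lqr Lqs (hpos q a aq) (hpos q d hdq) (hpos q e eq')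
      Bq Lrp Lrq Lrr Lrs Br Lsp Lsq Lsr Lss Bs (BD p q hpq)
      (D q s hqs a b f hab hfa.symm hfb.symm) (D q r hqr a c g hac hga.symm hgc.symm)
  · -- exchange `(a, e, q)` with `(b, f, r)`
    exact conf_aux (a1 := S p b) (b1 := S p a) (c1 := S p c) (d1 := S p d) (e1 := S p f) (f1 := S p e)
      (g1 := S p g) (a2 := S r b) (b2 := S r a) (c2 := S r c) (d2 := S r d) (e2 := S r f) (f2 := S r e)
      (g2 := S r g) (a3 := S q b) (b3 := S q a) (c3 := S q c) (d3 := S q d) (e3 := S q f) (f3 := S q e)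
      (g3 := S q g) (a4 := S s b) (b4 := S s a) (c4 := S s c) (d4 := S s d) (e4 := S s f) (f4 := S s e)
      (g4 := S s g) h1 h2 h3 Lpr Lpq Lps (by linarith) (by linarith) Lrr Lrq Lrs (hpos r b br) (hpos r d hdr)
      (hpos r f fr) (by linarith) (by linarith) Lqr Lqq Lqs (by linarith) (by linarith) Lsr Lsq Lss
      (by linarith) (by have := BD p r hpr; linarith)
      (D r s hrs b a e hab.symm heb.symm hea.symm) (D r q hqr.symm b c g hbc hgb.symm hgc.symm)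
  · -- exchange `(a, e, q)` with `(c, g, s)`
    exact conf_aux (a1 := S p c) (b1 := S p b) (c1 := S p a) (d1 := S p d) (e1 := S p g) (f1 := S p f)
      (g1 := S p e) (a2 := S s c) (b2 := S s b) (c2 := S s a) (d2 := S s d) (e2 := S s g) (f2 := S s f)
      (g2 := S s e) (a3 := S r c) (b3 := S r b) (c3 := S r a) (d3 := S r d) (e3 := S r g) (f3 := S r f)
      (g3 := S r e) (a4 := S q c) (b4 := S q b) (c4 := S q a) (d4 := S q d) (e4 := S q g) (f4 := S q f)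
      (g4 := S q e) h1 h3 h2 Lps (by linarith) (by linarith) (by linarith) (by linarith) Lss (by linarith)
      (by linarith) (hpos s c cs) (hpos s d hds) (hpos s g gs) (by linarith) (by linarith) (by linarith)
      (by linarith) (by linarith) (by linarith) (by linarith) (by linarith) (by linarith) (by linarith)
      (by linarith) (by have := BD p s hps; linarith)
      (D s q hqs.symm c b f hbc.symm hfc.symm hfb.symm) (D s r hrs.symm c a e hac.symm hec.symm hea.symm)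

theorem one_le_sq {x : ℤ} (h : x ≠ 0) : 1 ≤ x ^ 2 := by
  have h1 : 0 < x ^ 2 := by positivity
  linarith

theorem no_conf_b (hcard : ∀ j, (Y j).card = 3)
    (hmeet : ∀ j k, j ≠ k → ∃ x, x ∈ Y j ∧ x ∈ Y k ∧ ∀ z, z ∈ Y j → z ∈ Y k → z = x)
    (hline : ∀ j k, ∑ x ∈ Y k, S j x = if j = k then 1 else 0)
    (hno : ∀ d q r s, q ≠ r → q ≠ s → r ≠ s → d ∈ Y q → d ∈ Y r → d ∈ Y s → False) : False := by
  obtain ⟨A, A0, A1, -⟩ := hmeet 0 1 (by decide)
  obtain ⟨B, B0, B2, -⟩ := hmeet 0 2 (by decide)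
  obtain ⟨C, C0, C3, -⟩ := hmeet 0 3 (by decide)
  obtain ⟨D, D1, D2, -⟩ := hmeet 1 2 (by decide)
  obtain ⟨E, E1, E3, -⟩ := hmeet 1 3 (by decide)
  obtain ⟨F, F2, F3, -⟩ := hmeet 2 3 (by decide)
  have hAB : A ≠ B := fun h => hno A 0 1 2 (by decide) (by decide) (by decide) A0 A1 (h ▸ B2)
  have hAC : A ≠ C := fun h => hno A 0 1 3 (by decide) (by decide) (by decide) A0 A1 (h ▸ C3)
  have hBC : B ≠ C := fun h => hno B 0 2 3 (by decide) (by decide) (by decide) B0 B2 (h ▸ C3)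
  have hAD : A ≠ D := fun h => hno A 0 1 2 (by decide) (by decide) (by decide) A0 A1 (h ▸ D2)
  have hAE : A ≠ E := fun h => hno A 0 1 3 (by decide) (by decide) (by decide) A0 A1 (h ▸ E3)
  have hDE : D ≠ E := fun h => hno D 1 2 3 (by decide) (by decide) (by decide) D1 D2 (h ▸ E3)
  have hBD : B ≠ D := fun h => hno B 0 1 2 (by decide) (by decide) (by decide) B0 (h ▸ D1) B2
  have hBF : B ≠ F := fun h => hno B 0 2 3 (by decide) (by decide) (by decide) B0 B2 (h ▸ F3)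
  have hDF : D ≠ F := fun h => hno D 1 2 3 (by decide) (by decide) (by decide) D1 D2 (h ▸ F3)
  have hCE : C ≠ E := fun h => hno C 0 1 3 (by decide) (by decide) (by decide) C0 (h ▸ E1) C3
  have hCF : C ≠ F := fun h => hno C 0 2 3 (by decide) (by decide) (by decide) C0 (h ▸ F2) C3
  have hEF : E ≠ F := fun h => hno E 1 2 3 (by decide) (by decide) (by decide) E1 (h ▸ F2) E3
  have L0 := sum3 (hcard 0) A0 B0 C0 hAB hAC hBC (S 0)
  have L1 := sum3 (hcard 1) A1 D1 E1 hAD hAE hDE (S 0)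
  have L2 := sum3 (hcard 2) B2 D2 F2 hBD hBF hDF (S 0)
  have L3 := sum3 (hcard 3) C3 E3 F3 hCE hCF hEF (S 0)
  rw [hline] at L0 L1 L2 L3
  simp only [Fin.isValue, if_true, Fin.reduceEq, if_false] at L0 L1 L2 L3
  omega

theorem sunflower_zero (hmeet : ∀ j k, j ≠ k → ∃ x, x ∈ Y j ∧ x ∈ Y k ∧ ∀ z, z ∈ Y j → z ∈ Y k → z = x)
    (hnorm : ∀ j, dotZ (S j) (S j) = 3)
    (hline : ∀ j k, ∑ x ∈ Y k, S j x = if j = k then 1 else 0)
    (hpos : ∀ j, ∀ x ∈ Y j, 0 ≤ S j x) {d : ι} (hd : ∀ j, d ∈ Y j) (j : Fin 4) : S j d = 0 := by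
  by_contra hne
  have uniq : ∀ j k, j ≠ k → ∀ u v, u ∈ Y j → u ∈ Y k → v ∈ Y j → v ∈ Y k → u = v := by
    intro j k hjk u v hu1 hu2 hv1 hv2
    obtain ⟨x, -, -, hx⟩ := hmeet j k hjk
    rw [hx u hu1 hu2, hx v hv1 hv2]
  have hk3 : ∀ j : Fin 4, ∃ k1 k2 k3 : Fin 4, j ≠ k1 ∧ j ≠ k2 ∧ j ≠ k3 ∧ k1 ≠ k2 ∧ k1 ≠ k3 ∧ k2 ≠ k3 := by
    decide
  obtain ⟨k1, k2, k3, h1, h2, h3, h12, h13, h23⟩ := hk3 j
  have hv : S j d = 1 := by
    have h4 := Finset.single_le_sum (f := S j) (fun x hx => hpos j x hx) (hd j)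
    rw [hline, if_pos rfl] at h4
    have h5 := hpos j d (hd j)
    omega
  have hz : ∀ k, j ≠ k → ∃ z ∈ Y k, z ≠ d ∧ S j z ≠ 0 := by
    intro k hjk
    by_contra hcon
    push Not at hcon
    have h4 : ∑ x ∈ Y k, S j x = S j d :=
      Finset.sum_eq_single_of_mem d (hd k) (fun z hz hne => hcon z hz hne)
    rw [hline, if_neg hjk] at h4
    omega
  obtain ⟨z1, hz1, hz1d, hz10⟩ := hz k1 h1
  obtain ⟨z2, hz2, hz2d, hz20⟩ := hz k2 h2
  obtain ⟨z3, hz3, hz3d, hz30⟩ := hz k3 h3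
  have h12' : z1 ≠ z2 := fun h => hz1d (uniq k1 k2 h12 z1 d hz1 (h ▸ hz2) (hd _) (hd _))
  have h13' : z1 ≠ z3 := fun h => hz1d (uniq k1 k3 h13 z1 d hz1 (h ▸ hz3) (hd _) (hd _))
  have h23' : z2 ≠ z3 := fun h => hz2d (uniq k2 k3 h23 z2 d hz2 (h ▸ hz3) (hd _) (hd _))
  have hb := bessel4 (a := d) (b := z1) (c := z2) (d := z3)
    (by simp [hz1d.symm, hz2d.symm, hz3d.symm, h12', h13', h23']) (S j)
  rw [hnorm] at hb
  have := one_le_sq hz10
  have := one_le_sq hz20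
  have := one_le_sq hz30
  rw [hv] at hb
  norm_num at hb
  linarith

theorem lprime (hcard : ∀ j, (Y j).card = 3)
    (hmeet : ∀ j k, j ≠ k → ∃ x, x ∈ Y j ∧ x ∈ Y k ∧ ∀ z, z ∈ Y j → z ∈ Y k → z = x)
    (hnorm : ∀ j, dotZ (S j) (S j) = 3)
    (hline : ∀ j k, ∑ x ∈ Y k, S j x = if j = k then 1 else 0)
    (hpos : ∀ j, ∀ x ∈ Y j, 0 ≤ S j x)
    (hdot : ∀ j k, j ≠ k → dotZ (S j) (S k) = 1) :
    ∃ x, (∀ j, x ∈ Y j) ∧ ∀ j, S j x = 0 := by
  by_cases h : ∃ d q r s, q ≠ r ∧ q ≠ s ∧ r ≠ s ∧ d ∈ Y q ∧ d ∈ Y r ∧ d ∈ Y s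
  · obtain ⟨d, q, r, s, hqr, hqs, hrs, hq, hr, hs⟩ := h
    have hp4 : ∀ q r s : Fin 4, ∃ p : Fin 4, p ≠ q ∧ p ≠ r ∧ p ≠ s := by decide
    obtain ⟨p, hpq, hpr, hps⟩ := hp4 q r s
    by_cases hdp : d ∈ Y p
    · have h4 : ∀ p q r s j : Fin 4, p ≠ q → p ≠ r → p ≠ s → q ≠ r → q ≠ s → r ≠ s →
          j = p ∨ j = q ∨ j = r ∨ j = s := by decide
      have hall : ∀ j, d ∈ Y j := by
        intro j
        rcases h4 p q r s j hpq hpr hps hqr hqs hrs with rfl | rfl | rfl | rfl <;> assumption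
      exact ⟨d, hall, sunflower_zero Y S hmeet hnorm hline hpos hall⟩
    · exact (no_conf_a Y S hcard hmeet hnorm hline hpos hdot hpq hpr hps hqr hqs hrs hq hr hs hdp).elim
  · push Not at h
    refine (no_conf_b Y S hcard hmeet hline ?_).elim
    intro d q r s hqr hqs hrs hq hr hs
    exact h d q r s hqr hqs hrs hq hr hs

end Lines

/-- Two vectors meeting in exactly one coordinate, with equal values. -/
def Adj (v w : ι → ℤ) : Prop := ∃ x, v x ≠ 0 ∧ v x = w x ∧ ∀ z, z ≠ x → v z = 0 ∨ w z = 0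

theorem adj_of (d : ι → ℂ) (hd : ∀ x, d x ≠ 0) {v w : ι → ℤ} (hv : dotZ v v = 3) (hw : dotZ w w = 3)
    (hvw : dotZ v w = 1) (hdeg : ∑ x, d x * (v x : ℂ) = ∑ x, d x * (w x : ℂ)) : Adj v w := by
  have hnn : ∀ z, 0 ≤ v z * w z := by
    intro z
    by_contra hneg
    push Not at hneg
    have h1 := dotZ_sub_sub v w
    rw [hv, hw, hvw] at h1
    norm_num at h1
    have hz : v z - w z = 2 ∨ v z - w z = -2 := by
      rcases norm3_vals hv z with h | h | h <;> rcases norm3_vals hw z with h' | h' | h' <;>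
        rw [h, h'] at hneg <;> omega
    have hother : ∀ x, x ≠ z → v x - w x = 0 := by
      intro x hx
      have h2 := bessel2 hx.symm (fun y => v y - w y)
      rw [h1] at h2
      have h3 : (v x - w x) ^ 2 ≤ 0 := by
        rcases hz with h | h <;> rw [h] at h2 <;> linarith
      exact pow_eq_zero_iff two_ne_zero |>.mp (le_antisymm h3 (sq_nonneg _))
    have hsum : ∑ x, d x * ((v x : ℂ) - (w x : ℂ)) = d z * ((v z : ℂ) - (w z : ℂ)) := by
      refine Finset.sum_eq_single z (fun x _ hx => ?_) (fun h => absurd (Finset.mem_univ z) h)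
      have h3 := hother x hx
      have h4 : (v x : ℂ) - (w x : ℂ) = 0 := by exact_mod_cast h3
      rw [h4, mul_zero]
    have h0 : ∑ x, d x * ((v x : ℂ) - (w x : ℂ)) = 0 := by
      simp only [mul_sub, Finset.sum_sub_distrib, hdeg, sub_self]
    rw [h0] at hsum
    have h5 : (v z : ℂ) - (w z : ℂ) = 0 := by
      rcases mul_eq_zero.mp hsum.symm with h | h
      · exact absurd h (hd z)
      · exact h
    have h6 : v z - w z = 0 := by exact_mod_cast h5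
    rcases hz with h | h <;> omega
  have hsum : ∑ x, v x * w x = 1 := hvw
  have hex : ∃ x, v x * w x ≠ 0 := by
    by_contra h
    push Not at h
    simp [h] at hsum
  obtain ⟨x, hx⟩ := hex
  have hvx : v x ≠ 0 := left_ne_zero_of_mul hx
  have hwx : w x ≠ 0 := right_ne_zero_of_mul hx
  have heq : v x = w x := by
    have h0 := hnn x
    rcases norm3_vals hv x with h | h | h <;> rcases norm3_vals hw x with h' | h' | h' <;>
      rw [h, h'] at h0 hx <;> omega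
  refine ⟨x, hvx, heq, ?_⟩
  intro z hz
  by_contra hcon
  push Not at hcon
  have h1 : v z * w z ≠ 0 := mul_ne_zero hcon.1 hcon.2
  have h2 : ∑ y ∈ ({x, z} : Finset ι), v y * w y ≤ ∑ y, v y * w y :=
    Finset.sum_le_sum_of_subset_of_nonneg (Finset.subset_univ _) (fun y _ _ => hnn y)
  rw [Finset.sum_pair hz.symm, hsum] at h2
  have h3 := hnn x
  have h4 := hnn z
  omega

theorem norm3_card {v : ι → ℤ} (h : dotZ v v = 3) :
    (Finset.univ.filter fun x => v x ≠ 0).card = 3 := by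
  have h1 : ∑ x, v x ^ 2 = ((Finset.univ.filter fun x => v x ≠ 0).card : ℤ) := by
    rw [Finset.card_filter]
    push_cast
    refine Finset.sum_congr rfl fun x _ => ?_
    rcases norm3_vals h x with h2 | h2 | h2 <;> rw [h2] <;> norm_num
  rw [dotZ_self] at h
  rw [h] at h1
  exact_mod_cast h1.symm

theorem two_by_four {T S : Fin 4 → ι → ℤ} (hT : ∀ j, dotZ (T j) (T j) = 3)
    (hS : ∀ j, dotZ (S j) (S j) = 3) (hTT : ∀ j k, j ≠ k → Adj (T j) (T k))
    (hTS : ∀ j, Adj (T j) (S j)) (hTS1 : ∀ j, dotZ (T j) (S j) = 1)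
    (hTS0 : ∀ j k, j ≠ k → dotZ (T j) (S k) = 0) (hSS : ∀ j k, j ≠ k → dotZ (S j) (S k) = 1) :
    ∃ x, (∀ j, T j x ≠ 0) ∧ (∀ j k, T j x = T k x) ∧ ∀ j, S j x = 0 := by
  set Y : Fin 4 → Finset ι := fun j => Finset.univ.filter (fun x => T j x ≠ 0) with hY
  have hmemY : ∀ j x, x ∈ Y j ↔ T j x ≠ 0 := by simp [hY]
  have hcard : ∀ j, (Y j).card = 3 := fun j => norm3_card (hT j)
  have hmeet : ∀ j k, j ≠ k → ∃ x, x ∈ Y j ∧ x ∈ Y k ∧ ∀ z, z ∈ Y j → z ∈ Y k → z = x := by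
    intro j k hjk
    obtain ⟨x, h1, h2, h3⟩ := hTT j k hjk
    refine ⟨x, (hmemY _ _).2 h1, (hmemY _ _).2 (h2 ▸ h1), ?_⟩
    intro z hz1 hz2
    by_contra hne
    rcases h3 z hne with h | h
    · exact (hmemY _ _).1 hz1 h
    · exact (hmemY _ _).1 hz2 h
  let u : ι → ℤ := fun x => if ∃ j, T j x = -1 then -1 else 1
  have hu : ∀ j x, T j x ≠ 0 → T j x = u x := by
    intro j x hx
    by_cases h : ∃ k, T k x = -1
    · obtain ⟨k, hk⟩ := h
      have h1 : T j x = -1 := by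
        by_cases hjk : j = k
        · rw [hjk]; exact hk
        · obtain ⟨y, h1, h2, h3⟩ := hTT j k hjk
          by_cases hxy : x = y
          · rw [hxy] at hk ⊢
            rw [h2]
            exact hk
          · rcases h3 x hxy with h | h
            · exact absurd h hx
            · rw [h] at hk
              norm_num at hk
      simp only [u]
      rw [if_pos ⟨k, hk⟩]
      exact h1
    · simp only [u]
      rw [if_neg h]
      push Not at h
      rcases norm3_vals (hT j) x with h1 | h1 | h1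
      · exact absurd h1 hx
      · exact h1
      · exact absurd h1 (h j)
  have huu : ∀ x, u x * u x = 1 := by
    intro x
    simp only [u]
    split_ifs <;> norm_num
  let S' : Fin 4 → ι → ℤ := fun j x => u x * S j x
  have hdotS' : ∀ j k, dotZ (S' j) (S' k) = dotZ (S j) (S k) := by
    intro j k
    unfold dotZ
    refine Finset.sum_congr rfl fun x _ => ?_
    simp only [S']
    have := huu x
    linear_combination (S j x * S k x) * this
  have hline : ∀ j k, ∑ x ∈ Y k, S' j x = if j = k then 1 else 0 := by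
    intro j k
    have h1 : ∑ x ∈ Y k, S' j x = dotZ (T k) (S j) := by
      unfold dotZ
      have h2 : ∑ x ∈ Y k, S' j x = ∑ x ∈ Y k, T k x * S j x :=
        Finset.sum_congr rfl fun x hx => by
          simp only [S']
          rw [← hu k x ((hmemY _ _).1 hx)]
      rw [h2]
      refine Finset.sum_subset (Finset.subset_univ _) fun x _ hx => ?_
      have h3 : T k x = 0 := by
        by_contra h4
        exact hx ((hmemY _ _).2 h4)
      rw [h3, zero_mul]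
    rw [h1]
    split_ifs with h
    · subst h
      exact hTS1 j
    · exact hTS0 k j (Ne.symm h)
  have hpos : ∀ j, ∀ x ∈ Y j, 0 ≤ S' j x := by
    intro j x hx
    have hx' := (hmemY _ _).1 hx
    obtain ⟨y, h1, h2, h3⟩ := hTS j
    by_cases hxy : x = y
    · subst hxy
      simp only [S']
      rw [← h2, ← hu j x hx']
      nlinarith [sq_nonneg (T j x)]
    · rcases h3 x hxy with h | h
      · exact absurd h hx'
      · simp only [S']
        rw [h, mul_zero]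
  obtain ⟨x, h1, h2⟩ := lprime Y S' hcard hmeet (fun j => by rw [hdotS']; exact hS j) hline hpos
    (fun j k hjk => by rw [hdotS']; exact hSS j k hjk)
  refine ⟨x, fun j => (hmemY _ _).1 (h1 j), fun j k => ?_, fun j => ?_⟩
  · rw [hu j x ((hmemY _ _).1 (h1 j)), hu k x ((hmemY _ _).1 (h1 k))]
  · have h3 := h2 j
    simp only [S'] at h3
    rcases mul_eq_zero.mp h3 with h4 | h4
    · have := huu x
      rw [h4] at this
      norm_num at this
    · exact h4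

section Grid

variable {α β : Type*} [DecidableEq α] [DecidableEq β]

omit [Fintype ι] [DecidableEq ι] [DecidableEq α] in
theorem exists_four (B : Finset β) (hB : 4 ≤ B.card) {j₀ j₁ j : β} (h0 : j₀ ∈ B) (h1 : j₁ ∈ B)
    (hj : j ∈ B) (hne : j₀ ≠ j₁) :
    ∃ f : Fin 4 → β, (∀ m n, m ≠ n → f m ≠ f n) ∧ (∀ n, f n ∈ B) ∧ f 0 = j₀ ∧ f 1 = j₁ ∧ ∃ n, f n = j := by
  have h2 : ∃ j₂ ∈ B, j₂ ≠ j₀ ∧ j₂ ≠ j₁ ∧ (j ≠ j₀ → j ≠ j₁ → j₂ = j) := by
    by_cases h : j ≠ j₀ ∧ j ≠ j₁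
    · exact ⟨j, hj, h.1, h.2, fun _ _ => rfl⟩
    · have h3 : ∃ e ∈ B, e ∉ ({j₀, j₁} : Finset β) :=
        Finset.exists_mem_notMem_of_card_lt_card (by rw [Finset.card_pair hne]; omega)
      obtain ⟨e, he, he2⟩ := h3
      simp only [Finset.mem_insert, Finset.mem_singleton, not_or] at he2
      exact ⟨e, he, he2.1, he2.2, fun a b => absurd ⟨a, b⟩ h⟩
  obtain ⟨j₂, hj₂, a1, a2, a3⟩ := h2
  have h3 : ∃ e ∈ B, e ∉ ({j₀, j₁, j₂} : Finset β) := by
    refine Finset.exists_mem_notMem_of_card_lt_card ?_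
    have := Finset.card_le_three (a := j₀) (b := j₁) (c := j₂)
    omega
  obtain ⟨j₃, hj₃, he2⟩ := h3
  simp only [Finset.mem_insert, Finset.mem_singleton, not_or] at he2
  obtain ⟨b1, b2, b3⟩ := he2
  refine ⟨![j₀, j₁, j₂, j₃], ?_, ?_, rfl, rfl, ?_⟩
  · intro m n hmn
    fin_cases m <;> fin_cases n <;> simp_all [eq_comm]
  · intro n
    fin_cases n <;> simp [*]
  · by_cases c0 : j = j₀
    · exact ⟨0, c0.symm⟩
    · by_cases c1 : j = j₁
      · exact ⟨1, c1.symm⟩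
      · exact ⟨2, a3 c0 c1⟩

theorem row_common (A : Finset α) (B : Finset β) (γ : α → β → ι → ℤ) (d : ι → ℂ) (hd : ∀ x, d x ≠ 0)
    (D : ℂ)
    (hG : ∀ i ∈ A, ∀ j ∈ B, ∀ h ∈ A, ∀ k ∈ B, dotZ (γ i j) (γ h k) =
      (if i = h then 2 else 1) * (if j = k then 2 else 1) - 1)
    (hdeg : ∀ i ∈ A, ∀ j ∈ B, ∑ x, d x * (γ i j x : ℂ) = D) (hA : 2 ≤ A.card) (hB : 4 ≤ B.card) :
    ∀ i ∈ A, ∃ x s, s ≠ 0 ∧ ∀ j ∈ B, γ i j x = s ∧ ∀ h ∈ A, h ≠ i → γ h j x = 0 := by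
  have N : ∀ i ∈ A, ∀ j ∈ B, dotZ (γ i j) (γ i j) = 3 := fun i hi j hj => by
    rw [hG i hi j hj i hi j hj]
    simp
  have R : ∀ i ∈ A, ∀ j ∈ B, ∀ k ∈ B, j ≠ k → dotZ (γ i j) (γ i k) = 1 := fun i hi j hj k hk hjk => by
    rw [hG i hi j hj i hi k hk]
    simp [hjk]
  have C : ∀ i ∈ A, ∀ h ∈ A, ∀ j ∈ B, i ≠ h → dotZ (γ i j) (γ h j) = 1 := fun i hi h hh j hj hih => by
    rw [hG i hi j hj h hh j hj]
    simp [hih]
  have O : ∀ i ∈ A, ∀ h ∈ A, ∀ j ∈ B, ∀ k ∈ B, i ≠ h → j ≠ k → dotZ (γ i j) (γ h k) = 0 :=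
    fun i hi h hh j hj k hk hih hjk => by
      rw [hG i hi j hj h hh k hk]
      simp [hih, hjk]
  intro i hi
  obtain ⟨j₀, hj₀, j₁, hj₁, hne⟩ := Finset.one_lt_card.mp (by omega : 1 < B.card)
  obtain ⟨x, hx1, hx2, hx3⟩ : Adj (γ i j₀) (γ i j₁) :=
    adj_of d hd (N i hi j₀ hj₀) (N i hi j₁ hj₁) (R i hi j₀ hj₀ j₁ hj₁ hne)
      (by rw [hdeg i hi j₀ hj₀, hdeg i hi j₁ hj₁])
  refine ⟨x, γ i j₀ x, hx1, ?_⟩
  have key : ∀ j ∈ B, ∀ h ∈ A, h ≠ i → γ i j x = γ i j₀ x ∧ γ h j x = 0 := by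
    intro j hj h hh hhi
    obtain ⟨f, hf, hfB, hf0, hf1, n, hn⟩ := exists_four B hB hj₀ hj₁ hj hne
    obtain ⟨x', h1, h2, h3⟩ := two_by_four (T := fun m => γ i (f m)) (S := fun m => γ h (f m))
      (fun m => N i hi _ (hfB m)) (fun m => N h hh _ (hfB m))
      (fun m n hmn => adj_of d hd (N i hi _ (hfB m)) (N i hi _ (hfB n))
        (R i hi _ (hfB m) _ (hfB n) (hf m n hmn))
        (by rw [hdeg i hi _ (hfB m), hdeg i hi _ (hfB n)]))
      (fun m => adj_of d hd (N i hi _ (hfB m)) (N h hh _ (hfB m))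
        (C i hi h hh _ (hfB m) hhi.symm)
        (by rw [hdeg i hi _ (hfB m), hdeg h hh _ (hfB m)]))
      (fun m => C i hi h hh _ (hfB m) hhi.symm)
      (fun m n hmn => O i hi h hh _ (hfB m) _ (hfB n) hhi.symm (hf m n hmn))
      (fun m n hmn => R h hh _ (hfB m) _ (hfB n) (hf m n hmn))
    have hx' : x' = x := by
      by_contra hc
      rcases hx3 x' hc with h4 | h4
      · have h5 := h1 0
        simp only [hf0] at h5
        exact h5 h4
      · have h5 := h1 1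
        simp only [hf1] at h5
        exact h5 h4
    subst hx'
    constructor
    · have h5 := h2 n 0
      simp only [hn, hf0] at h5
      exact h5
    · have h5 := h3 n
      simp only [hn] at h5
      exact h5
  intro j hj
  obtain ⟨h, hh, hhi⟩ := Finset.exists_mem_ne (by omega : 1 < A.card) i
  exact ⟨(key j hj h hh hhi).1, fun h' hh' hh'i => (key j hj h' hh' hh'i).2⟩

theorem grid_split_aux (A : Finset α) (B : Finset β) (γ : α → β → ι → ℤ) (d : ι → ℂ)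
    (hd : ∀ x, d x ≠ 0) (D : ℂ)
    (hG : ∀ i ∈ A, ∀ j ∈ B, ∀ h ∈ A, ∀ k ∈ B, dotZ (γ i j) (γ h k) =
      (if i = h then 2 else 1) * (if j = k then 2 else 1) - 1)
    (hdeg : ∀ i ∈ A, ∀ j ∈ B, ∑ x, d x * (γ i j x : ℂ) = D) (hA : A.card = 2 ∨ 4 ≤ A.card)
    (hB : 4 ≤ B.card) :
    ∃ (x : α → ι) (σ : α → ℤ) (y : β → ι) (τ : β → ℤ),
      (∀ i ∈ A, σ i ≠ 0) ∧ (∀ j ∈ B, τ j ≠ 0) ∧
      (∀ i ∈ A, ∀ j ∈ B, γ i j (x i) = σ i) ∧ (∀ i ∈ A, ∀ h ∈ A, ∀ j ∈ B, h ≠ i → γ h j (x i) = 0) ∧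
      (∀ i ∈ A, ∀ j ∈ B, γ i j (y j) = τ j) ∧ (∀ i ∈ A, ∀ j ∈ B, ∀ k ∈ B, k ≠ j → γ i k (y j) = 0) := by
  have hA2 : 2 ≤ A.card := by omega
  have N : ∀ i ∈ A, ∀ j ∈ B, dotZ (γ i j) (γ i j) = 3 := fun i hi j hj => by
    rw [hG i hi j hj i hi j hj]
    simp
  have R : ∀ i ∈ A, ∀ j ∈ B, ∀ k ∈ B, j ≠ k → dotZ (γ i j) (γ i k) = 1 := fun i hi j hj k hk hjk => by
    rw [hG i hi j hj i hi k hk]
    simp [hjk]
  have C : ∀ i ∈ A, ∀ h ∈ A, ∀ j ∈ B, i ≠ h → dotZ (γ i j) (γ h j) = 1 := fun i hi h hh j hj hih => by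
    rw [hG i hi j hj h hh j hj]
    simp [hih]
  have hrow := row_common A B γ d hd D hG hdeg hA2 hB
  haveI : Nonempty ι := by
    obtain ⟨i, hi⟩ := Finset.card_pos.mp (by omega : 0 < A.card)
    obtain ⟨x, -⟩ := hrow i hi
    exact ⟨x⟩
  choose! x σ hσ0 hx using hrow
  have hcol : ∀ j ∈ B, ∃ y s, s ≠ 0 ∧ ∀ i ∈ A, γ i j y = s ∧ ∀ k ∈ B, k ≠ j → γ i k y = 0 := by
    rcases hA with hA | hA
    · intro j hj
      obtain ⟨i₁, i₂, hne, hAe⟩ := Finset.card_eq_two.mp hA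
      have hi₁ : i₁ ∈ A := by rw [hAe]; simp
      have hi₂ : i₂ ∈ A := by rw [hAe]; simp
      obtain ⟨y, h1, h2, h3⟩ : Adj (γ i₁ j) (γ i₂ j) :=
        adj_of d hd (N i₁ hi₁ j hj) (N i₂ hi₂ j hj) (C i₁ hi₁ i₂ hi₂ j hj hne)
          (by rw [hdeg i₁ hi₁ j hj, hdeg i₂ hi₂ j hj])
      have hz : ∀ i ∈ A, ∀ h ∈ A, h ≠ i → γ i j y ≠ 0 → γ h j y ≠ 0 → ∀ k ∈ B, k ≠ j → γ i k y = 0 := by
        intro i hi h hh hhi hi0 hh0 k hk hkj
        obtain ⟨x', a1, a2, a3⟩ : Adj (γ i j) (γ i k) :=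
          adj_of d hd (N i hi j hj) (N i hi k hk) (R i hi j hj k hk hkj.symm)
            (by rw [hdeg i hi j hj, hdeg i hi k hk])
        have hxi : x i = x' := by
          by_contra hc
          rcases a3 (x i) hc with e | e
          · rw [(hx i hi j hj).1] at e
            exact hσ0 i hi e
          · rw [(hx i hi k hk).1] at e
            exact hσ0 i hi e
        have hyx : y ≠ x' := by
          intro e
          rw [e, ← hxi] at hh0
          exact hh0 ((hx i hi j hj).2 h hh hhi)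
        rcases a3 y hyx with e | e
        · exact absurd e hi0
        · exact e
      refine ⟨y, γ i₁ j y, h1, ?_⟩
      intro i hi
      rw [hAe] at hi
      simp only [Finset.mem_insert, Finset.mem_singleton] at hi
      rcases hi with rfl | rfl
      · exact ⟨rfl, hz i hi₁ i₂ hi₂ hne.symm h1 (h2 ▸ h1)⟩
      · exact ⟨h2.symm, hz i hi₂ i₁ hi₁ hne (h2 ▸ h1) h1⟩
    · have := row_common B A (fun j i => γ i j) d hd D
        (fun j hj i hi k hk h hh => by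
          rw [hG i hi j hj h hh k hk, mul_comm])
        (fun j hj i hi => hdeg i hi j hj) (by omega) hA
      intro j hj
      obtain ⟨y, s, h1, h2⟩ := this j hj
      exact ⟨y, s, h1, fun i hi => h2 i hi⟩
  choose! y τ hτ0 hy using hcol
  exact ⟨x, σ, y, τ, hσ0, hτ0, fun i hi j hj => (hx i hi j hj).1,
    fun i hi h hh j hj hhi => (hx i hi j hj).2 h hh hhi, fun i hi j hj => (hy j hj i hi).1,
    fun i hi j hj k hk hkj => (hy j hj i hi).2 k hk hkj⟩

theorem grid_split (A : Finset α) (B : Finset β) (γ : α → β → ι → ℤ) (d : ι → ℂ)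
    (hd : ∀ x, d x ≠ 0) (D : ℂ)
    (hG : ∀ i ∈ A, ∀ j ∈ B, ∀ h ∈ A, ∀ k ∈ B, dotZ (γ i j) (γ h k) =
      (if i = h then 2 else 1) * (if j = k then 2 else 1) - 1)
    (hdeg : ∀ i ∈ A, ∀ j ∈ B, ∑ x, d x * (γ i j x : ℂ) = D) (hA : A.card = 2 ∨ 4 ≤ A.card)
    (hB : B.card = 2 ∨ 4 ≤ B.card) (hAB : 4 ≤ A.card ∨ 4 ≤ B.card) :
    ∃ (x : α → ι) (σ : α → ℤ) (y : β → ι) (τ : β → ℤ),
      (∀ i ∈ A, σ i ≠ 0) ∧ (∀ j ∈ B, τ j ≠ 0) ∧
      (∀ i ∈ A, ∀ j ∈ B, γ i j (x i) = σ i) ∧ (∀ i ∈ A, ∀ h ∈ A, ∀ j ∈ B, h ≠ i → γ h j (x i) = 0) ∧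
      (∀ i ∈ A, ∀ j ∈ B, γ i j (y j) = τ j) ∧ (∀ i ∈ A, ∀ j ∈ B, ∀ k ∈ B, k ≠ j → γ i k (y j) = 0) := by
  by_cases h4 : 4 ≤ B.card
  · exact grid_split_aux A B γ d hd D hG hdeg hA h4
  · have h5 : 4 ≤ A.card := by omega
    obtain ⟨y, τ, x, σ, h1, h2, h3, h6, h7, h8⟩ := grid_split_aux B A (fun j i => γ i j) d hd D
      (fun j hj i hi k hk h hh => by rw [hG i hi j hj h hh k hk, mul_comm])
      (fun j hj i hi => hdeg i hi j hj) hB h5
    exact ⟨x, σ, y, τ, h2, h1, fun i hi j hj => h7 j hj i hi, fun i hi h hh j hj hhi => h8 j hj i hi h hh hhi,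
      fun i hi j hj => h3 j hj i hi, fun i hi j hj k hk hkj => h6 j hj k hk i hi hkj⟩

/-- The vector with a single nonzero coordinate. -/
def sng (p : ι) (s : ℤ) : ι → ℤ := fun z => if z = p then s else 0

omit [Fintype ι] in
theorem sng_self (p : ι) (s : ℤ) : sng p s p = s := by simp [sng]

omit [Fintype ι] in
theorem sng_ne {p z : ι} (s : ℤ) (h : z ≠ p) : sng p s z = 0 := by simp [sng, h]

omit [Fintype ι] in
theorem sng_neg (p : ι) (s : ℤ) (z : ι) : sng p (-s) z = - sng p s z := by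
  unfold sng
  split_ifs <;> simp

theorem dotZ_sng_left (p : ι) (s : ℤ) (w : ι → ℤ) : dotZ (sng p s) w = s * w p := by
  unfold dotZ
  rw [Finset.sum_eq_single p]
  · rw [sng_self]
  · intro z _ hz
    rw [sng_ne s hz, zero_mul]
  · intro h
    exact absurd (Finset.mem_univ p) h

theorem dotZ_sng_right (v : ι → ℤ) (p : ι) (s : ℤ) : dotZ v (sng p s) = v p * s := by
  rw [dotZ_comm, dotZ_sng_left, mul_comm]

omit [DecidableEq ι] in
theorem dotZ_expand2 (v a b w a' b' : ι → ℤ) :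
    dotZ (fun z => v z - a z - b z) (fun z => w z - a' z - b' z) =
      dotZ v w - dotZ v a' - dotZ v b' - dotZ a w - dotZ b w + dotZ a a' + dotZ a b' + dotZ b a' +
        dotZ b b' := by
  unfold dotZ
  simp only [← Finset.sum_sub_distrib, ← Finset.sum_add_distrib]
  exact Finset.sum_congr rfl fun x _ => by ring

omit [DecidableEq ι] in
theorem dotZ_expand1 (v a w a' : ι → ℤ) :
    dotZ (fun z => v z - a z) (fun z => w z - a' z) =
      dotZ v w - dotZ v a' - dotZ a w + dotZ a a' := by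
  unfold dotZ
  simp only [← Finset.sum_sub_distrib, ← Finset.sum_add_distrib]
  exact Finset.sum_congr rfl fun x _ => by ring

theorem exists_sng_of_norm_one {c : ι → ℤ} (h : dotZ c c = 1) :
    ∃ z ρ, (ρ = 1 ∨ ρ = -1) ∧ c = sng z ρ := by
  have hex : ∃ z, c z ≠ 0 := by
    by_contra hcon
    push Not at hcon
    simp [dotZ, hcon] at h
  obtain ⟨z, hz⟩ := hex
  have h1 := one_le_sq hz
  have h2 := bessel1 z c
  rw [h] at h2
  have h3 : c z ^ 2 = 1 := le_antisymm h2 h1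
  refine ⟨z, c z, ?_, ?_⟩
  · have h4 := sq_bound (by linarith : c z ^ 2 ≤ 3)
    omega
  · funext y
    by_cases hy : y = z
    · rw [hy, sng_self]
    · rw [sng_ne _ hy]
      have h4 := bessel2 hy (c)
      rw [h, h3] at h4
      have h5 : c y ^ 2 ≤ 0 := by linarith
      exact pow_eq_zero_iff two_ne_zero |>.mp (le_antisymm h5 (sq_nonneg _))

/-- The grid theorem. -/
theorem grid_main (A : Finset α) (B : Finset β) (i₀ : α) (j₀ : β) (hi₀ : i₀ ∉ A) (hj₀ : j₀ ∉ B)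
    (e₀ : ι) (ν : α → β → ι → ℤ) (d : ι → ℂ) (hd : ∀ x, d x ≠ 0)
    (hG : ∀ i ∈ A, ∀ j ∈ B, ∀ h ∈ A, ∀ k ∈ B, dotZ (ν i j) (ν h k) =
      (if i = h then 2 else 1) * (if j = k then 2 else 1))
    (he : ∀ i ∈ A, ∀ j ∈ B, ν i j e₀ = 1)
    (hdeg : ∀ i ∈ A, ∀ j ∈ B, ∑ x, d x * (ν i j x : ℂ) = 0) (hA : A.card = 2 ∨ 4 ≤ A.card)
    (hB : B.card = 2 ∨ 4 ≤ B.card) (hAB : 4 ≤ A.card ∨ 4 ≤ B.card) :
    ∃ (P : α → β → ι) (Q : α → β → ℤ),
      (∀ i ∈ insert i₀ A, ∀ j ∈ insert j₀ B, Q i j = 1 ∨ Q i j = -1) ∧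
      (∀ i ∈ insert i₀ A, ∀ j ∈ insert j₀ B, ∀ h ∈ insert i₀ A, ∀ k ∈ insert j₀ B,
        P i j = P h k → i = h ∧ j = k) ∧
      P i₀ j₀ = e₀ ∧ Q i₀ j₀ = 1 ∧
      ∀ i ∈ A, ∀ j ∈ B, ∀ w, ν i j w =
        sng (P i₀ j₀) (Q i₀ j₀) w - sng (P i j₀) (Q i j₀) w - sng (P i₀ j) (Q i₀ j) w +
          sng (P i j) (Q i j) w := by
  have hA2 : 1 < A.card := by omega
  have hB2 : 1 < B.card := by omega
  obtain ⟨i₁, hi₁⟩ := Finset.card_pos.mp (by omega : 0 < A.card)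
  obtain ⟨j₁, hj₁⟩ := Finset.card_pos.mp (by omega : 0 < B.card)
  set γ : α → β → ι → ℤ := fun i j z => ν i j z - sng e₀ 1 z with hγ
  have hG' : ∀ i ∈ A, ∀ j ∈ B, ∀ h ∈ A, ∀ k ∈ B, dotZ (γ i j) (γ h k) =
      (if i = h then 2 else 1) * (if j = k then 2 else 1) - 1 := by
    intro i hi j hj h hh k hk
    have h1 := dotZ_expand1 (ν i j) (sng e₀ 1) (ν h k) (sng e₀ 1)
    rw [dotZ_sng_left, dotZ_sng_left, dotZ_sng_right, he i hi j hj, he h hh k hk, sng_self,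
      hG i hi j hj h hh k hk] at h1
    change dotZ (γ i j) (γ h k) = _ at h1
    rw [h1]
    ring
  have hsum1 : ∑ x, d x * ((sng e₀ 1 x : ℤ) : ℂ) = d e₀ := by
    rw [Finset.sum_eq_single e₀]
    · rw [sng_self]
      simp
    · intro z _ hz
      rw [sng_ne _ hz]
      simp
    · intro h
      exact absurd (Finset.mem_univ e₀) h
  have hdeg' : ∀ i ∈ A, ∀ j ∈ B, ∑ x, d x * (γ i j x : ℂ) = - d e₀ := by
    intro i hi j hj
    have h1 : ∑ x, d x * (γ i j x : ℂ) = ∑ x, d x * (ν i j x : ℂ) - ∑ x, d x * ((sng e₀ 1 x : ℤ) : ℂ) := by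
      rw [← Finset.sum_sub_distrib]
      refine Finset.sum_congr rfl fun x _ => ?_
      simp only [hγ]
      push_cast
      ring
    rw [h1, hdeg i hi j hj, hsum1, zero_sub]
  obtain ⟨x, σ, y, τ, hσ0, hτ0, hx1, hx2, hy1, hy2⟩ := grid_split A B γ d hd (- d e₀) hG' hdeg' hA hB hAB
  have N : ∀ i ∈ A, ∀ j ∈ B, dotZ (γ i j) (γ i j) = 3 := fun i hi j hj => by
    rw [hG' i hi j hj i hi j hj]
    simp
  have hσ : ∀ i ∈ A, σ i = 1 ∨ σ i = -1 := by
    intro i hi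
    have h1 := norm3_vals (N i hi j₁ hj₁) (x i)
    rw [hx1 i hi j₁ hj₁] at h1
    have := hσ0 i hi
    omega
  have hτ : ∀ j ∈ B, τ j = 1 ∨ τ j = -1 := by
    intro j hj
    have h1 := norm3_vals (N i₁ hi₁ j hj) (y j)
    rw [hy1 i₁ hi₁ j hj] at h1
    have := hτ0 j hj
    omega
  have hσσ : ∀ i ∈ A, σ i * σ i = 1 := by
    intro i hi
    rcases hσ i hi with h | h <;> rw [h] <;> norm_num
  have hττ : ∀ j ∈ B, τ j * τ j = 1 := by
    intro j hj
    rcases hτ j hj with h | h <;> rw [h] <;> norm_num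
  have he0 : ∀ i ∈ A, ∀ j ∈ B, γ i j e₀ = 0 := by
    intro i hi j hj
    simp only [hγ]
    rw [he i hi j hj, sng_self]
    norm_num
  have hxe : ∀ i ∈ A, x i ≠ e₀ := by
    intro i hi h
    have h1 := hx1 i hi j₁ hj₁
    rw [h, he0 i hi j₁ hj₁] at h1
    exact hσ0 i hi h1.symm
  have hye : ∀ j ∈ B, y j ≠ e₀ := by
    intro j hj h
    have h1 := hy1 i₁ hi₁ j hj
    rw [h, he0 i₁ hi₁ j hj] at h1
    exact hτ0 j hj h1.symm
  have hxx : ∀ i ∈ A, ∀ h ∈ A, x i = x h → i = h := by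
    intro i hi h hh hxih
    by_contra hne
    have h1 := hx2 i hi h hh j₁ hj₁ (Ne.symm hne)
    rw [hxih, hx1 h hh j₁ hj₁] at h1
    exact hσ0 h hh h1
  have hyy : ∀ j ∈ B, ∀ k ∈ B, y j = y k → j = k := by
    intro j hj k hk hyjk
    by_contra hne
    have h1 := hy2 i₁ hi₁ j hj k hk (Ne.symm hne)
    rw [hyjk, hy1 i₁ hi₁ k hk] at h1
    exact hτ0 k hk h1
  have hxy : ∀ i ∈ A, ∀ j ∈ B, x i ≠ y j := by
    intro i hi j hj h
    obtain ⟨h', hh', hh'i⟩ := Finset.exists_mem_ne hA2 i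
    have h1 := hx2 i hi h' hh' j hj hh'i
    rw [h, hy1 h' hh' j hj] at h1
    exact hτ0 j hj h1
  -- the remaining part
  set c : α → β → ι → ℤ := fun i j z => γ i j z - sng (x i) (σ i) z - sng (y j) (τ j) z with hc
  have hcx : ∀ i ∈ A, ∀ j ∈ B, ∀ h ∈ A, c i j (x h) = 0 := by
    intro i hi j hj h hh
    simp only [hc]
    rw [sng_ne _ (hxy h hh j hj)]
    by_cases e : h = i
    · subst e
      rw [hx1 h hi j hj, sng_self]
      ring
    · rw [hx2 h hh i hi j hj (Ne.symm e), sng_ne _ (fun e' => e (hxx h hh i hi e'))]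
      ring
  have hcy : ∀ i ∈ A, ∀ j ∈ B, ∀ k ∈ B, c i j (y k) = 0 := by
    intro i hi j hj k hk
    simp only [hc]
    rw [sng_ne _ (Ne.symm (hxy i hi k hk))]
    by_cases e : k = j
    · subst e
      rw [hy1 i hi k hj, sng_self]
      ring
    · rw [hy2 i hi k hk j hj (Ne.symm e), sng_ne _ (fun e' => e (hyy k hk j hj e'))]
      ring
  have hce : ∀ i ∈ A, ∀ j ∈ B, c i j e₀ = 0 := by
    intro i hi j hj
    simp only [hc]
    rw [he0 i hi j hj, sng_ne _ (Ne.symm (hxe i hi)), sng_ne _ (Ne.symm (hye j hj))]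
    ring
  have hcc : ∀ i ∈ A, ∀ j ∈ B, ∀ h ∈ A, ∀ k ∈ B, dotZ (c i j) (c h k) = if i = h ∧ j = k then 1 else 0 := by
    intro i hi j hj h hh k hk
    have E := dotZ_expand2 (γ i j) (sng (x i) (σ i)) (sng (y j) (τ j)) (γ h k) (sng (x h) (σ h))
      (sng (y k) (τ k))
    change dotZ (c i j) (c h k) = _ at E
    rw [E, hG' i hi j hj h hh k hk]
    simp only [dotZ_sng_left, dotZ_sng_right]
    rw [sng_ne (σ i) (Ne.symm (hxy i hi k hk)), sng_ne (τ j) (hxy h hh j hj)]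
    by_cases e1 : i = h <;> by_cases e2 : j = k
    · subst e1 e2
      rw [hx1 i hi j hj, hy1 i hi j hj, sng_self, sng_self, if_pos rfl, if_pos rfl, if_pos ⟨rfl, rfl⟩]
      have h1 := hσσ i hi
      have h2 := hττ j hj
      linear_combination (-1 : ℤ) * h1 + (-1 : ℤ) * h2
    · subst e1
      rw [hx1 i hi j hj, hy2 i hi k hk j hj e2, hx1 i hi k hk, hy2 i hi j hj k hk (Ne.symm e2),
        sng_self, sng_ne _ (fun e' => e2 (hyy k hk j hj e').symm), if_pos rfl, if_neg e2,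
        if_neg (fun h => e2 h.2)]
      have h1 := hσσ i hi
      linear_combination (-1 : ℤ) * h1
    · subst e2
      rw [hx2 h hh i hi j hj e1, hy1 i hi j hj, hx2 i hi h hh j hj (Ne.symm e1), hy1 h hh j hj,
        sng_ne _ (fun e' => e1 (hxx h hh i hi e').symm), sng_self, if_neg e1, if_pos rfl,
        if_neg (fun h => e1 h.1)]
      have h1 := hττ j hj
      linear_combination (-1 : ℤ) * h1
    · rw [hx2 h hh i hi j hj e1, hy2 i hi k hk j hj e2, hx2 i hi h hh k hk (Ne.symm e1),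
        hy2 h hh j hj k hk (Ne.symm e2), sng_ne _ (fun e' => e1 (hxx h hh i hi e').symm),
        sng_ne _ (fun e' => e2 (hyy k hk j hj e').symm), if_neg e1, if_neg e2, if_neg (fun h => e1 h.1)]
      ring
  have hsng : ∀ i ∈ A, ∀ j ∈ B, ∃ z ρ, (ρ = 1 ∨ ρ = -1) ∧ c i j = sng z ρ := by
    intro i hi j hj
    refine exists_sng_of_norm_one ?_
    rw [hcc i hi j hj i hi j hj, if_pos ⟨rfl, rfl⟩]
  haveI : Nonempty ι := ⟨e₀⟩
  choose! z ρ hρ hz using hsng
  have hρ0 : ∀ i ∈ A, ∀ j ∈ B, c i j (z i j) ≠ 0 := by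
    intro i hi j hj
    rw [hz i hi j hj, sng_self]
    rcases hρ i hi j hj with h | h <;> rw [h] <;> norm_num
  have hze : ∀ i ∈ A, ∀ j ∈ B, z i j ≠ e₀ := by
    intro i hi j hj h
    have h1 := hρ0 i hi j hj
    rw [h] at h1
    exact h1 (hce i hi j hj)
  have hzx : ∀ i ∈ A, ∀ j ∈ B, ∀ h ∈ A, z i j ≠ x h := by
    intro i hi j hj h hh e
    have h1 := hρ0 i hi j hj
    rw [e] at h1
    exact h1 (hcx i hi j hj h hh)
  have hzy : ∀ i ∈ A, ∀ j ∈ B, ∀ k ∈ B, z i j ≠ y k := by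
    intro i hi j hj k hk e
    have h1 := hρ0 i hi j hj
    rw [e] at h1
    exact h1 (hcy i hi j hj k hk)
  have hzz : ∀ i ∈ A, ∀ j ∈ B, ∀ h ∈ A, ∀ k ∈ B, z i j = z h k → i = h ∧ j = k := by
    intro i hi j hj h hh k hk e
    by_contra hne
    have h1 := hcc i hi j hj h hh k hk
    rw [if_neg hne, hz i hi j hj, dotZ_sng_left, hz h hh k hk, e, sng_self] at h1
    rcases hρ i hi j hj with h2 | h2 <;> rcases hρ h hh k hk with h3 | h3 <;> rw [h2, h3] at h1 <;>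
      norm_num at h1
  classical
  refine ⟨fun i j => if i = i₀ then (if j = j₀ then e₀ else y j) else (if j = j₀ then x i else z i j),
    fun i j => if i = i₀ then (if j = j₀ then 1 else - τ j) else (if j = j₀ then - σ i else ρ i j),
    ?_, ?_, by simp, by simp, ?_⟩
  · intro i hi j hj
    simp only [Finset.mem_insert] at hi hj
    by_cases e1 : i = i₀ <;> by_cases e2 : j = j₀
    · simp [e1, e2]
    · have hj' : j ∈ B := hj.resolve_left e2
      simp only [e1, if_true, if_neg e2]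
      rcases hτ j hj' with h | h <;> rw [h] <;> norm_num
    · have hi' : i ∈ A := hi.resolve_left e1
      simp only [e2, if_true, if_neg e1]
      rcases hσ i hi' with h | h <;> rw [h] <;> norm_num
    · simp only [if_neg e1, if_neg e2]
      exact hρ i (hi.resolve_left e1) j (hj.resolve_left e2)
  · intro i hi j hj h hh k hk
    simp only [Finset.mem_insert] at hi hj hh hk
    by_cases e1 : i = i₀ <;> by_cases e2 : j = j₀ <;> by_cases e3 : h = i₀ <;> by_cases e4 : k = j₀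
    all_goals simp only [e1, e2, e3, e4, if_true, if_false]
    all_goals intro e
    · exact ⟨trivial, trivial⟩
    · exact absurd e.symm (hye k (hk.resolve_left e4))
    · exact absurd e.symm (hxe h (hh.resolve_left e3))
    · exact absurd e.symm (hze h (hh.resolve_left e3) k (hk.resolve_left e4))
    · exact absurd e (hye j (hj.resolve_left e2))
    · exact ⟨trivial, hyy j (hj.resolve_left e2) k (hk.resolve_left e4) e⟩
    · exact absurd e.symm (hxy h (hh.resolve_left e3) j (hj.resolve_left e2))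
    · exact absurd e.symm (hzy h (hh.resolve_left e3) k (hk.resolve_left e4) j (hj.resolve_left e2))
    · exact absurd e (hxe i (hi.resolve_left e1))
    · exact absurd e (hxy i (hi.resolve_left e1) k (hk.resolve_left e4))
    · exact ⟨hxx i (hi.resolve_left e1) h (hh.resolve_left e3) e, trivial⟩
    · exact absurd e.symm (hzx h (hh.resolve_left e3) k (hk.resolve_left e4) i (hi.resolve_left e1))
    · exact absurd e (hze i (hi.resolve_left e1) j (hj.resolve_left e2))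
    · exact absurd e (hzy i (hi.resolve_left e1) j (hj.resolve_left e2) k (hk.resolve_left e4))
    · exact absurd e (hzx i (hi.resolve_left e1) j (hj.resolve_left e2) h (hh.resolve_left e3))
    · exact hzz i (hi.resolve_left e1) j (hj.resolve_left e2) h (hh.resolve_left e3) k
        (hk.resolve_left e4) e
  · intro i hi j hj w
    have e1 : i ≠ i₀ := fun e => hi₀ (e ▸ hi)
    have e2 : j ≠ j₀ := fun e => hj₀ (e ▸ hj)
    simp only [if_true, if_neg e1, if_neg e2]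
    rw [sng_neg, sng_neg, ← hz i hi j hj]
    simp only [hc, hγ]
    ring

end Grid

end Vec

end Cfsg.Agent.Lib.OddChar.TIGrid
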